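import Mathlib
import Cfsg.Prelude.Def_GeometricClasses

/-!
# Basic vocabulary for subgroup structure: invariant subspaces, the algebra generated by a set of matrices,
Burnside's theorem
-/

set_option autoImplicit false

namespace Cfsg.Agent.Lib.Asch.Basic

open Matrix Module Cfsg Cfsg.Geo

universe u

variable {ι : Type} [Fintype ι] [DecidableEq ι] {F : Type u} [Field F]

/-- Irreducibility in terms of vectors. -/
theorem irr_iff (S : Set (Matrix ι ι F)) :
    ActsIrreducibly S ↔ ∀ W : Submodule F (ι → F), (∀ s ∈ S, ∀ v ∈ W, s *ᵥ v ∈ W) → W = ⊥ ∨ W = ⊤ := by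
  constructor
  · intro h W hW
    apply h W
    rintro s hs _ ⟨v, hv, rfl⟩
    exact hW s hs v hv
  · intro h W hW
    apply h W
    intro s hs v hv
    exact hW s hs ⟨v, hv, rfl⟩

theorem mem_matrixSet {R : Subgroup (GL ι F)} {g : GL ι F} (hg : g ∈ R) : (g : Matrix ι ι F) ∈ matrixSet R :=
  ⟨g, hg, rfl⟩

/-- The algebra of linear maps generated by a set of matrices. -/
noncomputable def Alg (S : Set (Matrix ι ι F)) : Subalgebra F (Module.End F (ι → F)) :=
  Algebra.adjoin F ((fun s : Matrix ι ι F => (Matrix.toLin' s : Module.End F (ι → F))) '' S)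

theorem gen_mem_Alg {S : Set (Matrix ι ι F)} {s : Matrix ι ι F} (hs : s ∈ S) :
    (Matrix.toLin' s : Module.End F (ι → F)) ∈ Alg S :=
  Algebra.subset_adjoin ⟨s, hs, rfl⟩

/-- A subspace invariant under generators is invariant under the algebra. -/
theorem inv_of_mem_Alg {S : Set (Matrix ι ι F)} {W : Submodule F (ι → F)} (hW : ∀ s ∈ S, ∀ v ∈ W, s *ᵥ v ∈ W)
    {a : Module.End F (ι → F)} (ha : a ∈ Alg S) : ∀ v ∈ W, a v ∈ W := by
  induction ha using Algebra.adjoin_induction with
  | mem x hx =>
    obtain ⟨s, hs, rfl⟩ := hx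
    intro v hv
    rw [Matrix.toLin'_apply]
    exact hW s hs v hv
  | algebraMap c =>
    intro v hv
    simpa [Module.algebraMap_end_apply] using W.smul_mem c hv
  | add x y _ _ hx hy =>
    intro v hv
    exact W.add_mem (hx v hv) (hy v hv)
  | mul x y _ _ hx hy =>
    intro v hv
    exact hx _ (hy v hv)

/-- A linear map commuting with the generators commutes with the algebra. -/
theorem comm_of_mem_Alg {S : Set (Matrix ι ι F)} {c : Module.End F (ι → F)}
    (hc : ∀ s ∈ S, c * (Matrix.toLin' s : Module.End F (ι → F)) = (Matrix.toLin' s : Module.End F (ι → F)) * c)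
    {a : Module.End F (ι → F)} (ha : a ∈ Alg S) : c * a = a * c := by
  induction ha using Algebra.adjoin_induction with
  | mem x hx =>
    obtain ⟨s, hs, rfl⟩ := hx
    exact hc s hs
  | algebraMap d =>
    exact (Algebra.commutes d c).symm
  | add x y _ _ hx hy =>
    rw [mul_add, add_mul, hx, hy]
  | mul x y _ _ hx hy =>
    rw [← mul_assoc, hx, mul_assoc, hy, mul_assoc]

/-- The algebra generated by a set of matrices, as a ring of coefficients. -/
def AT (S : Set (Matrix ι ι F)) : Type u := ↥(Alg S)

noncomputable instance AT.instRing (S : Set (Matrix ι ι F)) : Ring (AT S) := inferInstanceAs (Ring ↥(Alg S))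

noncomputable instance AT.instAlgebra (S : Set (Matrix ι ι F)) : Algebra F (AT S) :=
  inferInstanceAs (Algebra F ↥(Alg S))

noncomputable instance AT.instModule (S : Set (Matrix ι ι F)) : Module (AT S) (ι → F) :=
  Module.compHom _ (((Alg S).val.toRingHom : ↥(Alg S) →+* Module.End F (ι → F)))

theorem AT.smul_def {S : Set (Matrix ι ι F)} (a : AT S) (v : ι → F) :
    a • v = (a.1 : Module.End F (ι → F)) v := rfl

instance AT.instTower (S : Set (Matrix ι ι F)) : IsScalarTower F (AT S) (ι → F) := ⟨fun _ _ _ => rfl⟩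

instance AT.instComm (S : Set (Matrix ι ι F)) : SMulCommClass F (AT S) (ι → F) := ⟨fun c a v => by
  rw [AT.smul_def, AT.smul_def, map_smul]⟩

instance AT.instComm' (S : Set (Matrix ι ι F)) : SMulCommClass (AT S) F (ι → F) := SMulCommClass.symm _ _ _

/-- The element of the algebra attached to a generator. -/
noncomputable def AT.gen {S : Set (Matrix ι ι F)} {s : Matrix ι ι F} (hs : s ∈ S) : AT S := ⟨_, gen_mem_Alg hs⟩

theorem AT.gen_smul {S : Set (Matrix ι ι F)} {s : Matrix ι ι F} (hs : s ∈ S) (v : ι → F) :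
    AT.gen hs • v = s *ᵥ v := Matrix.toLin'_apply s v

/-- The submodule over the algebra attached to an invariant subspace. -/
noncomputable def toASub {S : Set (Matrix ι ι F)} (W : Submodule F (ι → F)) (hW : ∀ s ∈ S, ∀ v ∈ W, s *ᵥ v ∈ W) :
    Submodule (AT S) (ι → F) where
  carrier := W
  add_mem' := W.add_mem
  zero_mem' := W.zero_mem
  smul_mem' := fun a _ hv => inv_of_mem_Alg hW a.2 _ hv

theorem mem_toASub {S : Set (Matrix ι ι F)} {W : Submodule F (ι → F)} {hW : ∀ s ∈ S, ∀ v ∈ W, s *ᵥ v ∈ W}
    {v : ι → F} : v ∈ toASub W hW ↔ v ∈ W := Iff.rfl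

/-- Matrix of an algebra-linear endomorphism. -/
noncomputable def matOf {S : Set (Matrix ι ι F)} (c : (ι → F) →ₗ[AT S] (ι → F)) : Matrix ι ι F :=
  LinearMap.toMatrix' (c.restrictScalars F)

theorem matOf_mulVec {S : Set (Matrix ι ι F)} (c : (ι → F) →ₗ[AT S] (ι → F)) (v : ι → F) :
    matOf c *ᵥ v = c v :=
  LinearMap.toMatrix'_mulVec (c.restrictScalars F) v

theorem matOf_comm {S : Set (Matrix ι ι F)} (c : (ι → F) →ₗ[AT S] (ι → F)) {s : Matrix ι ι F} (hs : s ∈ S) :
    matOf c * s = s * matOf c := by
  apply Matrix.ext_of_mulVec_single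
  intro i
  rw [← Matrix.mulVec_mulVec, ← Matrix.mulVec_mulVec, matOf_mulVec, matOf_mulVec]
  have h := c.map_smul (AT.gen hs) (Pi.single i 1)
  rw [AT.gen_smul, AT.gen_smul] at h
  exact h

/-- An algebra-linear endomorphism from a commuting matrix. -/
noncomputable def ofComm {S : Set (Matrix ι ι F)} (M : Matrix ι ι F) (hM : ∀ s ∈ S, M * s = s * M) :
    (ι → F) →ₗ[AT S] (ι → F) where
  toFun := fun v => M *ᵥ v
  map_add' := Matrix.mulVec_add M
  map_smul' := by
    intro a v
    have h := comm_of_mem_Alg (S := S) (c := Matrix.toLin' M) (a := a.1) (by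
      intro s hs
      have h3 : (Matrix.toLin' (M * s) : Module.End F (ι → F)) = Matrix.toLin' M * Matrix.toLin' s := Matrix.toLin'_mul M s
      have h4 : (Matrix.toLin' (s * M) : Module.End F (ι → F)) = Matrix.toLin' s * Matrix.toLin' M := Matrix.toLin'_mul s M
      rw [← h3, ← h4, hM s hs]) a.2
    have h2 := congrArg (fun f : Module.End F (ι → F) => f v) h
    simp only [Module.End.mul_apply, Matrix.toLin'_apply] at h2
    simp only [RingHom.id_apply]
    rw [AT.smul_def, AT.smul_def]
    exact h2

theorem ofComm_apply {S : Set (Matrix ι ι F)} (M : Matrix ι ι F) (hM : ∀ s ∈ S, M * s = s * M) (v : ι → F) :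
    ofComm M hM v = M *ᵥ v := rfl

/-- Burnside's theorem: an absolutely irreducible set of matrices generates the whole endomorphism algebra. -/
theorem alg_eq_top [Nonempty ι] {S : Set (Matrix ι ι F)} (hS : ActsAbsolutelyIrreducibly S) : Alg S = ⊤ := by
  classical
  haveI : Nontrivial (ι → F) := inferInstance
  -- the module is simple
  haveI hsimple : IsSimpleOrder (Submodule (AT S) (ι → F)) := by
    refine ⟨?_⟩
    intro U
    have hU : ∀ s ∈ S, ∀ v ∈ U.restrictScalars F, s *ᵥ v ∈ U.restrictScalars F := by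
      intro s hs v hv
      have h1 := U.smul_mem (AT.gen hs) hv
      rw [AT.gen_smul] at h1
      exact h1
    rcases (irr_iff S).1 hS.1 _ hU with h | h
    · left
      rw [eq_bot_iff]
      intro v hv
      have : v ∈ U.restrictScalars F := hv
      rw [h] at this
      simpa using this
    · right
      rw [eq_top_iff]
      intro v _
      have : v ∈ U.restrictScalars F := by rw [h]; trivial
      exact this
  haveI : IsSimpleModule (AT S) (ι → F) := ⟨⟩
  haveI : IsSemisimpleModule (AT S) (ι → F) := inferInstance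
  -- endomorphisms are scalars
  have hend : ∀ c : Module.End (AT S) (ι → F), ∃ d : F, ∀ v, c v = d • v := by
    intro c
    obtain ⟨d, hd⟩ := hS.2 (matOf c) (fun s hs => matOf_comm c hs)
    refine ⟨d, fun v => ?_⟩
    rw [← matOf_mulVec, hd, Matrix.smul_mulVec, Matrix.one_mulVec]
  -- every linear map is realised
  rw [eq_top_iff]
  intro f _
  obtain ⟨r, hr⟩ := jacobson_density (R := AT S) (M := ι → F)
    { toFun := f
      map_add' := f.map_add
      map_smul' := by
        intro c v
        obtain ⟨d, hd⟩ := hend c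
        simp only [RingHom.id_apply, Module.End.smul_def]
        rw [hd, hd, f.map_smul] } (Finset.univ.image fun i : ι => (Pi.single i 1 : ι → F))
  have hfr : f = (r.1 : Module.End F (ι → F)) := by
    apply LinearMap.pi_ext'
    intro i
    apply LinearMap.ext_ring
    have h1 := hr (Pi.single i 1) (Finset.mem_image_of_mem _ (Finset.mem_univ i))
    exact h1
  rw [hfr]
  exact r.2

/-- Burnside's theorem in the matrix algebra: an absolutely irreducible set generates all matrices. -/
theorem adjoin_eq_top [Nonempty ι] {S : Set (Matrix ι ι F)} (hS : ActsAbsolutelyIrreducibly S) :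
    Algebra.adjoin F S = ⊤ := by
  have h1 := alg_eq_top hS
  rw [eq_top_iff]
  intro M _
  have h2 : (Matrix.toLin' M : Module.End F (ι → F)) ∈ Alg S := by
    rw [h1]; trivial
  have h3 : (Algebra.adjoin F S).map (Matrix.toLinAlgEquiv' : Matrix ι ι F ≃ₐ[F] Module.End F (ι → F)).toAlgHom = Alg S := by
    rw [AlgHom.map_adjoin]
    rfl
  rw [← h3] at h2
  obtain ⟨M', hM', hMM⟩ := h2
  have : M' = M := (Matrix.toLin' : Matrix ι ι F ≃ₗ[F] Module.End F (ι → F)).injective hMM
  rw [← this]
  exact hM'

/-- Burnside's theorem for a subgroup. -/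
theorem span_matrixSet_eq_top [Nonempty ι] {R : Subgroup (GL ι F)} (hR : ActsAbsolutelyIrreducibly (matrixSet R)) :
    Submodule.span F (matrixSet R) = ⊤ := by
  classical
  have h1 := alg_eq_top hR
  have hmul : Submodule.span F (matrixSet R) * Submodule.span F (matrixSet R) ≤ Submodule.span F (matrixSet R) := by
    rw [Submodule.span_mul_span]
    apply Submodule.span_mono
    rintro _ ⟨_, ⟨a, ha, rfl⟩, _, ⟨b, hb, rfl⟩, rfl⟩
    exact ⟨a * b, R.mul_mem ha hb, rfl⟩
  rw [eq_top_iff]
  intro M _
  have h2 : (Matrix.toLin' M : Module.End F (ι → F)) ∈ Alg (matrixSet R) := by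
    rw [h1]; trivial
  have h3 : (Algebra.adjoin F ((fun s : Matrix ι ι F => (Matrix.toLin' s : Module.End F (ι → F))) '' matrixSet R)).toSubmodule ≤
      (Submodule.span F (matrixSet R)).map (Matrix.toLin' : Matrix ι ι F ≃ₗ[F] Module.End F (ι → F)).toLinearMap := by
    rw [Algebra.adjoin_eq_span]
    rw [Submodule.span_le]
    intro x hx
    induction hx using Submonoid.closure_induction with
    | mem y hy =>
      obtain ⟨s, hs, rfl⟩ := hy
      exact ⟨s, Submodule.subset_span hs, rfl⟩
    | one =>
      refine ⟨1, Submodule.subset_span ⟨1, R.one_mem, rfl⟩, ?_⟩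
      simp only [LinearEquiv.coe_coe, Matrix.toLin'_one]
      rfl
    | mul a b _ _ ha hb =>
      obtain ⟨a', ha', rfl⟩ := ha
      obtain ⟨b', hb', rfl⟩ := hb
      exact ⟨a' * b', hmul (Submodule.mul_mem_mul ha' hb'), Matrix.toLin'_mul a' b'⟩
  obtain ⟨M', hM', hMM⟩ := h3 h2
  have : M' = M := (Matrix.toLin' : Matrix ι ι F ≃ₗ[F] Module.End F (ι → F)).injective hMM
  rw [← this]
  exact hM'

end Cfsg.Agent.Lib.Asch.Basic
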