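import Mathlib
import Cfsg.Agent.Lib.Asch.Basic

/-!
# Orthogonal idempotents permuted by an irreducible group
-/

set_option autoImplicit false

namespace Cfsg.Agent.Lib.Asch.Idem

open Matrix Module Cfsg Cfsg.Geo Cfsg.Agent.Lib.Asch.Basic

universe u

variable {ι : Type} [Fintype ι] [DecidableEq ι] {F : Type u} [Field F] [Fintype F]

/-- An orthogonal system of idempotents permuted transitively by `H`. -/
structure IdemSystem (H : Subgroup (GL ι F)) (K : Set (Matrix ι ι F)) (t : ℕ) (x : Fin t → Matrix ι ι F) : Prop where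
  mem : ∀ i, x i ∈ K
  idem : ∀ i, x i * x i = x i
  ne : ∀ i, x i ≠ 0
  orth : ∀ i j, i ≠ j → x i * x j = 0
  sum : ∑ i, x i = 1
  perm : ∀ g ∈ H, ∃ σ : Equiv.Perm (Fin t), ∀ i, (g : Matrix ι ι F) * x i * ((g⁻¹ : GL ι F) : Matrix ι ι F) = x (σ i)
  trans : ∀ i j, ∃ g ∈ H, (g : Matrix ι ι F) * x i * ((g⁻¹ : GL ι F) : Matrix ι ι F) = x j
  two : 2 ≤ t

omit [Fintype F] in
theorem rank_conj (g : GL ι F) (k : Matrix ι ι F) :
    ((g : Matrix ι ι F) * k * ((g⁻¹ : GL ι F) : Matrix ι ι F)).rank = k.rank := by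
  rw [Matrix.rank_mul_eq_left_of_isUnit_det _ _ (Matrix.isUnits_det_units g⁻¹),
    Matrix.rank_mul_eq_right_of_isUnit_det _ _ (Matrix.isUnits_det_units g)]

omit [Fintype F] in
theorem conj_mul (g : GL ι F) (a b : Matrix ι ι F) :
    ((g : Matrix ι ι F) * a * ((g⁻¹ : GL ι F) : Matrix ι ι F)) * ((g : Matrix ι ι F) * b * ((g⁻¹ : GL ι F) : Matrix ι ι F)) =
      (g : Matrix ι ι F) * (a * b) * ((g⁻¹ : GL ι F) : Matrix ι ι F) := by
  have h1 : ((g⁻¹ : GL ι F) : Matrix ι ι F) * (g : Matrix ι ι F) = 1 := by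
    rw [← Units.val_mul, inv_mul_cancel, Units.val_one]
  calc _ = (g : Matrix ι ι F) * a * (((g⁻¹ : GL ι F) : Matrix ι ι F) * (g : Matrix ι ι F)) * b * ((g⁻¹ : GL ι F) : Matrix ι ι F) := by
        simp only [mul_assoc]
    _ = _ := by rw [h1]; simp only [mul_assoc, mul_one]

omit [Fintype F] in
theorem conj_conj (g h : GL ι F) (a : Matrix ι ι F) :
    (g : Matrix ι ι F) * ((h : Matrix ι ι F) * a * ((h⁻¹ : GL ι F) : Matrix ι ι F)) * ((g⁻¹ : GL ι F) : Matrix ι ι F) =
      ((g * h : GL ι F) : Matrix ι ι F) * a * (((g * h)⁻¹ : GL ι F) : Matrix ι ι F) := by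
  rw [_root_.mul_inv_rev, Units.val_mul, Units.val_mul]
  simp only [mul_assoc]

omit [Fintype F] in
theorem conj_inv_conj (g : GL ι F) (a : Matrix ι ι F) :
    ((g⁻¹ : GL ι F) : Matrix ι ι F) * ((g : Matrix ι ι F) * a * ((g⁻¹ : GL ι F) : Matrix ι ι F)) * (((g⁻¹)⁻¹ : GL ι F) : Matrix ι ι F) = a := by
  rw [inv_inv]
  have h1 : ((g⁻¹ : GL ι F) : Matrix ι ι F) * (g : Matrix ι ι F) = 1 := by
    rw [← Units.val_mul, inv_mul_cancel, Units.val_one]
  calc _ = (((g⁻¹ : GL ι F) : Matrix ι ι F) * (g : Matrix ι ι F)) * a * (((g⁻¹ : GL ι F) : Matrix ι ι F) * (g : Matrix ι ι F)) := by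
        simp only [mul_assoc]
    _ = a := by rw [h1]; simp

omit [Fintype F] in
theorem idem_eq_of_rank {a c : Matrix ι ι F} (hac : a * c = c) (hca : c * a = c) (hc : c * c = c)
    (hr : c.rank = a.rank) : c = a := by
  have hle : LinearMap.range c.mulVecLin ≤ LinearMap.range a.mulVecLin := by
    rintro _ ⟨w, rfl⟩
    refine ⟨c *ᵥ w, ?_⟩
    simp only [Matrix.mulVecLin_apply, Matrix.mulVec_mulVec, hac]
  have heq : LinearMap.range c.mulVecLin = LinearMap.range a.mulVecLin :=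
    Submodule.eq_of_le_of_finrank_eq hle hr
  apply Matrix.ext_of_mulVec_single
  intro i
  set v : ι → F := Pi.single i 1
  have h1 : a *ᵥ v ∈ LinearMap.range c.mulVecLin := by
    rw [heq]
    exact ⟨v, rfl⟩
  obtain ⟨w, hw⟩ := h1
  have hw' : c *ᵥ w = a *ᵥ v := hw
  calc c *ᵥ v = (c * a) *ᵥ v := by rw [hca]
    _ = c *ᵥ (a *ᵥ v) := (Matrix.mulVec_mulVec _ _ _).symm
    _ = c *ᵥ (c *ᵥ w) := by rw [hw']
    _ = (c * c) *ᵥ w := Matrix.mulVec_mulVec _ _ _
    _ = a *ᵥ v := by rw [hc, hw']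

omit [Fintype F] in
theorem eq_one_of_surj {s : Matrix ι ι F} (hs : s * s = s) (htop : LinearMap.range s.mulVecLin = ⊤) : s = 1 := by
  apply Matrix.ext_of_mulVec_single
  intro i
  have h1 : (Pi.single i 1 : ι → F) ∈ LinearMap.range s.mulVecLin := by rw [htop]; trivial
  obtain ⟨w, hw⟩ := h1
  have hw' : s *ᵥ w = Pi.single i 1 := hw
  rw [Matrix.one_mulVec, ← hw', Matrix.mulVec_mulVec, hs]

variable (H : Subgroup (GL ι F))

theorem exists_idemSystem (hIrr : ActsIrreducibly (matrixSet H)) (K : Set (Matrix ι ι F))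
    (hcomm : ∀ x ∈ K, ∀ y ∈ K, x * y = y * x) (hmul : ∀ x ∈ K, ∀ y ∈ K, x * y ∈ K)
    (hconj : ∀ g ∈ H, ∀ k ∈ K, (g : Matrix ι ι F) * k * ((g⁻¹ : GL ι F) : Matrix ι ι F) ∈ K)
    (e : Matrix ι ι F) (heK : e ∈ K) (hee : e * e = e) (he0 : e ≠ 0) (he1 : e ≠ 1) :
    ∃ (t : ℕ) (x : Fin t → Matrix ι ι F), IdemSystem H K t x := by
  classical
  -- a nonzero idempotent of minimal rank
  let E : Set (Matrix ι ι F) := {y | y ∈ K ∧ y * y = y ∧ y ≠ 0}
  obtain ⟨e₀, he₀, hmin⟩ := Set.exists_min_image E Matrix.rank (Set.toFinite _) ⟨e, heK, hee, he0⟩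
  obtain ⟨he₀K, he₀e, he₀0⟩ := he₀
  let φ : GL ι F → Matrix ι ι F → Matrix ι ι F := fun g a => (g : Matrix ι ι F) * a * ((g⁻¹ : GL ι F) : Matrix ι ι F)
  have hφinj : ∀ g, Function.Injective (φ g) := by
    intro g a b hab
    have h1 := congrArg (φ g⁻¹) hab
    simpa only [φ, conj_inv_conj] using h1
  let X : Finset (Matrix ι ι F) := Finset.univ.filter fun y => ∃ g ∈ H, φ g e₀ = y
  have hX : ∀ y, y ∈ X ↔ ∃ g ∈ H, φ g e₀ = y := fun y => by simp [X]
  have he₀X : e₀ ∈ X := (hX _).2 ⟨1, H.one_mem, by simp [φ]⟩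
  have hXE : ∀ y ∈ X, y ∈ K ∧ y * y = y ∧ y ≠ 0 ∧ y.rank = e₀.rank := by
    intro y hy
    obtain ⟨g, hg, rfl⟩ := (hX _).1 hy
    refine ⟨hconj g hg _ he₀K, ?_, ?_, rank_conj g e₀⟩
    · simp only [φ]
      rw [conj_mul, he₀e]
    · intro h0
      apply he₀0
      apply hφinj g
      rw [h0]
      simp [φ]
  have hXφ : ∀ g ∈ H, ∀ y ∈ X, φ g y ∈ X := by
    intro g hg y hy
    obtain ⟨h, hh, rfl⟩ := (hX _).1 hy
    refine (hX _).2 ⟨g * h, H.mul_mem hg hh, ?_⟩
    simp only [φ]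
    rw [conj_conj]
  have horth : ∀ a ∈ X, ∀ b ∈ X, a ≠ b → a * b = 0 := by
    intro a ha b hb hab
    by_contra hne
    obtain ⟨haK, haa, ha0, har⟩ := hXE a ha
    obtain ⟨hbK, hbb, hb0, hbr⟩ := hXE b hb
    have hcab := hcomm a haK b hbK
    have hcc : (a * b) * (a * b) = a * b := by
      calc (a * b) * (a * b) = a * (b * a) * b := by simp only [mul_assoc]
        _ = a * (a * b) * b := by rw [← hcab]
        _ = (a * a) * (b * b) := by simp only [mul_assoc]
        _ = a * b := by rw [haa, hbb]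
    have hmem : a * b ∈ E := ⟨hmul a haK b hbK, hcc, hne⟩
    have h1 := hmin _ hmem
    have h2 : (a * b).rank ≤ a.rank := Matrix.rank_mul_le_left a b
    have h3 : (a * b).rank ≤ b.rank := Matrix.rank_mul_le_right a b
    have h4 : a * b = a := idem_eq_of_rank (by rw [← mul_assoc, haa]) (by rw [mul_assoc, ← hcab, ← mul_assoc, haa]) hcc (by omega)
    have h5 : a * b = b := idem_eq_of_rank (by rw [hcab, ← mul_assoc, hbb]) (by rw [mul_assoc, hbb]) hcc (by omega)
    exact hab (h4.symm.trans h5)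
  -- the sum of the orbit
  let s : Matrix ι ι F := ∑ a ∈ X, a
  have hsa : ∀ a ∈ X, s * a = a := by
    intro a ha
    simp only [s]
    rw [Finset.sum_mul, Finset.sum_eq_single a]
    · exact (hXE a ha).2.1
    · intro b hb hba
      exact horth b hb a ha hba
    · intro h
      exact absurd ha h
  have hss : s * s = s := by
    conv_lhs => rw [show s = ∑ a ∈ X, a from rfl, Finset.mul_sum]
    exact Finset.sum_congr rfl hsa
  have hsconj : ∀ g ∈ H, φ g s = s := by
    intro g hg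
    have h1 : φ g s = ∑ a ∈ X, φ g a := by
      simp only [φ, s]
      rw [Finset.mul_sum, Finset.sum_mul]
    have h2 : X.image (φ g) = X := by
      apply Finset.eq_of_subset_of_card_le
      · intro y hy
        obtain ⟨a, ha, rfl⟩ := Finset.mem_image.1 hy
        exact hXφ g hg a ha
      · rw [Finset.card_image_of_injective _ (hφinj g)]
    rw [h1, ← Finset.sum_image (f := fun y => y) (fun a _ b _ hab => hφinj g hab), h2]
  have hs0 : s ≠ 0 := by
    intro h0
    have h1 := hsa e₀ he₀X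
    rw [h0, zero_mul] at h1
    exact he₀0 h1.symm
  have hs1 : s = 1 := by
    apply eq_one_of_surj hss
    rcases (irr_iff _).1 hIrr (LinearMap.range s.mulVecLin) (by
      rintro _ ⟨g, hg, rfl⟩ _ ⟨u, rfl⟩
      refine ⟨(g : Matrix ι ι F) *ᵥ u, ?_⟩
      have h1 := hsconj g hg
      have h2 : (g : Matrix ι ι F) * s = s * (g : Matrix ι ι F) := by
        conv_rhs => rw [← h1]
        simp only [φ, mul_assoc]
        rw [← Units.val_mul, inv_mul_cancel, Units.val_one, mul_one]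
      simp only [Matrix.mulVecLin_apply, Matrix.mulVec_mulVec, h2]) with h | h
    · exfalso
      apply hs0
      apply Matrix.ext_of_mulVec_single
      intro i
      have h1 : s *ᵥ (Pi.single i 1) ∈ LinearMap.range s.mulVecLin := ⟨_, rfl⟩
      rw [h] at h1
      rw [Matrix.zero_mulVec]
      exact (Submodule.mem_bot F).1 h1
    · exact h
  -- two elements at least
  have hcard : 2 ≤ X.card := by
    by_contra hlt
    have h1 : X.card ≤ 1 := by omega
    have h2 : X = {e₀} := by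
      apply Finset.eq_singleton_iff_unique_mem.2
      refine ⟨he₀X, fun y hy => ?_⟩
      exact Finset.card_le_one.1 h1 y hy e₀ he₀X
    have h3 : s = e₀ := by
      simp only [s]
      rw [h2, Finset.sum_singleton]
    have h4 : e₀.rank = Fintype.card ι := by
      rw [← h3, hs1, Matrix.rank_one]
    have h5 := hmin e ⟨heK, hee, he0⟩
    rw [h4] at h5
    have h6 : LinearMap.range e.mulVecLin = ⊤ := by
      apply Submodule.eq_top_of_finrank_eq
      apply le_antisymm (Submodule.finrank_le _)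
      rw [Module.finrank_fintype_fun_eq_card]
      exact h5
    exact he1 (eq_one_of_surj hee h6)
  -- enumerate
  let t := X.card
  let eq : X ≃ Fin t := X.equivFin
  let x : Fin t → Matrix ι ι F := fun i => (eq.symm i).1
  have hxX : ∀ i, x i ∈ X := fun i => (eq.symm i).2
  have hxinj : Function.Injective x := by
    intro i j hij
    exact eq.symm.injective (Subtype.ext hij)
  refine ⟨t, x, ?_⟩
  refine ⟨fun i => (hXE _ (hxX i)).1, fun i => (hXE _ (hxX i)).2.1, fun i => (hXE _ (hxX i)).2.2.1, ?_, ?_, ?_, ?_, hcard⟩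
  · intro i j hij
    exact horth _ (hxX i) _ (hxX j) (fun h => hij (hxinj h))
  · rw [← hs1]
    simp only [s, x]
    rw [← Finset.sum_coe_sort X]
    exact Equiv.sum_comp eq.symm (fun a : X => (a : Matrix ι ι F))
  · intro g hg
    let f : Fin t → Fin t := fun i => eq ⟨φ g (x i), hXφ g hg _ (hxX i)⟩
    have hf : ∀ i, x (f i) = φ g (x i) := by
      intro i
      simp only [x, f, Equiv.symm_apply_apply]
    have hfinj : Function.Injective f := by
      intro i j hij
      apply hxinj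
      apply hφinj g
      rw [← hf, ← hf, hij]
    refine ⟨Equiv.ofBijective f (Finite.injective_iff_bijective.1 hfinj), fun i => ?_⟩
    exact (hf i).symm
  · intro i j
    obtain ⟨g, hg, hgi⟩ := (hX _).1 (hxX i)
    obtain ⟨h, hh, hhj⟩ := (hX _).1 (hxX j)
    refine ⟨h * g⁻¹, H.mul_mem hh (H.inv_mem hg), ?_⟩
    change φ (h * g⁻¹) (x i) = x j
    rw [← hgi, ← hhj]
    simp only [φ]
    rw [conj_conj]
    have h3 : h * g⁻¹ * g = h := by group
    rw [h3]

/-- The decomposition attached to an idempotent system. -/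
theorem decomp_of_system {K : Set (Matrix ι ι F)} {t : ℕ} {x : Fin t → Matrix ι ι F} (hx : IdemSystem H K t x) :
    ∃ (m : ℕ) (D : Fin t → Submodule F (ι → F)), IsMDecomposition m D ∧ H ≤ decompositionStabilizer D ∧
      ∀ i, D i = LinearMap.range (x i).mulVecLin := by
  classical
  let i₀ : Fin t := ⟨0, by have := hx.two; omega⟩
  have hxv : ∀ i, ∀ v ∈ LinearMap.range (x i).mulVecLin, x i *ᵥ v = v := by
    rintro i _ ⟨w, rfl⟩
    simp only [Matrix.mulVecLin_apply, Matrix.mulVec_mulVec, hx.idem]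
  have hrank : ∀ i, (x i).rank = (x i₀).rank := by
    intro i
    obtain ⟨g, -, hg⟩ := hx.trans i₀ i
    rw [← hg, rank_conj]
  refine ⟨(x i₀).rank, fun i => LinearMap.range (x i).mulVecLin, ⟨hx.two, ?_, ?_, ?_, ?_⟩, ?_, fun i => rfl⟩
  · apply Nat.pos_of_ne_zero
    intro h0
    have h1 : LinearMap.range (x i₀).mulVecLin = ⊥ := Submodule.finrank_eq_zero.1 h0
    apply hx.ne i₀
    apply Matrix.ext_of_mulVec_single
    intro j
    rw [Matrix.zero_mulVec]
    have h2 : x i₀ *ᵥ (Pi.single j 1) ∈ LinearMap.range (x i₀).mulVecLin := ⟨_, rfl⟩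
    rw [h1] at h2
    exact (Submodule.mem_bot F).1 h2
  · intro i
    exact hrank i
  · intro i
    rw [Submodule.disjoint_def]
    intro v hv hv2
    have h1 := hxv i v hv
    have h2 : ⨆ j, ⨆ (_ : j ≠ i), LinearMap.range (x j).mulVecLin ≤ LinearMap.ker (x i).mulVecLin := by
      apply iSup_le
      intro j
      apply iSup_le
      intro hji
      rintro _ ⟨w, rfl⟩
      rw [LinearMap.mem_ker]
      simp only [Matrix.mulVecLin_apply, Matrix.mulVec_mulVec, hx.orth i j (Ne.symm hji), Matrix.zero_mulVec]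
    have h3 := h2 hv2
    rw [LinearMap.mem_ker, Matrix.mulVecLin_apply] at h3
    rw [← h1, h3]
  · rw [eq_top_iff]
    intro v _
    have h1 : v = ∑ i, x i *ᵥ v := by
      rw [← Matrix.sum_mulVec, hx.sum, Matrix.one_mulVec]
    rw [h1]
    exact Submodule.sum_mem _ (fun i _ => Submodule.mem_iSup_of_mem i ⟨v, rfl⟩)
  · intro g hg
    obtain ⟨σ, hσ⟩ := hx.perm g hg
    refine ⟨σ, fun i => ?_⟩
    have hcomm : (g : Matrix ι ι F) * x i = x (σ i) * (g : Matrix ι ι F) := by
      rw [← hσ i, mul_assoc, mul_assoc, ← Units.val_mul, inv_mul_cancel, Units.val_one, mul_one]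
    apply le_antisymm
    · rintro _ ⟨_, ⟨w, rfl⟩, rfl⟩
      refine ⟨(g : Matrix ι ι F) *ᵥ w, ?_⟩
      simp only [Matrix.mulVecLin_apply, Matrix.toLin'_apply, Matrix.mulVec_mulVec, hcomm]
    · rintro _ ⟨w, rfl⟩
      refine ⟨x i *ᵥ (((g⁻¹ : GL ι F) : Matrix ι ι F) *ᵥ w), ⟨_, rfl⟩, ?_⟩
      simp only [Matrix.toLin'_apply, Matrix.mulVecLin_apply, Matrix.mulVec_mulVec]
      rw [← hσ i, mul_assoc]

end Cfsg.Agent.Lib.Asch.Idem
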