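import Mathlib
import Cfsg.Agent.Lib.Asch.Basic

/-!
# Kronecker products with reindexing; elements normalising a factor
-/

set_option autoImplicit false

namespace Cfsg.Agent.Lib.Asch.Kr

open Matrix Module Cfsg Cfsg.Geo Cfsg.Agent.Lib.Asch.Basic
open scoped Kronecker

universe u

variable {ι : Type} [Fintype ι] [DecidableEq ι] {F : Type u} [Field F] {a b : ℕ}

/-- Reindexed Kronecker product. -/
def kr (e : ι ≃ Fin a × Fin b) (X : Matrix (Fin a) (Fin a) F) (Y : Matrix (Fin b) (Fin b) F) : Matrix ι ι F :=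
  fun i j => X (e i).1 (e j).1 * Y (e i).2 (e j).2

theorem kr_apply (e : ι ≃ Fin a × Fin b) (X : Matrix (Fin a) (Fin a) F) (Y : Matrix (Fin b) (Fin b) F) (i j : ι) :
    kr e X Y i j = X (e i).1 (e j).1 * Y (e i).2 (e j).2 := rfl

theorem kr_eq_submatrix (e : ι ≃ Fin a × Fin b) (X : Matrix (Fin a) (Fin a) F) (Y : Matrix (Fin b) (Fin b) F) :
    kr e X Y = (X ⊗ₖ Y).submatrix e e := by
  ext i j
  simp [kr, Matrix.kroneckerMap_apply]

theorem kr_mul (e : ι ≃ Fin a × Fin b) (X X' : Matrix (Fin a) (Fin a) F) (Y Y' : Matrix (Fin b) (Fin b) F) :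
    kr e X Y * kr e X' Y' = kr e (X * X') (Y * Y') := by
  rw [kr_eq_submatrix, kr_eq_submatrix, kr_eq_submatrix, Matrix.submatrix_mul_equiv, ← Matrix.mul_kronecker_mul]

theorem kr_one (e : ι ≃ Fin a × Fin b) : kr e (1 : Matrix (Fin a) (Fin a) F) (1 : Matrix (Fin b) (Fin b) F) = 1 := by
  rw [kr_eq_submatrix, Matrix.one_kronecker_one, Matrix.submatrix_one_equiv]

theorem kr_mulVec (e : ι ≃ Fin a × Fin b) (X : Matrix (Fin a) (Fin a) F) (Y : Matrix (Fin b) (Fin b) F)
    (x : Fin a × Fin b → F) : kr e X Y *ᵥ (x ∘ e) = ((X ⊗ₖ Y) *ᵥ x) ∘ e := by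
  rw [kr_eq_submatrix, Matrix.submatrix_mulVec_equiv, Function.comp_assoc, Equiv.self_comp_symm, Function.comp_id]

theorem det_kr (e : ι ≃ Fin a × Fin b) (X : Matrix (Fin a) (Fin a) F) (Y : Matrix (Fin b) (Fin b) F) :
    (kr e X Y).det = X.det ^ b * Y.det ^ a := by
  rw [kr_eq_submatrix, Matrix.det_submatrix_equiv_self, Matrix.det_kronecker]
  simp

/-- Membership in a tensor product subgroup. -/
theorem mem_tensorProductSubgroup (e : ι ≃ Fin a × Fin b) (P : GL ι F) (h : GL ι F) (α : GL (Fin a) F) (β : GL (Fin b) F)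
    (hh : (h : Matrix ι ι F) * (P : Matrix ι ι F) = (P : Matrix ι ι F) * kr e α β) :
    h ∈ tensorProductSubgroup a b e P := by
  -- the Kronecker element
  let g : GL (Fin a × Fin b) F :=
    ⟨(α : Matrix (Fin a) (Fin a) F) ⊗ₖ (β : Matrix (Fin b) (Fin b) F),
     ((α⁻¹ : GL (Fin a) F) : Matrix (Fin a) (Fin a) F) ⊗ₖ ((β⁻¹ : GL (Fin b) F) : Matrix (Fin b) (Fin b) F),
     by rw [← Matrix.mul_kronecker_mul, ← Units.val_mul, ← Units.val_mul, mul_inv_cancel, mul_inv_cancel, Units.val_one, Units.val_one, Matrix.one_kronecker_one],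
     by rw [← Matrix.mul_kronecker_mul, ← Units.val_mul, ← Units.val_mul, inv_mul_cancel, inv_mul_cancel, Units.val_one, Units.val_one, Matrix.one_kronecker_one]⟩
  have hg : g ∈ kroneckerSubgroup a b F := ⟨α, β, rfl⟩
  refine ⟨(glReindex e.symm).toMonoidHom g, ⟨g, hg, rfl⟩, ?_⟩
  apply Units.ext
  have h1 : (((glReindex e.symm).toMonoidHom g : GL ι F) : Matrix ι ι F) = kr e α β := by
    ext i j
    simp [glReindex, g, kr, Matrix.kroneckerMap_apply]
  change (P : Matrix ι ι F) * ((glReindex e.symm).toMonoidHom g : GL ι F) * ((P⁻¹ : GL ι F) : Matrix ι ι F) = h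
  rw [h1, ← hh, mul_assoc, ← Units.val_mul, mul_inv_cancel, Units.val_one, mul_one]

variable [Nonempty ι]

/-- An invertible matrix normalising the first tensor factor, on which the group is absolutely irreducible, is a
Kronecker product. -/
theorem exists_kr_of_normalises (e : ι ≃ Fin a × Fin b) (T : Matrix ι ι F) (hT : IsUnit T.det)
    (R : Set (Matrix (Fin a) (Fin a) F)) (hR : ActsAbsolutelyIrreducibly R)
    (h : ∀ r ∈ R, ∃ r' : Matrix (Fin a) (Fin a) F, T * kr e r 1 = kr e r' 1 * T) :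
    ∃ (α : GL (Fin a) F) (β : GL (Fin b) F), T = kr e α β := by
  classical
  let B : Fin b → Fin b → Matrix (Fin a) (Fin a) F := fun j i l k => T (e.symm (l, j)) (e.symm (k, i))
  have hBrel : ∀ r r' : Matrix (Fin a) (Fin a) F, T * kr e r 1 = kr e r' 1 * T → ∀ j i, B j i * r = r' * B j i := by
    intro r r' hr j i
    ext l k
    have h1 := congrFun (congrFun hr (e.symm (l, j))) (e.symm (k, i))
    rw [Matrix.mul_apply, Matrix.mul_apply] at h1
    rw [Matrix.mul_apply, Matrix.mul_apply]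
    rw [← Equiv.sum_comp e.symm, ← Equiv.sum_comp e.symm (fun x => kr e r' 1 (e.symm (l, j)) x * T x (e.symm (k, i))),
      Fintype.sum_prod_type, Fintype.sum_prod_type] at h1
    simp only [kr, Equiv.apply_symm_apply, Matrix.one_apply] at h1
    have h2 : ∀ x : Fin a, ∑ y : Fin b, T (e.symm (l, j)) (e.symm (x, y)) * (r x k * if y = i then 1 else 0) =
        B j i l x * r x k := by
      intro x
      rw [Finset.sum_eq_single i]
      · simp [B]
      · intro y _ hy
        simp [hy]
      · simp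
    have h3 : ∀ x : Fin a, ∑ y : Fin b, (r' l x * if j = y then 1 else 0) * T (e.symm (x, y)) (e.symm (k, i)) =
        r' l x * B j i x k := by
      intro x
      rw [Finset.sum_eq_single j]
      · simp [B]
      · intro y _ hy
        simp [Ne.symm hy]
      · simp
    rw [Finset.sum_congr rfl (fun x _ => h2 x), Finset.sum_congr rfl (fun x _ => h3 x)] at h1
    exact h1
  -- a nonzero block
  have hT0 : T ≠ 0 := by
    rintro rfl
    rw [Matrix.det_zero] at hT
    exact not_isUnit_zero hT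
  obtain ⟨j₀, i₀, hB0⟩ : ∃ j i, B j i ≠ 0 := by
    by_contra hcon
    push Not at hcon
    apply hT0
    ext x y
    have := congrFun (congrFun (hcon (e x).2 (e y).2) (e x).1) (e y).1
    simpa [B] using this
  let α₀ := B j₀ i₀
  -- Schur: the block is invertible
  have hα : IsUnit α₀.det := by
    rcases (irr_iff R).1 hR.1 (LinearMap.ker α₀.mulVecLin) (by
      intro r hr v hv
      obtain ⟨r', hr'⟩ := h r hr
      rw [LinearMap.mem_ker, Matrix.mulVecLin_apply] at hv ⊢
      rw [Matrix.mulVec_mulVec, hBrel r r' hr' j₀ i₀, ← Matrix.mulVec_mulVec]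
      change r' *ᵥ (α₀ *ᵥ v) = 0
      rw [hv, Matrix.mulVec_zero]) with h0 | h0
    · rw [← Matrix.isUnit_iff_isUnit_det, ← Matrix.mulVec_injective_iff_isUnit]
      intro u v huv
      have h1 : u - v ∈ LinearMap.ker α₀.mulVecLin := by
        rw [LinearMap.mem_ker, Matrix.mulVecLin_apply, Matrix.mulVec_sub, huv, sub_self]
      rw [h0] at h1
      exact sub_eq_zero.1 ((Submodule.mem_bot F).1 h1)
    · exfalso
      apply hB0
      apply Matrix.ext_of_mulVec_single
      intro k
      have h1 : (Pi.single k 1 : Fin a → F) ∈ LinearMap.ker α₀.mulVecLin := by rw [h0]; trivial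
      rw [LinearMap.mem_ker, Matrix.mulVecLin_apply] at h1
      rw [Matrix.zero_mulVec]
      exact h1
  let αi := α₀⁻¹
  have hαi1 : αi * α₀ = 1 := Matrix.nonsing_inv_mul _ hα
  have hαi2 : α₀ * αi = 1 := Matrix.mul_nonsing_inv _ hα
  -- the other blocks are multiples
  have hmult : ∀ j i, ∃ c : F, αi * B j i = c • 1 := by
    intro j i
    apply hR.2
    intro r hr
    obtain ⟨r', hr'⟩ := h r hr
    have h1 := hBrel r r' hr' j i
    have h2 := hBrel r r' hr' j₀ i₀
    have h3 : αi * r' = r * αi := by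
      calc αi * r' = αi * r' * (α₀ * αi) := by rw [hαi2, mul_one]
        _ = αi * (r' * α₀) * αi := by simp only [mul_assoc]
        _ = αi * (α₀ * r) * αi := by rw [← h2]
        _ = (αi * α₀) * r * αi := by simp only [mul_assoc]
        _ = r * αi := by rw [hαi1, one_mul]
    calc αi * B j i * r = αi * (B j i * r) := mul_assoc _ _ _
      _ = αi * (r' * B j i) := by rw [h1]
      _ = (αi * r') * B j i := (mul_assoc _ _ _).symm
      _ = r * αi * B j i := by rw [h3]
      _ = r * (αi * B j i) := mul_assoc _ _ _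
  choose β₀ hβ₀ using hmult
  have hBeq : ∀ j i, B j i = β₀ j i • α₀ := by
    intro j i
    calc B j i = (α₀ * αi) * B j i := by rw [hαi2, one_mul]
      _ = α₀ * (αi * B j i) := mul_assoc _ _ _
      _ = α₀ * (β₀ j i • 1) := by rw [hβ₀]
      _ = β₀ j i • α₀ := by simp
  have hTkr : T = kr e α₀ (Matrix.of β₀) := by
    ext x y
    have h1 := congrFun (congrFun (hBeq (e x).2 (e y).2) (e x).1) (e y).1
    simp only [B, Prod.mk.eta, Equiv.symm_apply_apply] at h1
    rw [h1]
    simp [kr, mul_comm]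
  -- invertibility
  have hdet := hT
  rw [hTkr, det_kr] at hdet
  have ha : 0 < a := by
    have := (‹Nonempty ι›).some
    exact Fin.pos (e this).1
  have hb : 0 < b := by
    have := (‹Nonempty ι›).some
    exact Fin.pos (e this).2
  have hα' : IsUnit α₀ := (Matrix.isUnit_iff_isUnit_det _).2 hα
  have hβ' : IsUnit (Matrix.of β₀) := by
    rw [Matrix.isUnit_iff_isUnit_det]
    rw [isUnit_iff_ne_zero] at hdet ⊢
    intro h0
    apply hdet
    rw [h0, zero_pow (by omega), mul_zero]
  obtain ⟨α, hα₁⟩ := hα'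
  obtain ⟨β, hβ₁⟩ := hβ'
  exact ⟨α, β, by rw [hα₁, hβ₁]; exact hTkr⟩

end Cfsg.Agent.Lib.Asch.Kr
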