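import Mathlib
import Cfsg.Agent.Lib.Asch.Kr
import Cfsg.Agent.Lib.Asch.Idem

/-!
# Semisimplicity of normal subgroups and the commutant
-/

set_option autoImplicit false

namespace Cfsg.Agent.Lib.Asch.Semi

open Matrix Module Cfsg Cfsg.Geo Cfsg.Agent.Lib.Asch.Basic

universe u

variable {ι : Type} [Fintype ι] [DecidableEq ι] {F : Type u} [Field F]

/-- The commutant of a set of matrices. -/
noncomputable def Cm (S : Set (Matrix ι ι F)) : Subalgebra F (Matrix ι ι F) := Subalgebra.centralizer F S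

/-- The centre of the commutant. -/
noncomputable def Kc (S : Set (Matrix ι ι F)) : Subalgebra F (Matrix ι ι F) :=
  Cm S ⊓ Subalgebra.centralizer F (Cm S : Set (Matrix ι ι F))

theorem mem_Cm {S : Set (Matrix ι ι F)} {M : Matrix ι ι F} : M ∈ Cm S ↔ ∀ s ∈ S, s * M = M * s :=
  Subalgebra.mem_centralizer_iff F

theorem mem_Kc {S : Set (Matrix ι ι F)} {k : Matrix ι ι F} :
    k ∈ Kc S ↔ (∀ s ∈ S, s * k = k * s) ∧ ∀ c, (∀ s ∈ S, s * c = c * s) → c * k = k * c := by
  constructor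
  · rintro ⟨h1, h2⟩
    refine ⟨mem_Cm.1 h1, fun c hc => ?_⟩
    exact (Subalgebra.mem_centralizer_iff F).1 h2 c (mem_Cm.2 hc)
  · rintro ⟨h1, h2⟩
    refine ⟨mem_Cm.2 h1, (Subalgebra.mem_centralizer_iff F).2 fun c hc => h2 c (mem_Cm.1 hc)⟩

theorem Kc_comm {S : Set (Matrix ι ι F)} {k k' : Matrix ι ι F} (hk : k ∈ Kc S) (hk' : k' ∈ Kc S) : k * k' = k' * k :=
  ((mem_Kc.1 hk).2 k' (mem_Kc.1 hk').1).symm

theorem Kc_conj {S : Set (Matrix ι ι F)} (g : GL ι F)
    (h1 : ∀ s ∈ S, ((g⁻¹ : GL ι F) : Matrix ι ι F) * s * (g : Matrix ι ι F) ∈ S)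
    (h2 : ∀ s ∈ S, (g : Matrix ι ι F) * s * ((g⁻¹ : GL ι F) : Matrix ι ι F) ∈ S)
    {k : Matrix ι ι F} (hk : k ∈ Kc S) :
    (g : Matrix ι ι F) * k * ((g⁻¹ : GL ι F) : Matrix ι ι F) ∈ Kc S := by
  have hgi : ((g⁻¹ : GL ι F) : Matrix ι ι F) * (g : Matrix ι ι F) = 1 := by
    rw [← Units.val_mul, inv_mul_cancel, Units.val_one]
  have hig : (g : Matrix ι ι F) * ((g⁻¹ : GL ι F) : Matrix ι ι F) = 1 := by
    rw [← Units.val_mul, mul_inv_cancel, Units.val_one]
  set G : Matrix ι ι F := (g : Matrix ι ι F) with hG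
  set I : Matrix ι ι F := ((g⁻¹ : GL ι F) : Matrix ι ι F) with hI
  obtain ⟨hk1, hk2⟩ := mem_Kc.1 hk
  refine mem_Kc.2 ⟨fun s hs => ?_, fun c hc => ?_⟩
  · have := hk1 _ (h1 s hs)
    calc s * (G * k * I) = G * ((I * s * G) * k) * I := by
          simp only [mul_assoc, hgi, mul_one]
          rw [← mul_assoc G I, hig, one_mul]
      _ = G * (k * (I * s * G)) * I := by rw [this]
      _ = G * k * I * s := by
          simp only [mul_assoc, hig, mul_one]
  · have hc' : ∀ s ∈ S, s * (I * c * G) = (I * c * G) * s := by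
      intro s hs
      have := hc _ (h2 s hs)
      calc s * (I * c * G) = I * ((G * s * I) * c) * G := by
            simp only [mul_assoc, hig, mul_one]
            rw [← mul_assoc I G, hgi, one_mul]
        _ = I * (c * (G * s * I)) * G := by rw [this]
        _ = (I * c * G) * s := by
            simp only [mul_assoc, hgi, mul_one]
    have := hk2 _ hc'
    calc c * (G * k * I) = G * ((I * c * G) * k) * I := by
          simp only [mul_assoc, hgi, mul_one]
          rw [← mul_assoc G I, hig, one_mul]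
      _ = G * (k * (I * c * G)) * I := by rw [this]
      _ = G * k * I * c := by
          simp only [mul_assoc, hig, mul_one]

/-! ### Twisting submodules -/

/-- The image under `g` of a submodule, where `g` normalises the set. -/
noncomputable def twist {S : Set (Matrix ι ι F)} (g : GL ι F)
    (hg : ∀ s ∈ S, ((g⁻¹ : GL ι F) : Matrix ι ι F) * s * (g : Matrix ι ι F) ∈ S)
    (U : Submodule (AT S) (ι → F)) : Submodule (AT S) (ι → F) :=
  toASub ((U.restrictScalars F).map (Matrix.toLin' (g : Matrix ι ι F))) (by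
    rintro s hs _ ⟨u, hu, rfl⟩
    refine ⟨(((g⁻¹ : GL ι F) : Matrix ι ι F) * s * (g : Matrix ι ι F)) *ᵥ u, ?_, ?_⟩
    · have h1 := U.smul_mem (AT.gen (hg s hs)) hu
      rw [AT.gen_smul] at h1
      exact h1
    · have hig : (g : Matrix ι ι F) * ((g⁻¹ : GL ι F) : Matrix ι ι F) = 1 := by
        rw [← Units.val_mul, mul_inv_cancel, Units.val_one]
      simp only [Matrix.toLin'_apply, Matrix.mulVec_mulVec]
      congr 1
      simp only [← mul_assoc, hig, one_mul])

theorem mem_twist {S : Set (Matrix ι ι F)} {g : GL ι F}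
    {hg : ∀ s ∈ S, ((g⁻¹ : GL ι F) : Matrix ι ι F) * s * (g : Matrix ι ι F) ∈ S}
    {U : Submodule (AT S) (ι → F)} {v : ι → F} :
    v ∈ twist g hg U ↔ ∃ u ∈ U, (g : Matrix ι ι F) *ᵥ u = v := by
  have h : v ∈ twist g hg U ↔ v ∈ (U.restrictScalars F).map (Matrix.toLin' (g : Matrix ι ι F)) := Iff.rfl
  rw [h]
  constructor
  · rintro ⟨u, hu, rfl⟩
    exact ⟨u, hu, rfl⟩
  · rintro ⟨u, hu, rfl⟩
    exact ⟨u, hu, rfl⟩

theorem twist_atom {S : Set (Matrix ι ι F)} (g : GL ι F)
    (hg : ∀ s ∈ S, ((g⁻¹ : GL ι F) : Matrix ι ι F) * s * (g : Matrix ι ι F) ∈ S)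
    (hg' : ∀ s ∈ S, (((g⁻¹)⁻¹ : GL ι F) : Matrix ι ι F) * s * ((g⁻¹ : GL ι F) : Matrix ι ι F) ∈ S)
    {U : Submodule (AT S) (ι → F)} (hU : IsAtom U) : IsAtom (twist g hg U) := by
  have hgi : ((g⁻¹ : GL ι F) : Matrix ι ι F) * (g : Matrix ι ι F) = 1 := by
    rw [← Units.val_mul, inv_mul_cancel, Units.val_one]
  have hig : (g : Matrix ι ι F) * ((g⁻¹ : GL ι F) : Matrix ι ι F) = 1 := by
    rw [← Units.val_mul, mul_inv_cancel, Units.val_one]
  rw [isAtom_iff_le_of_ge] at hU ⊢
  constructor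
  · intro h0
    apply hU.1
    rw [eq_bot_iff]
    intro u hu
    have h1 : (g : Matrix ι ι F) *ᵥ u ∈ twist g hg U := mem_twist.2 ⟨u, hu, rfl⟩
    rw [h0] at h1
    have h2 : (g : Matrix ι ι F) *ᵥ u = 0 := by simpa using h1
    have h3 : u = ((g⁻¹ : GL ι F) : Matrix ι ι F) *ᵥ ((g : Matrix ι ι F) *ᵥ u) := by
      rw [Matrix.mulVec_mulVec, hgi, Matrix.one_mulVec]
    rw [h3, h2, Matrix.mulVec_zero]
    exact Submodule.zero_mem _
  · intro W hW0 hW
    have hle : twist g⁻¹ hg' W ≤ U := by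
      intro v hv
      obtain ⟨w, hw, rfl⟩ := mem_twist.1 hv
      obtain ⟨u, hu, rfl⟩ := mem_twist.1 (hW hw)
      rw [Matrix.mulVec_mulVec, hgi, Matrix.one_mulVec]
      exact hu
    have hne : twist g⁻¹ hg' W ≠ ⊥ := by
      intro h0
      apply hW0
      rw [eq_bot_iff]
      intro u hu
      have h1 : ((g⁻¹ : GL ι F) : Matrix ι ι F) *ᵥ u ∈ twist g⁻¹ hg' W := mem_twist.2 ⟨u, hu, rfl⟩
      rw [h0] at h1
      have h2 : ((g⁻¹ : GL ι F) : Matrix ι ι F) *ᵥ u = 0 := by simpa using h1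
      have h3 : u = (g : Matrix ι ι F) *ᵥ (((g⁻¹ : GL ι F) : Matrix ι ι F) *ᵥ u) := by
        rw [Matrix.mulVec_mulVec, hig, Matrix.one_mulVec]
      rw [h3, h2, Matrix.mulVec_zero]
      exact Submodule.zero_mem _
    have h2 := hU.2 _ hne hle
    intro v hv
    obtain ⟨u, hu, rfl⟩ := mem_twist.1 hv
    obtain ⟨w, hw, rfl⟩ := mem_twist.1 (h2 hu)
    rw [Matrix.mulVec_mulVec, hig, Matrix.one_mulVec]
    exact hw

variable [Fintype F]

instance finite_sub (S : Set (Matrix ι ι F)) : Finite (Submodule (AT S) (ι → F)) :=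
  Finite.of_injective (fun U => (U : Set (ι → F))) SetLike.coe_injective

/-- The natural module is semisimple over the algebra generated by a subgroup normalised by an irreducible group. -/
theorem semisimple_of_irred [Nonempty ι] (H N : Subgroup (GL ι F)) (hIrr : ActsIrreducibly (matrixSet H))
    (hN : ∀ h ∈ H, ∀ x ∈ N, h * x * h⁻¹ ∈ N) : IsSemisimpleModule (AT (matrixSet N)) (ι → F) := by
  classical
  set S := matrixSet N with hS
  have hgen : ∀ h ∈ H, ∀ s ∈ S, ((h⁻¹ : GL ι F) : Matrix ι ι F) * s * (h : Matrix ι ι F) ∈ S := by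
    rintro h hh _ ⟨x, hx, rfl⟩
    have := hN h⁻¹ (H.inv_mem hh) x hx
    rw [inv_inv] at this
    exact ⟨_, this, by simp [Units.val_mul]⟩
  set T : Submodule (AT S) (ι → F) := sSup {m : Submodule (AT S) (ι → F) | IsSimpleModule (AT S) m} with hT
  apply IsSemisimpleModule.of_sSup_simples_eq_top
  rw [← hT]
  have hT0 : T ≠ ⊥ := by
    obtain ⟨a, ha⟩ := IsAtomic.exists_atom (Submodule (AT S) (ι → F))
    intro h0
    apply ha.1
    rw [eq_bot_iff, ← h0]
    exact le_sSup ((isSimpleModule_iff_isAtom).2 ha)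
  have hinv : ∀ h ∈ H, ∀ v ∈ (T.restrictScalars F), (h : Matrix ι ι F) *ᵥ v ∈ T.restrictScalars F := by
    intro h hh v hv
    have hle : T ≤ twist h⁻¹ (by simpa using hgen h⁻¹ (H.inv_mem hh)) T := by
      refine sSup_le ?_
      intro U hU
      intro u hu
      rw [mem_twist]
      refine ⟨(h : Matrix ι ι F) *ᵥ u, ?_, ?_⟩
      · have h1 : IsAtom (twist h (hgen h hh) U) := twist_atom h (hgen h hh)
          (by simpa using hgen h⁻¹ (H.inv_mem hh)) ((isSimpleModule_iff_isAtom).1 hU)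
        have h2 : twist h (hgen h hh) U ≤ T := le_sSup ((isSimpleModule_iff_isAtom).2 h1)
        exact h2 (mem_twist.2 ⟨u, hu, rfl⟩)
      · rw [Matrix.mulVec_mulVec, ← Units.val_mul, inv_mul_cancel, Units.val_one, Matrix.one_mulVec]
    obtain ⟨w, hw, hwv⟩ := mem_twist.1 (hle hv)
    rw [← hwv, Matrix.mulVec_mulVec, ← Units.val_mul, mul_inv_cancel, Units.val_one, Matrix.one_mulVec]
    exact hw
  rcases (irr_iff _).1 hIrr (T.restrictScalars F) (by
    rintro _ ⟨h, hh, rfl⟩ v hv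
    exact hinv h hh v hv) with h | h
  · exfalso
    apply hT0
    rw [eq_bot_iff]
    intro v hv
    have : v ∈ T.restrictScalars F := hv
    rw [h] at this
    simpa using this
  · rw [eq_top_iff]
    intro v _
    have : v ∈ T.restrictScalars F := by rw [h]; trivial
    exact this

/-- A non-isotypic semisimple module gives a non-trivial idempotent in the centre of the commutant. -/
theorem exists_idem_of_not_isotypic {S : Set (Matrix ι ι F)} [IsSemisimpleModule (AT S) (ι → F)]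
    (h : ¬ IsIsotypic (AT S) (ι → F)) : ∃ e ∈ Kc S, e * e = e ∧ e ≠ 0 ∧ e ≠ 1 := by
  classical
  unfold IsIsotypic at h
  push Not at h
  obtain ⟨m, hm, hnot⟩ := h
  set c₀ := isotypicComponent (AT S) (ι → F) m with hc₀
  have hc₀top : c₀ ≠ ⊤ := fun h0 => hnot (IsIsotypicOfType.of_isotypicComponent_eq_top h0)
  have hc₀bot : ⊥ < c₀ := bot_lt_isotypicComponent m
  have hc₀mem : c₀ ∈ isotypicComponents (AT S) (ι → F) := ⟨m, hm, rfl⟩
  set U := sSup (isotypicComponents (AT S) (ι → F) \ {c₀}) with hU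
  have hdisj : Disjoint c₀ U := sSupIndep_isotypicComponents (AT S) (ι → F) hc₀mem
  have hcod : Codisjoint c₀ U := by
    rw [codisjoint_iff, eq_top_iff, ← sSup_isotypicComponents (AT S) (ι → F)]
    refine sSup_le fun c hc => ?_
    by_cases hcc : c = c₀
    · rw [hcc]; exact le_sup_left
    · exact le_sup_of_le_right (le_sSup ⟨hc, hcc⟩)
  have hcompl : IsCompl c₀ U := ⟨hdisj, hcod⟩
  have hUinv : U.IsFullyInvariant := by
    intro f
    refine sSup_le fun c hc => ?_
    have h1 : c.IsFullyInvariant := Submodule.IsFullyInvariant.of_mem_isotypicComponents hc.1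
    exact (h1 f).trans (Submodule.comap_mono (le_sSup hc))
  have hc₀inv : c₀.IsFullyInvariant := Submodule.IsFullyInvariant.of_mem_isotypicComponents hc₀mem
  let π : (ι → F) →ₗ[AT S] (ι → F) := c₀.projection U hcompl
  have hπl : ∀ x ∈ c₀, π x = x := fun x hx => Submodule.projection_apply_of_mem_left hcompl hx
  have hπr : ∀ x ∈ U, π x = 0 := fun x hx => Submodule.projection_apply_right hcompl ⟨x, hx⟩
  have hdec : ∀ v : ι → F, ∃ u ∈ c₀, ∃ u' ∈ U, u + u' = v := by
    intro v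
    have : v ∈ c₀ ⊔ U := by rw [hcod.eq_top]; trivial
    exact Submodule.mem_sup.1 this
  refine ⟨matOf π, ?_, ?_, ?_, ?_⟩
  · refine mem_Kc.2 ⟨fun s hs => (matOf_comm π hs).symm, fun c hc => ?_⟩
    apply Matrix.ext_of_mulVec_single
    intro i
    obtain ⟨u, hu, u', hu', huu⟩ := hdec (Pi.single i 1)
    rw [← Matrix.mulVec_mulVec, ← Matrix.mulVec_mulVec, matOf_mulVec, ← huu, map_add, hπl u hu, hπr u' hu', add_zero]
    have hcs : ∀ s ∈ S, c * s = s * c := fun s hs => (hc s hs).symm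
    rw [Matrix.mulVec_add, matOf_mulVec, map_add]
    have h1 : c *ᵥ u ∈ c₀ := hc₀inv (ofComm c hcs) hu
    have h2 : c *ᵥ u' ∈ U := hUinv (ofComm c hcs) hu'
    rw [hπl _ h1, hπr _ h2, add_zero]
  · apply Matrix.ext_of_mulVec_single
    intro i
    rw [← Matrix.mulVec_mulVec, matOf_mulVec, matOf_mulVec]
    exact hπl _ (Submodule.projection_apply_mem hcompl _)
  · intro h0
    obtain ⟨x, hx, hx0⟩ := Submodule.exists_mem_ne_zero_of_ne_bot hc₀bot.ne'
    apply hx0
    rw [← hπl x hx, ← matOf_mulVec, h0, Matrix.zero_mulVec]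
  · intro h1
    have hU0 : U ≠ ⊥ := by
      intro h0
      apply hc₀top
      have := hcod.eq_top
      rwa [h0, sup_bot_eq] at this
    obtain ⟨x, hx, hx0⟩ := Submodule.exists_mem_ne_zero_of_ne_bot hU0
    apply hx0
    have := hπr x hx
    rw [← matOf_mulVec, h1, Matrix.one_mulVec] at this
    exact this

/-- In the isotypic case, non-zero elements of the centre of the commutant are invertible. -/
theorem Kc_injective {S : Set (Matrix ι ι F)} [IsSemisimpleModule (AT S) (ι → F)]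
    (hiso : IsIsotypic (AT S) (ι → F)) {k : Matrix ι ι F} (hk : k ∈ Kc S) (hk0 : k ≠ 0) :
    Function.Injective k.mulVec := by
  classical
  obtain ⟨hk1, hk2⟩ := mem_Kc.1 hk
  let K : (ι → F) →ₗ[AT S] (ι → F) := ofComm k (fun s hs => (hk1 s hs).symm)
  have hKapp : ∀ v, K v = k *ᵥ v := fun v => rfl
  by_contra hinj
  have hker : LinearMap.ker K ≠ ⊥ := by
    intro h0
    apply hinj
    intro a b hab
    have : K a = K b := hab
    exact LinearMap.ker_eq_bot.1 h0 this
  obtain ⟨m, hmle, hm⟩ := (IsSemisimpleModule.eq_bot_or_exists_simple_le (LinearMap.ker K)).resolve_left hker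
  apply hk0
  have hall : ∀ m' : Submodule (AT S) (ι → F), IsSimpleModule (AT S) m' → m' ≤ LinearMap.ker K := by
    intro m' hm'
    obtain ⟨φ⟩ := hiso m m'
    obtain ⟨c, hc⟩ := IsSemisimpleModule.extension_property m.subtype m.subtype_injective (m'.subtype ∘ₗ φ.symm.toLinearMap)
    intro x hx
    have hcx : c (φ ⟨x, hx⟩ : ι → F) = x := by
      have := congrArg (fun f => f (φ ⟨x, hx⟩)) hc
      simpa using this
    have h1 := hk2 (matOf c) (fun s hs => (matOf_comm c hs).symm)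
    have h2 : k *ᵥ x = 0 := by
      rw [← hcx, ← matOf_mulVec, Matrix.mulVec_mulVec, ← h1, ← Matrix.mulVec_mulVec]
      have h3 : k *ᵥ ((φ ⟨x, hx⟩ : m) : ι → F) = 0 := by
        have := hmle (φ ⟨x, hx⟩).2
        exact this
      rw [h3, Matrix.mulVec_zero]
    exact h2
  have htop : LinearMap.ker K = ⊤ := by
    rw [eq_top_iff, ← IsSemisimpleModule.sSup_simples_eq_top (AT S) (ι → F)]
    exact sSup_le fun m' hm' => hall m' hm'
  apply Matrix.ext_of_mulVec_single
  intro i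
  have h1 : (Pi.single i 1 : ι → F) ∈ LinearMap.ker K := by rw [htop]; trivial
  have h2 : K (Pi.single i 1) = 0 := h1
  rw [hKapp] at h2
  rw [h2, Matrix.zero_mulVec]

theorem Kc_isField {S : Set (Matrix ι ι F)} [IsSemisimpleModule (AT S) (ι → F)]
    (hiso : IsIsotypic (AT S) (ι → F)) : IsFieldSubalgebra (Module.finrank F (Kc S)) (Kc S) := by
  refine ⟨fun x hx y hy => Kc_comm hx hy, fun x hx hx0 => ?_, rfl⟩
  have h1 : IsUnit x := (Matrix.mulVec_injective_iff_isUnit).1 (Kc_injective hiso hx hx0)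
  obtain ⟨u, rfl⟩ := h1
  have h1 : (u : Matrix ι ι F) * ((u⁻¹ : (Matrix ι ι F)ˣ) : Matrix ι ι F) = 1 := by
    rw [← Units.val_mul, mul_inv_cancel, Units.val_one]
  have h2 : ((u⁻¹ : (Matrix ι ι F)ˣ) : Matrix ι ι F) * (u : Matrix ι ι F) = 1 := by
    rw [← Units.val_mul, inv_mul_cancel, Units.val_one]
  refine ⟨((u⁻¹ : (Matrix ι ι F)ˣ) : Matrix ι ι F), ?_, h1⟩
  obtain ⟨hk1, hk2⟩ := mem_Kc.1 hx
  set I : Matrix ι ι F := ((u⁻¹ : (Matrix ι ι F)ˣ) : Matrix ι ι F) with hI
  set U : Matrix ι ι F := (u : Matrix ι ι F) with hU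
  have key : ∀ c : Matrix ι ι F, c * U = U * c → c * I = I * c := by
    intro c hc
    calc c * I = I * U * (c * I) := by rw [h2, one_mul]
      _ = I * (U * c) * I := by simp only [mul_assoc]
      _ = I * (c * U) * I := by rw [hc]
      _ = I * c * (U * I) := by simp only [mul_assoc]
      _ = I * c := by rw [h1, mul_one]
  refine mem_Kc.2 ⟨fun s hs => key s (hk1 s hs), fun c hc => key c (hk2 c hc)⟩

end Cfsg.Agent.Lib.Asch.Semi
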