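import Mathlib
import Cfsg.Agent.Lib.Asch.Semi

/-!
# Tensor decomposition attached to an isotypic module with scalar centre of the commutant
-/

set_option autoImplicit false

namespace Cfsg.Agent.Lib.Asch.TD

open Matrix Module Cfsg Cfsg.Geo Cfsg.Agent.Lib.Asch.Basic Cfsg.Agent.Lib.Asch.Semi Cfsg.Agent.Lib.Asch.Kr

open scoped Kronecker

universe u

variable {ι : Type} [Fintype ι] [DecidableEq ι] {F : Type u} [Field F]

/-- A linear equivalence from coordinates gives an invertible matrix. -/
theorem exists_gl_of_equiv {κ : Type} [Fintype κ] [DecidableEq κ] (e : ι ≃ κ) (L : (κ → F) ≃ₗ[F] (ι → F)) :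
    ∃ P : GL ι F, ∀ x : κ → F, (P : Matrix ι ι F) *ᵥ (x ∘ e) = L x := by
  let φ : (ι → F) ≃ₗ[F] (κ → F) := LinearEquiv.funCongrLeft F F e.symm
  let L' : (ι → F) ≃ₗ[F] (ι → F) := φ.trans L
  refine ⟨⟨LinearMap.toMatrix' L'.toLinearMap, LinearMap.toMatrix' L'.symm.toLinearMap, ?_, ?_⟩, fun x => ?_⟩
  · rw [← LinearMap.toMatrix'_comp, LinearEquiv.comp_coe, LinearEquiv.symm_trans_self]
    exact LinearMap.toMatrix'_id
  · rw [← LinearMap.toMatrix'_comp, LinearEquiv.comp_coe, LinearEquiv.self_trans_symm]
    exact LinearMap.toMatrix'_id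
  · change LinearMap.toMatrix' L'.toLinearMap *ᵥ (x ∘ e) = L x
    rw [LinearMap.toMatrix'_mulVec]
    simp only [L', LinearEquiv.coe_coe, LinearEquiv.trans_apply]
    congr 1
    funext k
    simp [φ, LinearEquiv.funCongrLeft]

/-- Tensor decomposition data for a set of matrices. -/
structure TDat (S : Set (Matrix ι ι F)) (a b : ℕ) (e : ι ≃ Fin a × Fin b) (P : GL ι F)
    (ρ : Matrix ι ι F → Matrix (Fin a) (Fin a) F) : Prop where
  conj : ∀ s ∈ S, s * (P : Matrix ι ι F) = (P : Matrix ι ι F) * kr e (ρ s) 1
  abs : ActsAbsolutelyIrreducibly (ρ '' S)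

omit [Fintype ι] [DecidableEq ι] in
theorem inv_of_mem_Alg_sub [Fintype ι] [DecidableEq ι] {S : Set (Matrix ι ι F)} (U : Submodule (AT S) (ι → F)) {a : Module.End F (ι → F)}
    (ha : a ∈ Alg S) (x : U) : a (x : ι → F) ∈ U :=
  U.smul_mem (⟨a, ha⟩ : AT S) x.2

variable [Fintype F]

theorem exists_TD [Nonempty ι] {S : Set (Matrix ι ι F)} [IsSemisimpleModule (AT S) (ι → F)]
    (hiso : IsIsotypic (AT S) (ι → F)) (hscal : ∀ k ∈ Kc S, ∃ c : F, k = c • 1) :
    ∃ (a b : ℕ) (e : ι ≃ Fin a × Fin b) (P : GL ι F) (ρ : Matrix ι ι F → Matrix (Fin a) (Fin a) F),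
      TDat S a b e P ρ := by
  classical
  haveI : Module.Finite (AT S) (ι → F) := Module.Finite.of_finite
  obtain ⟨b, hb, S₀, hS₀, ⟨θ⟩⟩ := hiso.linearEquiv_fun
  haveI : Module.Finite F S₀ := Module.Finite.of_finite
  let a := Module.finrank F S₀
  let w : Basis (Fin a) F S₀ := Module.finBasis F S₀
  let co : (Fin a → F) ≃ₗ[F] S₀ := w.equivFun.symm
  have hco : ∀ y, co y = ∑ i, y i • w i := fun y => w.equivFun_symm_apply y
  let ρ : Matrix ι ι F → Matrix (Fin a) (Fin a) F := fun s =>
    if hs : s ∈ S then Matrix.of fun k i => w.repr (AT.gen hs • w i) k else 0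
  have hρ : ∀ s (hs : s ∈ S) i, AT.gen hs • w i = ∑ k, ρ s k i • w k := by
    intro s hs i
    simp only [ρ, dif_pos hs, Matrix.of_apply]
    exact (w.sum_repr _).symm
  have hgen : ∀ s (hs : s ∈ S) y, AT.gen hs • co y = co (ρ s *ᵥ y) := by
    intro s hs y
    rw [hco, hco, Finset.smul_sum]
    simp only [Matrix.mulVec, dotProduct, Finset.sum_smul]
    rw [Finset.sum_comm]
    refine Finset.sum_congr rfl fun i _ => ?_
    rw [smul_comm, hρ s hs i, Finset.smul_sum]
    refine Finset.sum_congr rfl fun k _ => ?_
    rw [smul_smul, mul_comm]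
  -- coordinates
  let Ψ : (Fin a × Fin b → F) ≃ₗ[F] (Fin b → S₀) :=
    { toFun := fun x j => co fun i => x (i, j)
      map_add' := fun x y => by
        funext j
        simp only [Pi.add_apply]
        exact map_add co _ _
      map_smul' := fun c x => by
        funext j
        simp only [Pi.smul_apply, RingHom.id_apply]
        exact map_smul co c _
      invFun := fun y p => co.symm (y p.2) p.1
      left_inv := fun x => by
        funext p
        simp
      right_inv := fun y => by
        funext j
        simp }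
  let L : (Fin a × Fin b → F) ≃ₗ[F] (ι → F) := Ψ.trans (θ.restrictScalars F).symm
  have hLapp : ∀ x, L x = θ.symm (Ψ x) := fun x => rfl
  have hcard : Fintype.card ι = Fintype.card (Fin a × Fin b) := by
    have := LinearEquiv.finrank_eq L
    simpa using this.symm
  let e : ι ≃ Fin a × Fin b := Fintype.equivOfCardEq hcard
  obtain ⟨P, hP⟩ := exists_gl_of_equiv e L
  refine ⟨a, b, e, P, ρ, ?_, ?_⟩
  · -- the conjugation
    intro s hs
    have key : ∀ x, s *ᵥ L x = L ((ρ s ⊗ₖ (1 : Matrix (Fin b) (Fin b) F)) *ᵥ x) := by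
      intro x
      rw [← AT.gen_smul hs, hLapp, hLapp, ← map_smul]
      congr 1
      funext j
      change AT.gen hs • co (fun i => x (i, j)) = co fun i => ((ρ s ⊗ₖ (1 : Matrix (Fin b) (Fin b) F)) *ᵥ x) (i, j)
      rw [hgen s hs]
      congr 1
      funext k
      simp only [Matrix.mulVec, dotProduct, Fintype.sum_prod_type, Matrix.kroneckerMap_apply, Matrix.one_apply]
      refine Finset.sum_congr rfl fun i _ => ?_
      rw [Finset.sum_eq_single j]
      · simp
      · intro l _ hl
        rw [if_neg (Ne.symm hl), mul_zero, zero_mul]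
      · simp
    apply Matrix.ext_of_mulVec_single
    intro i
    have hy : (Pi.single i 1 : ι → F) = (Pi.single i 1 ∘ e.symm) ∘ e := by
      funext j
      simp
    rw [← Matrix.mulVec_mulVec, ← Matrix.mulVec_mulVec, hy, kr_mulVec, hP, hP, key]
  · -- absolute irreducibility
    have hatom : IsAtom S₀ := (isSimpleModule_iff_isAtom).1 hS₀
    let ι₀ : S₀ →ₗ[F] (ι → F) := S₀.subtype.restrictScalars F
    have hι₀ : ∀ x, ι₀ x = (x : ι → F) := fun _ => rfl
    have hι₀inj : Function.Injective ι₀ := Subtype.val_injective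
    have hcoinj : ∀ y y', ι₀ (co y) = ι₀ (co y') → y = y' := fun y y' h => co.injective (hι₀inj h)
    have hgen' : ∀ s (hs : s ∈ S) y, s *ᵥ ι₀ (co y) = ι₀ (co (ρ s *ᵥ y)) := by
      intro s hs y
      rw [← hgen s hs, ← AT.gen_smul hs]
      rfl
    refine ⟨?_, ?_⟩
    · rw [irr_iff]
      intro W' hW'
      let W : Submodule F (ι → F) := W'.map (ι₀ ∘ₗ co.toLinearMap)
      have hW : ∀ s ∈ S, ∀ v ∈ W, s *ᵥ v ∈ W := by
        rintro s hs _ ⟨y, hy, rfl⟩
        refine ⟨ρ s *ᵥ y, hW' _ ⟨s, hs, rfl⟩ y hy, ?_⟩
        exact (hgen' s hs y).symm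
      have hle : toASub W hW ≤ S₀ := by
        rintro _ ⟨y, _, rfl⟩
        exact (co y).2
      rcases hatom.le_iff.1 hle with h | h
      · left
        rw [eq_bot_iff]
        intro y hy
        have h1 : ι₀ (co y) ∈ toASub W hW := mem_toASub.2 ⟨y, hy, rfl⟩
        rw [h] at h1
        have h2 : ι₀ (co y) = ι₀ (co 0) := by
          rw [map_zero, map_zero]
          simpa using h1
        rw [hcoinj _ _ h2]
        exact Submodule.zero_mem _
      · right
        rw [eq_top_iff]
        intro y _
        have h1 : ι₀ (co y) ∈ toASub W hW := by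
          rw [h]
          exact (co y).2
        obtain ⟨y', hy', h2⟩ := mem_toASub.1 h1
        rw [← hcoinj _ _ h2]
        exact hy'
    · intro M hM
      have hM' : ∀ s (hs : s ∈ S), M * ρ s = ρ s * M := fun s hs => hM _ ⟨s, hs, rfl⟩
      let φ : S₀ →ₗ[F] S₀ := co.toLinearMap ∘ₗ (Matrix.toLin' M) ∘ₗ co.symm.toLinearMap
      have hφ : ∀ y, φ (co y) = co (M *ᵥ y) := by
        intro y
        simp [φ]
      have hcommgen : ∀ s (hs : s ∈ S) x, φ (AT.gen hs • x) = AT.gen hs • φ x := by
        intro s hs x
        obtain ⟨y, rfl⟩ := co.surjective x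
        rw [hgen, hφ, hφ, hgen, Matrix.mulVec_mulVec, Matrix.mulVec_mulVec, hM' s hs]
      have hcommall : ∀ a₀ ∈ Alg S, ∀ x x' : S₀, (x' : ι → F) = a₀ (x : ι → F) → (φ x' : ι → F) = a₀ (φ x : ι → F) := by
        intro a₀ ha₀
        induction ha₀ using Algebra.adjoin_induction with
        | mem z hz =>
          obtain ⟨s, hs, rfl⟩ := hz
          intro x x' hx
          have h1 : x' = AT.gen hs • x := Subtype.ext hx
          rw [h1, hcommgen]
          rfl
        | algebraMap c =>
          intro x x' hx
          have h1 : x' = c • x := Subtype.ext (by simpa [Module.algebraMap_end_apply] using hx)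
          rw [h1, map_smul]
          simp [Module.algebraMap_end_apply]
        | add p q hp hq ihp ihq =>
          intro x x' hx
          let xp : S₀ := ⟨p x, inv_of_mem_Alg_sub S₀ hp x⟩
          let xq : S₀ := ⟨q x, inv_of_mem_Alg_sub S₀ hq x⟩
          have h1 : x' = xp + xq := Subtype.ext hx
          rw [h1, map_add]
          have h2 := ihp x xp rfl
          have h3 := ihq x xq rfl
          simp only [Submodule.coe_add, LinearMap.add_apply, h2, h3]
        | mul p q hp hq ihp ihq =>
          intro x x' hx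
          let xq : S₀ := ⟨q x, inv_of_mem_Alg_sub S₀ hq x⟩
          have h2 := ihq x xq rfl
          have h3 := ihp xq x' hx
          rw [h3, h2]
          rfl
      let φA : S₀ →ₗ[AT S] S₀ :=
        { toFun := φ
          map_add' := φ.map_add
          map_smul' := fun r x => by
            have := hcommall r.1 r.2 x (r • x) rfl
            exact Subtype.ext this }
      have hφA : ∀ x, φA x = φ x := fun _ => rfl
      let C : (ι → F) →ₗ[AT S] (ι → F) := θ.symm.toLinearMap ∘ₗ (LinearMap.compLeft φA (Fin b)) ∘ₗ θ.toLinearMap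
      have hCapp : ∀ v, C v = θ.symm (φA ∘ (θ v)) := fun v => rfl
      have hD : ∀ D₁ : Module.End (AT S) S₀, D₁ ∘ₗ φA = φA ∘ₗ D₁ := by
        intro D₁
        haveI : Finite (Module.End (AT S) S₀) :=
          Finite.of_injective (fun f => (f : S₀ → S₀)) DFunLike.coe_injective
        exact (littleWedderburn (Module.End (AT S) S₀)).mul_comm D₁ φA
      have hCmem : matOf C ∈ Kc S := by
        refine mem_Kc.2 ⟨fun s hs => (matOf_comm C hs).symm, fun c hc => ?_⟩
        let G : (ι → F) →ₗ[AT S] (ι → F) := ofComm c (fun s hs => (hc s hs).symm)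
        have hGapp : ∀ v, G v = c *ᵥ v := fun v => rfl
        let G' : (Fin b → S₀) →ₗ[AT S] (Fin b → S₀) := θ.toLinearMap ∘ₗ G ∘ₗ θ.symm.toLinearMap
        have hG' : G' ∘ₗ (LinearMap.compLeft φA (Fin b)) = (LinearMap.compLeft φA (Fin b)) ∘ₗ G' := by
          apply LinearMap.pi_ext'
          intro j
          apply LinearMap.ext
          intro x
          funext i
          let D₁ : Module.End (AT S) S₀ := LinearMap.proj i ∘ₗ G' ∘ₗ LinearMap.single (AT S) (fun _ : Fin b => S₀) j
          have h1 := LinearMap.congr_fun (hD D₁) x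
          have h2 : (LinearMap.compLeft φA (Fin b)) (Pi.single j x) = Pi.single j (φA x) := by
            funext l
            change φA ((Pi.single j x : Fin b → S₀) l) = (Pi.single j (φA x) : Fin b → S₀) l
            by_cases hl : l = j
            · subst hl
              simp
            · simp [Pi.single_eq_of_ne hl]
          simp only [LinearMap.comp_apply, LinearMap.single_apply, h2]
          exact h1
        have hcomm : ∀ v, G (C v) = C (G v) := by
          intro v
          have h1 := LinearMap.congr_fun hG' (θ v)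
          simp only [LinearMap.comp_apply, G', LinearEquiv.coe_coe, LinearEquiv.symm_apply_apply] at h1
          rw [hCapp, hCapp]
          have h2 := congrArg θ.symm h1
          simp only [LinearEquiv.symm_apply_apply] at h2
          exact h2
        apply Matrix.ext_of_mulVec_single
        intro i
        rw [← Matrix.mulVec_mulVec, ← Matrix.mulVec_mulVec, matOf_mulVec, matOf_mulVec, ← hGapp, ← hGapp, hcomm]
      obtain ⟨d, hd⟩ := hscal _ hCmem
      refine ⟨d, ?_⟩
      have hCd : ∀ v, C v = d • v := by
        intro v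
        rw [← matOf_mulVec, hd, Matrix.smul_mulVec, Matrix.one_mulVec]
      have hφd : ∀ x, φ x = d • x := by
        intro x
        let j : Fin b := ⟨0, Nat.pos_of_ne_zero (NeZero.ne b)⟩
        have h1 := hCd (θ.symm (Pi.single j x))
        rw [hCapp, LinearEquiv.apply_symm_apply] at h1
        have h2 : φA ∘ (Pi.single j x : Fin b → S₀) = Pi.single j (d • φA x) - Pi.single j (d • φA x) + Pi.single j (φA x) := by
          funext l
          by_cases hl : l = j
          · subst hl
            simp
          · simp [Pi.single_eq_of_ne hl]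
        have h3 : d • θ.symm (Pi.single j x) = θ.symm (Pi.single j (d • x)) := by
          have h4 : (Pi.single j (d • x) : Fin b → S₀) = d • Pi.single j x := by
            rw [← Pi.single_smul]
          rw [h4]
          exact (map_smul (θ.restrictScalars F).symm d _).symm
        rw [h3] at h1
        have h5 := θ.symm.injective h1
        rw [h2] at h5
        simp only [sub_self, zero_add] at h5
        have h6 := congrFun h5 j
        rw [← hφA]
        simpa using h6
      apply Matrix.ext_of_mulVec_single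
      intro i
      apply co.injective
      rw [← hφ, hφd, Matrix.smul_mulVec, Matrix.one_mulVec, map_smul]

end Cfsg.Agent.Lib.Asch.TD
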