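import Mathlib
import Cfsg.Agent.Lib.Asch.TD
import Cfsg.Agent.Lib.Geo.Basic

/-!
# The twelve alternatives of `InLinearClass`, membership in tensor wreath subgroups, transport of forms
-/

set_option autoImplicit false

namespace Cfsg.Agent.Lib.Asch.Cl

open Matrix Module Cfsg Cfsg.Geo

universe u

variable {F : Type u} [Field F] [Fintype F] {n : ℕ}

theorem cl_sub (W : Submodule F (Fin n → F)) (h0 : W ≠ ⊥) (h1 : W ≠ ⊤) : InLinearClass n F (subspaceStabilizer W) :=
  Or.inl ⟨W, h0, h1, rfl⟩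

theorem cl_decomp {t m : ℕ} {D : Fin t → Submodule F (Fin n → F)} (hD : IsMDecomposition m D) :
    InLinearClass n F (decompositionStabilizer D) :=
  Or.inr <| Or.inr <| Or.inr <| Or.inl ⟨t, m, D, hD, rfl⟩

theorem cl_field {r : ℕ} {K : Subalgebra F (Matrix (Fin n) (Fin n) F)} (hr : r.Prime) (hK : IsFieldSubalgebra r K) :
    InLinearClass n F (subalgebraNormalizer K) :=
  Or.inr <| Or.inr <| Or.inr <| Or.inr <| Or.inl ⟨r, K, hr, hK, rfl⟩

theorem cl_tensor {n₁ n₂ : ℕ} (e : Fin n ≃ Fin n₁ × Fin n₂) (P : GL (Fin n) F) (h1 : 2 ≤ n₁) (h2 : n₁ < n₂) :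
    InLinearClass n F (tensorProductSubgroup n₁ n₂ e P) :=
  Or.inr <| Or.inr <| Or.inr <| Or.inr <| Or.inr <| Or.inl ⟨n₁, n₂, e, P, h1, h2, rfl⟩

theorem cl_subfield (F₀ : Subfield F) {r : ℕ} (P : GL (Fin n) F) (hr : r.Prime) (hc : Fintype.card F = Nat.card F₀ ^ r) :
    InLinearClass n F (subfieldSubgroup F₀ P) :=
  Or.inr <| Or.inr <| Or.inr <| Or.inr <| Or.inr <| Or.inr <| Or.inl ⟨F₀, r, P, hr, hc, rfl⟩

theorem cl_symplType {r : ℕ} {R : Subgroup (GL (Fin n) F)} (hR : IsLinearSymplecticTypeData r R) :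
    InLinearClass n F (subgroupNormalizer R) :=
  Or.inr <| Or.inr <| Or.inr <| Or.inr <| Or.inr <| Or.inr <| Or.inr <| Or.inl ⟨r, R, hR, rfl⟩

theorem cl_wreath {m t : ℕ} (e : Fin n ≃ (Fin t → Fin m)) (P : GL (Fin n) F) (hm : 3 ≤ m) (ht : 2 ≤ t) :
    InLinearClass n F (tensorWreathSubgroup m t e P) :=
  Or.inr <| Or.inr <| Or.inr <| Or.inr <| Or.inr <| Or.inr <| Or.inr <| Or.inr <| Or.inl ⟨m, t, e, P, hm, ht, rfl⟩

theorem cl_symp {f : (Fin n → F) → (Fin n → F) → F} (hf : IsSymplecticForm f) (h1 : Even n) (h2 : 4 ≤ n) :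
    InLinearClass n F (similarityGroup f) :=
  Or.inr <| Or.inr <| Or.inr <| Or.inr <| Or.inr <| Or.inr <| Or.inr <| Or.inr <| Or.inr <| Or.inl ⟨f, hf, h1, h2, rfl⟩

theorem cl_unit {σ : F ≃+* F} {f : (Fin n → F) → (Fin n → F) → F} (hf : IsUnitaryForm σ f) (h1 : 3 ≤ n) :
    InLinearClass n F (similarityGroup f) :=
  Or.inr <| Or.inr <| Or.inr <| Or.inr <| Or.inr <| Or.inr <| Or.inr <| Or.inr <| Or.inr <| Or.inr <| Or.inl ⟨σ, f, hf, h1, rfl⟩

theorem cl_quad {Q : (Fin n → F) → F} (hQ : IsNondegenerateQuadraticForm Q) (h0 : Odd (Fintype.card F)) (h1 : 3 ≤ n) :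
    InLinearClass n F (quadSimilarityGroup Q) :=
  Or.inr <| Or.inr <| Or.inr <| Or.inr <| Or.inr <| Or.inr <| Or.inr <| Or.inr <| Or.inr <| Or.inr <| Or.inr ⟨Q, hQ, h0, h1, rfl⟩

variable {ι : Type} [Fintype ι] [DecidableEq ι]

omit [Fintype F] in
theorem glReindex_val {κ : Type} [Fintype κ] [DecidableEq κ] (e : ι ≃ κ) (g : GL κ F) :
    ((glReindex e.symm g : GL ι F) : Matrix ι ι F) = (g : Matrix κ κ F).submatrix e e := by
  simp [glReindex, Matrix.reindexAlgEquiv]

omit [Fintype F] in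
/-- Elements of the tensor wreath subgroup. -/
theorem mem_tensorWreathSubgroup_iff {m t : ℕ} (e : ι ≃ (Fin t → Fin m)) (P h : GL ι F) :
    h ∈ tensorWreathSubgroup m t e P ↔
      ∃ g ∈ tensorWreathStandard m t F, (h : Matrix ι ι F) * (P : Matrix ι ι F) =
        (P : Matrix ι ι F) * (g : Matrix (Fin t → Fin m) (Fin t → Fin m) F).submatrix e e := by
  constructor
  · rintro ⟨_, ⟨g, hg, rfl⟩, rfl⟩
    refine ⟨g, hg, ?_⟩
    have : ((MulAut.conj P).toMonoidHom ((glReindex e.symm).toMonoidHom g) : GL ι F) =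
        P * glReindex e.symm g * P⁻¹ := rfl
    rw [this, Units.val_mul, Units.val_mul, glReindex_val]
    rw [mul_assoc, mul_assoc, ← Units.val_mul, inv_mul_cancel, Units.val_one, mul_one]
  · rintro ⟨g, hg, hh⟩
    refine ⟨(glReindex e.symm).toMonoidHom g, ⟨g, hg, rfl⟩, ?_⟩
    have : ((MulAut.conj P).toMonoidHom ((glReindex e.symm).toMonoidHom g) : GL ι F) =
        P * glReindex e.symm g * P⁻¹ := rfl
    rw [this]
    apply Units.ext
    rw [Units.val_mul, Units.val_mul, glReindex_val, ← hh, mul_assoc, ← Units.val_mul, mul_inv_cancel,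
      Units.val_one, mul_one]

/-- The transport of a vector to the coordinates of the tensor wreath group. -/
noncomputable def trV {κ : Type} [Fintype κ] [DecidableEq κ] (e : ι ≃ κ) (P : GL ι F) : (ι → F) ≃ₗ[F] (κ → F) :=
  (Matrix.toLinearEquiv' ((P⁻¹ : GL ι F) : Matrix ι ι F) (by
    exact ⟨(P : Matrix ι ι F), by rw [← Units.val_mul, mul_inv_cancel, Units.val_one],
      by rw [← Units.val_mul, inv_mul_cancel, Units.val_one]⟩)).trans (LinearEquiv.funCongrLeft F F e.symm)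

omit [Fintype F] in
theorem trV_apply {κ : Type} [Fintype κ] [DecidableEq κ] (e : ι ≃ κ) (P : GL ι F) (v : ι → F) :
    trV e P v = (((P⁻¹ : GL ι F) : Matrix ι ι F) *ᵥ v) ∘ e.symm := by
  rfl

omit [Fintype F] in
/-- Conjugating by `P` and reindexing intertwines the actions. -/
theorem trV_intertwine {κ : Type} [Fintype κ] [DecidableEq κ] (e : ι ≃ κ) (P h : GL ι F) (g : Matrix κ κ F)
    (hh : (h : Matrix ι ι F) * (P : Matrix ι ι F) = (P : Matrix ι ι F) * g.submatrix e e) (v : ι → F) :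
    trV e P ((h : Matrix ι ι F) *ᵥ v) = g *ᵥ trV e P v := by
  have h1 : ((P⁻¹ : GL ι F) : Matrix ι ι F) * (h : Matrix ι ι F) = g.submatrix e e * ((P⁻¹ : GL ι F) : Matrix ι ι F) := by
    have hPi : ((P⁻¹ : GL ι F) : Matrix ι ι F) * (P : Matrix ι ι F) = 1 := by
      rw [← Units.val_mul, inv_mul_cancel, Units.val_one]
    have hiP : (P : Matrix ι ι F) * ((P⁻¹ : GL ι F) : Matrix ι ι F) = 1 := by
      rw [← Units.val_mul, mul_inv_cancel, Units.val_one]
    calc ((P⁻¹ : GL ι F) : Matrix ι ι F) * (h : Matrix ι ι F)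
        = ((P⁻¹ : GL ι F) : Matrix ι ι F) * ((h : Matrix ι ι F) * (P : Matrix ι ι F)) * ((P⁻¹ : GL ι F) : Matrix ι ι F) := by
          rw [mul_assoc, mul_assoc, hiP, mul_one]
      _ = _ := by rw [hh, ← mul_assoc, hPi, one_mul]
  rw [trV_apply, trV_apply, Matrix.mulVec_mulVec, h1, ← Matrix.mulVec_mulVec, Matrix.submatrix_mulVec_equiv]
  funext k
  simp

/-! ### Transport of forms along linear isomorphisms -/

section Transport

variable {κ : Type} [Fintype κ] [DecidableEq κ]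

omit [Fintype F] [DecidableEq ι] [Fintype κ] [DecidableEq κ] [Fintype ι] in
theorem bilinear_transport {f : (κ → F) → (κ → F) → F} (A : (ι → F) ≃ₗ[F] (κ → F)) (hf : IsBilinearForm f) :
    IsBilinearForm (fun u v => f (A u) (A v)) :=
  ⟨fun x y v => by simp only [map_add, hf.add_left], fun c x v => by simp only [map_smul, hf.smul_left],
    fun v x y => by simp only [map_add, hf.add_right], fun c v x => by simp only [map_smul, hf.smul_right]⟩

omit [Fintype F] [DecidableEq ι] [Fintype κ] [DecidableEq κ] [Fintype ι] in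
theorem nondeg_transport {f : (κ → F) → (κ → F) → F} (A : (ι → F) ≃ₗ[F] (κ → F)) (hf : IsNondegenerateForm f) :
    IsNondegenerateForm (fun u v => f (A u) (A v)) := by
  intro v hv
  have hAv : A v ≠ 0 := fun h => hv (A.injective (by rw [h, map_zero]))
  obtain ⟨⟨x, hx⟩, ⟨y, hy⟩⟩ := hf (A v) hAv
  exact ⟨⟨A.symm x, by simpa using hx⟩, ⟨A.symm y, by simpa using hy⟩⟩

omit [Fintype F] [DecidableEq ι] [Fintype κ] [DecidableEq κ] [Fintype ι] in
theorem symplectic_transport {f : (κ → F) → (κ → F) → F} (A : (ι → F) ≃ₗ[F] (κ → F)) (hf : IsSymplecticForm f) :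
    IsSymplecticForm (fun u v => f (A u) (A v)) :=
  ⟨bilinear_transport A hf.bilinear, fun _ _ => hf.skew _ _, fun _ => hf.alternating _, nondeg_transport A hf.nondegenerate⟩

omit [Fintype F] [DecidableEq ι] [Fintype κ] [DecidableEq κ] [Fintype ι] in
theorem quad_transport {Q : (κ → F) → F} (A : (ι → F) ≃ₗ[F] (κ → F)) (hQ : IsNondegenerateQuadraticForm Q) :
    IsNondegenerateQuadraticForm (fun v => Q (A v)) := by
  have hp : QuadraticMap.polar (fun v => Q (A v)) = fun u v => QuadraticMap.polar Q (A u) (A v) := by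
    funext u v
    simp [QuadraticMap.polar]
  refine ⟨fun c v => by simp only [map_smul, hQ.smul], ?_, ?_⟩
  · rw [hp]
    exact bilinear_transport A hQ.polar_bilinear
  · rw [hp]
    exact nondeg_transport A hQ.nondegenerate

end Transport

end Cfsg.Agent.Lib.Asch.Cl
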