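import Mathlib
import Cfsg.Agent.Lib.Asch.Basic

/-!
# Subfields of finite fields and field subalgebras of matrix algebras
-/

set_option autoImplicit false

namespace Cfsg.Agent.Lib.Asch.FieldSub

open Matrix Module Cfsg Cfsg.Geo

universe u

section Count

variable {L : Type*} [Field L] [Fintype L]

/-- The number of solutions of `x ^ Q = x` when `Q - 1` divides `|L| - 1`. -/
theorem card_pow_fix [DecidableEq L] {Q : ℕ} (hQ : 2 ≤ Q) (hdvd : Q - 1 ∣ Fintype.card L - 1) :
    (Finset.univ.filter fun x : L => x ^ Q = x).card = Q := by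
  classical
  apply le_antisymm
  · -- upper bound: roots of a polynomial
    let f : Polynomial L := Polynomial.X ^ Q - Polynomial.X
    have hdeg : f.natDegree = Q := FiniteField.X_pow_card_sub_X_natDegree_eq L (by omega)
    have hf : f ≠ 0 := by
      intro h
      rw [h] at hdeg
      simp at hdeg
      omega
    have hsub : (Finset.univ.filter fun x : L => x ^ Q = x) ⊆ f.roots.toFinset := by
      intro x hx
      rw [Finset.mem_filter] at hx
      rw [Multiset.mem_toFinset, Polynomial.mem_roots hf]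
      simp [f, hx.2]
    calc _ ≤ f.roots.toFinset.card := Finset.card_le_card hsub
      _ ≤ f.roots.card := Multiset.toFinset_card_le _
      _ ≤ f.natDegree := Polynomial.card_roots' f
      _ = Q := hdeg
  · -- lower bound
    obtain ⟨g, hg⟩ := IsCyclic.exists_generator (α := Lˣ)
    have hog : orderOf g = Fintype.card L - 1 := by
      rw [orderOf_eq_card_of_forall_mem_zpowers hg, Nat.card_eq_fintype_card, Fintype.card_units]
    have hL : 2 ≤ Fintype.card L := Fintype.one_lt_card
    obtain ⟨c, hc⟩ := hdvd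
    have hcpos : c ≠ 0 := by
      rintro rfl
      omega
    have hQ1 : Q - 1 ≠ 0 := by omega
    let y : Lˣ := g ^ c
    have hoy : orderOf y = Q - 1 := by
      simp only [y]
      rw [orderOf_pow_of_dvd hcpos (by rw [hog, hc]; exact Dvd.intro_left _ rfl), hog, hc]
      exact Nat.mul_div_cancel _ (Nat.pos_of_ne_zero hcpos)
    let im : Finset L := (Finset.range (Q - 1)).image fun i => ((y ^ i : Lˣ) : L)
    have him : im.card = Q - 1 := by
      rw [Finset.card_image_of_injOn, Finset.card_range]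
      intro i hi j hj hij
      have h1 : y ^ i = y ^ j := Units.ext hij
      have h2 := pow_injOn_Iio_orderOf (x := y)
      apply h2 _ _ h1
      · rw [hoy]; simpa using hi
      · rw [hoy]; simpa using hj
    have h0 : (0 : L) ∉ im := by
      intro h
      obtain ⟨i, -, hi⟩ := Finset.mem_image.1 h
      exact Units.ne_zero _ hi
    have hsub : insert (0 : L) im ⊆ (Finset.univ.filter fun x : L => x ^ Q = x) := by
      intro x hx
      rw [Finset.mem_filter]
      refine ⟨Finset.mem_univ _, ?_⟩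
      rcases Finset.mem_insert.1 hx with rfl | hx
      · exact zero_pow (by omega)
      · obtain ⟨i, -, rfl⟩ := Finset.mem_image.1 hx
        have h3 : (y ^ i) ^ (Q - 1) = 1 := by
          rw [← pow_mul, mul_comm, pow_mul, ← hoy, pow_orderOf_eq_one, one_pow]
        have h4 : (y ^ i) ^ Q = y ^ i := by
          have : Q = (Q - 1) + 1 := by omega
          rw [this, pow_succ, h3, one_mul]
        have h5 := congrArg (fun u : Lˣ => (u : L)) h4
        simpa using h5
    have h6 := Finset.card_le_card hsub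
    rw [Finset.card_insert_of_notMem h0, him] at h6
    omega

end Count

variable {F : Type u} [Field F] [Fintype F]

/-- The subfield of solutions of `x ^ (p ^ k) = x`. -/
noncomputable def fixSub (p k : ℕ) [Fact p.Prime] [CharP F p] : Subfield F :=
  (iterateFrobenius F p k).eqLocusField (RingHom.id F)

theorem mem_fixSub {p k : ℕ} [Fact p.Prime] [CharP F p] {x : F} : x ∈ fixSub (F := F) p k ↔ x ^ p ^ k = x := by
  simp only [fixSub, RingHom.mem_eqLocusField, iterateFrobenius_def, RingHom.id_apply]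

/-- A proper subfield lies in a subfield of prime index. -/
theorem exists_max_subfield (p : ℕ) [hp : Fact p.Prime] [CharP F p] (F₀ : Subfield F) (hF₀ : F₀ ≠ ⊤) :
    ∃ (F₁ : Subfield F) (s k : ℕ), F₀ ≤ F₁ ∧ s.Prime ∧ Fintype.card F = Nat.card F₁ ^ s ∧ Nat.card F₁ = p ^ k ∧
      (∀ x, x ∈ F₁ ↔ x ^ p ^ k = x) := by
  classical
  letI : Fintype F₀ := Fintype.ofFinite _
  haveI : CharP F₀ p := (RingHom.charP_iff F₀.subtype Subtype.val_injective p).2 inferInstance
  obtain ⟨a, -, ha⟩ := FiniteField.card F₀ p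
  have hcard : Fintype.card F = Fintype.card F₀ ^ finrank F₀ F := card_eq_pow_finrank
  set d := finrank F₀ F with hd
  have hd0 : d ≠ 0 := (Module.finrank_pos (R := F₀) (M := F)).ne'
  have hd1 : d ≠ 1 := by
    intro h
    rw [h, pow_one] at hcard
    apply hF₀
    rw [eq_top_iff]
    intro x _
    have hb : Function.Bijective (Subtype.val : F₀ → F) :=
      (Fintype.bijective_iff_injective_and_card _).2 ⟨Subtype.val_injective, hcard.symm⟩
    obtain ⟨y, rfl⟩ := hb.2 x
    exact y.2
  let s := d.minFac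
  have hs : s.Prime := Nat.minFac_prime hd1
  obtain ⟨j, hj⟩ : s ∣ d := Nat.minFac_dvd d
  have hj0 : j ≠ 0 := by
    rintro rfl
    omega
  let k := (a : ℕ) * j
  have hk0 : k ≠ 0 := mul_ne_zero a.ne_zero hj0
  have hFQ : Fintype.card F = (p ^ k) ^ s := by
    rw [hcard, ha, hj]
    simp only [k]
    rw [← pow_mul, ← pow_mul]
    congr 1
    ring
  have hp2 := hp.out.two_le
  have hQ2 : 2 ≤ p ^ k := le_trans hp2 (Nat.le_self_pow hk0 p)
  have hdvd : p ^ k - 1 ∣ Fintype.card F - 1 := by
    rw [hFQ]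
    have := Nat.sub_dvd_pow_sub_pow (p ^ k) 1 s
    simpa using this
  refine ⟨fixSub p k, s, k, ?_, hs, ?_, ?_, fun x => mem_fixSub⟩
  · intro x hx
    rw [mem_fixSub]
    have h1 := FiniteField.pow_card_pow j (⟨x, hx⟩ : F₀)
    have h2 := congrArg Subtype.val h1
    have h3 : Fintype.card F₀ ^ j = p ^ k := by
      rw [ha, ← pow_mul]
    rw [h3] at h2
    simpa using h2
  · have h1 := card_pow_fix (L := F) hQ2 hdvd
    have h2 : Nat.card (fixSub (F := F) p k) = p ^ k := by
      rw [← h1, ← Fintype.card_subtype, ← Nat.card_eq_fintype_card]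
      apply Nat.card_congr
      exact Equiv.subtypeEquivRight (fun x => mem_fixSub)
    rw [h2, hFQ]
  · have h1 := card_pow_fix (L := F) hQ2 hdvd
    rw [← h1, ← Fintype.card_subtype, ← Nat.card_eq_fintype_card]
    apply Nat.card_congr
    exact Equiv.subtypeEquivRight (fun x => mem_fixSub)

variable {ι : Type} [Fintype ι] [DecidableEq ι]

/-- A field subalgebra of degree greater than one contains a canonical subfield of prime degree. -/
theorem exists_prime_subalgebra (p : ℕ) [hp : Fact p.Prime] [CharP F p] [Nonempty ι] {d : ℕ}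
    (K : Subalgebra F (Matrix ι ι F)) (hK : IsFieldSubalgebra d K) (hd : 1 < d) :
    ∃ (r : ℕ) (K₁ : Subalgebra F (Matrix ι ι F)), r.Prime ∧ IsFieldSubalgebra r K₁ ∧ K₁ ≤ K ∧
      ∀ g : GL ι F, (∀ k, k ∈ K ↔ (g : Matrix ι ι F) * k * ((g⁻¹ : GL ι F) : Matrix ι ι F) ∈ K) →
        (∀ k, k ∈ K₁ ↔ (g : Matrix ι ι F) * k * ((g⁻¹ : GL ι F) : Matrix ι ι F) ∈ K₁) := by
  classical
  haveI : CharP (Matrix ι ι F) p := Matrix.charP p
  obtain ⟨f, -, hf⟩ := FiniteField.card F p
  let r := d.minFac
  have hr : r.Prime := Nat.minFac_prime (by omega)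
  obtain ⟨j, hj⟩ : r ∣ d := Nat.minFac_dvd d
  let Q := Fintype.card F ^ r
  have hQ : Q = p ^ ((f : ℕ) * r) := by
    simp only [Q]
    rw [hf, ← pow_mul]
  have hF2 : 2 ≤ Fintype.card F := Fintype.one_lt_card
  have hQ2 : 2 ≤ Q := le_trans hF2 (Nat.le_self_pow hr.ne_zero _)
  have hcomm : ∀ a ∈ K, ∀ b ∈ K, Commute a b := fun a ha b hb => hK.comm a ha b hb
  let K₁ : Subalgebra F (Matrix ι ι F) :=
    { carrier := {k | k ∈ K ∧ k ^ Q = k}
      mul_mem' := by
        rintro a b ⟨ha, ha'⟩ ⟨hb, hb'⟩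
        refine ⟨K.mul_mem ha hb, ?_⟩
        rw [(hcomm a ha b hb).mul_pow, ha', hb']
      add_mem' := by
        rintro a b ⟨ha, ha'⟩ ⟨hb, hb'⟩
        refine ⟨K.add_mem ha hb, ?_⟩
        rw [hQ, add_pow_char_pow_of_commute p _ (hcomm a ha b hb), ← hQ, ha', hb']
      algebraMap_mem' := by
        intro c
        refine ⟨K.algebraMap_mem c, ?_⟩
        rw [← map_pow]
        congr 1
        exact FiniteField.pow_card_pow r c }
  have hmemK₁ : ∀ k, k ∈ K₁ ↔ k ∈ K ∧ k ^ Q = k := fun k => Iff.rfl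
  have hnt : Nontrivial K := inferInstance
  have hKfield : IsField K :=
    { exists_pair_ne := exists_pair_ne K
      mul_comm := fun x y => Subtype.ext (hK.comm _ x.2 _ y.2)
      mul_inv_cancel := by
        intro x hx
        obtain ⟨y, hy, hxy⟩ := hK.inv x.1 x.2 (fun h => hx (Subtype.ext h))
        exact ⟨⟨y, hy⟩, Subtype.ext hxy⟩ }
  letI : Fintype K := Fintype.ofFinite _
  have hcardK : Fintype.card K = Fintype.card F ^ d := by
    rw [card_eq_pow_finrank (K := F) (V := K), hK.finrank_eq]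
  have hdvd : Q - 1 ∣ Fintype.card K - 1 := by
    rw [hcardK, hj, pow_mul]
    have := Nat.sub_dvd_pow_sub_pow Q 1 j
    simpa using this
  have hcount : Nat.card K₁ = Q := by
    letI fld : Field K := hKfield.toField
    have h1 := card_pow_fix (L := K) hQ2 hdvd
    rw [← h1, ← Fintype.card_subtype, ← Nat.card_eq_fintype_card]
    apply Nat.card_congr
    refine ⟨fun x => ⟨⟨x.1, x.2.1⟩, Subtype.ext x.2.2⟩, fun x => ⟨x.1.1, x.1.2, ?_⟩, ?_, ?_⟩
    · exact congrArg Subtype.val x.2
    · intro x; rfl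
    · intro x; rfl
  refine ⟨r, K₁, hr, ⟨?_, ?_, ?_⟩, fun k hk => hk.1, ?_⟩
  · intro x hx y hy
    exact hK.comm x hx.1 y hy.1
  · rintro x ⟨hxK, hxQ⟩ hx0
    obtain ⟨y, hy, hxy⟩ := hK.inv x hxK hx0
    refine ⟨y, ⟨hy, ?_⟩, hxy⟩
    have hyx : y * x = 1 := by rw [← hK.comm x hxK y hy]; exact hxy
    have h1 : x * y ^ Q = 1 := by
      have h2 : (x * y) ^ Q = 1 := by rw [hxy, one_pow]
      rw [(hcomm x hxK y hy).mul_pow, hxQ] at h2
      exact h2
    calc y ^ Q = (y * x) * y ^ Q := by rw [hyx, one_mul]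
      _ = y * (x * y ^ Q) := mul_assoc _ _ _
      _ = y := by rw [h1, mul_one]
  · letI : Fintype K₁ := Fintype.ofFinite _
    have h1 : Fintype.card K₁ = Fintype.card F ^ finrank F K₁ := card_eq_pow_finrank
    rw [← Nat.card_eq_fintype_card, hcount] at h1
    exact (Nat.pow_right_injective hF2 h1).symm
  · intro g hg k
    rw [hmemK₁, hmemK₁, ← hg k]
    have hpow : ((g : Matrix ι ι F) * k * ((g⁻¹ : GL ι F) : Matrix ι ι F)) ^ Q =
        (g : Matrix ι ι F) * k ^ Q * ((g⁻¹ : GL ι F) : Matrix ι ι F) := by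
      have h2 : ((g⁻¹ : GL ι F) : Matrix ι ι F) = ((g : GL ι F)⁻¹ : (Matrix ι ι F)ˣ).val := rfl
      exact Units.conj_pow g k Q
    rw [hpow]
    constructor
    · rintro ⟨h1, h2⟩
      exact ⟨h1, by rw [h2]⟩
    · rintro ⟨h1, h2⟩
      refine ⟨h1, ?_⟩
      have h3 : (g : Matrix ι ι F) * k ^ Q = (g : Matrix ι ι F) * k := by
        have := congrArg (fun m => m * (g : Matrix ι ι F)) h2
        simpa [mul_assoc] using this
      exact (Units.mul_right_inj g).1 h3

end Cfsg.Agent.Lib.Asch.FieldSub
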