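import Mathlib
import Cfsg.Agent.Lib.Asch.Cl

/-!
# The tensor wreath group with two-dimensional factors preserves a form up to scalars
-/

set_option autoImplicit false

namespace Cfsg.Agent.Lib.Asch.TW2

open Matrix Module Cfsg Cfsg.Geo Cfsg.Agent.Lib.Asch.Cl

universe u

variable {F : Type u} [Field F]

/-- The standard alternating form on the plane. -/
def J (a b : Fin 2) : F := ![![(0 : F), 1], ![-1, 0]] a b

/-- The tensor power of `J`. -/
def BM (t : ℕ) : Matrix (Fin t → Fin 2) (Fin t → Fin 2) F := fun α β => ∏ i, J (α i) (β i)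

theorem BM_apply (t : ℕ) (α β : Fin t → Fin 2) : (BM t : Matrix _ _ F) α β = ∏ i, J (α i) (β i) := rfl

theorem J_sq (a b : Fin 2) : ∑ c, (J a c : F) * J c b = if a = b then -1 else 0 := by
  fin_cases a <;> fin_cases b <;> simp [J, Fin.sum_univ_two]

theorem J_conj (g : Matrix (Fin 2) (Fin 2) F) (a b : Fin 2) :
    ∑ c, ∑ d, g c a * ((J c d : F) * g d b) = g.det * J a b := by
  rw [Matrix.det_fin_two]
  fin_cases a <;> fin_cases b <;> simp [J, Fin.sum_univ_two] <;> ring

theorem J_skew (a b : Fin 2) : (J a b : F) = - J b a := by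
  fin_cases a <;> fin_cases b <;> simp [J]

theorem J_diag (a : Fin 2) : (J a a : F) = 0 := by
  fin_cases a <;> simp [J]

/-- Sums over functions of products. -/
theorem sum_prod {t : ℕ} (h : Fin t → Fin 2 → F) : ∑ γ : Fin t → Fin 2, ∏ i, h i (γ i) = ∏ i, ∑ c, h i c := by
  rw [Finset.prod_univ_sum, Fintype.piFinset_univ]

theorem BM_sq (t : ℕ) : (BM t : Matrix _ _ F) * BM t = (-1 : F) ^ t • 1 := by
  ext α β
  rw [Matrix.mul_apply]
  simp only [BM_apply, ← Finset.prod_mul_distrib]
  rw [sum_prod (fun i c => (J (α i) c : F) * J c (β i))]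
  simp only [J_sq]
  rw [Matrix.smul_apply, Matrix.one_apply, smul_eq_mul]
  by_cases hαβ : α = β
  · subst hαβ
    simp
  · rw [if_neg hαβ, mul_zero]
    obtain ⟨i, hi⟩ := Function.ne_iff.1 hαβ
    exact Finset.prod_eq_zero (Finset.mem_univ i) (by rw [if_neg hi])

theorem BM_transpose (t : ℕ) (α β : Fin t → Fin 2) : (BM t : Matrix _ _ F) β α = (-1) ^ t * BM t α β := by
  simp only [BM_apply]
  have h1 : ∀ i, (J (β i) (α i) : F) = (-1) * J (α i) (β i) := fun i => by
    rw [J_skew (β i) (α i)]; ring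
  rw [Finset.prod_congr rfl fun i _ => h1 i, Finset.prod_mul_distrib]
  simp

theorem BM_diag {t : ℕ} (ht : 0 < t) (α : Fin t → Fin 2) : (BM t : Matrix _ _ F) α α = 0 := by
  simp only [BM_apply]
  exact Finset.prod_eq_zero (Finset.mem_univ ⟨0, ht⟩) (J_diag _)

/-- The form on the tensor power. -/
def f₀ (t : ℕ) (u v : (Fin t → Fin 2) → F) : F := u ⬝ᵥ (BM t *ᵥ v)

theorem f₀_bilinear (t : ℕ) : IsBilinearForm (f₀ (F := F) t) := by
  refine ⟨fun x y v => ?_, fun c x v => ?_, fun v x y => ?_, fun c v x => ?_⟩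
  · simp [f₀, add_dotProduct]
  · simp [f₀, smul_dotProduct]
  · simp [f₀, mulVec_add, dotProduct_add]
  · simp [f₀, mulVec_smul, dotProduct_smul]

theorem f₀_nondeg (t : ℕ) : IsNondegenerateForm (f₀ (F := F) t) := by
  intro v hv
  have hs : ((-1 : F) ^ t) ≠ 0 := pow_ne_zero _ (neg_ne_zero.2 one_ne_zero)
  constructor
  · by_contra hcon
    push Not at hcon
    apply hv
    have h1 : BM t *ᵥ v = 0 := by
      funext a
      have := hcon (Pi.single a 1)
      simpa [f₀, single_one_dotProduct] using this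
    have h2 : (BM t * BM t : Matrix _ _ F) *ᵥ v = 0 := by
      rw [← Matrix.mulVec_mulVec, h1, Matrix.mulVec_zero]
    rw [BM_sq, Matrix.smul_mulVec, Matrix.one_mulVec] at h2
    exact (smul_eq_zero.1 h2).resolve_left hs
  · by_contra hcon
    push Not at hcon
    apply hv
    have h1 : v ᵥ* BM t = 0 := by
      funext a
      have := hcon (Pi.single a 1)
      rw [f₀, Matrix.dotProduct_mulVec] at this
      simpa [dotProduct_single_one] using this
    have h2 : v ᵥ* (BM t * BM t : Matrix _ _ F) = 0 := by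
      rw [← Matrix.vecMul_vecMul, h1, Matrix.zero_vecMul]
    rw [BM_sq, Matrix.vecMul_smul, Matrix.vecMul_one] at h2
    exact (smul_eq_zero.1 h2).resolve_left hs

theorem f₀_mulVec (t : ℕ) (g : Matrix (Fin t → Fin 2) (Fin t → Fin 2) F) (c : F)
    (hg : gᵀ * BM t * g = c • BM t) (u v) : f₀ t (g *ᵥ u) (g *ᵥ v) = c * f₀ t u v := by
  simp only [f₀]
  have h1 : (g *ᵥ u) ⬝ᵥ (BM t *ᵥ (g *ᵥ v)) = u ⬝ᵥ ((gᵀ * BM t * g) *ᵥ v) := by
    rw [← Matrix.mulVec_mulVec, ← Matrix.mulVec_mulVec, Matrix.dotProduct_mulVec u, Matrix.vecMul_transpose]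
  rw [h1, hg, Matrix.smul_mulVec, dotProduct_smul, smul_eq_mul]

theorem pure_sim {t : ℕ} (g : Matrix (Fin t → Fin 2) (Fin t → Fin 2) F) (gs : Fin t → Matrix (Fin 2) (Fin 2) F)
    (hg : ∀ x y, g x y = ∏ i, gs i (x i) (y i)) : gᵀ * BM t * g = (∏ i, (gs i).det) • BM t := by
  ext α β
  rw [Matrix.mul_apply]
  simp only [Matrix.mul_apply, Matrix.transpose_apply, hg, BM_apply, Finset.sum_mul]
  rw [Matrix.smul_apply, BM_apply, smul_eq_mul, ← Finset.prod_mul_distrib]
  simp only [← J_conj]
  rw [Finset.sum_comm]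
  rw [← sum_prod (fun i c => ∑ d, (gs i) c (α i) * ((J c d : F) * (gs i) d (β i)))]
  refine Finset.sum_congr rfl fun γ _ => ?_
  have := sum_prod (fun i d => (gs i) (γ i) (α i) * ((J (γ i) d : F) * (gs i) d (β i)))
  rw [← this]
  refine Finset.sum_congr rfl fun δ _ => ?_
  rw [← Finset.prod_mul_distrib, ← Finset.prod_mul_distrib]
  refine Finset.prod_congr rfl fun i _ => ?_
  ring

theorem perm_sim {t : ℕ} (g : Matrix (Fin t → Fin 2) (Fin t → Fin 2) F) (σ : Equiv.Perm (Fin t))
    (hg : ∀ x y, g x y = if y = x ∘ σ then 1 else 0) : gᵀ * BM t * g = (1 : F) • BM t := by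
  classical
  let Φ : (Fin t → Fin 2) → (Fin t → Fin 2) := fun y => y ∘ σ.symm
  have hΦ : ∀ x y, y = x ∘ σ ↔ x = Φ y := by
    intro x y
    constructor
    · rintro rfl
      funext i
      simp [Φ]
    · rintro rfl
      funext i
      simp [Φ]
  ext α β
  rw [one_smul, Matrix.mul_apply]
  simp only [Matrix.mul_apply, Matrix.transpose_apply, hg, hΦ]
  rw [Finset.sum_eq_single (Φ β)]
  · rw [if_pos rfl, mul_one, Finset.sum_eq_single (Φ α)]
    · rw [if_pos rfl, one_mul, BM_apply, BM_apply]
      exact Equiv.prod_comp σ.symm (fun i => (J (α i) (β i) : F))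
    · intro γ _ hγ
      rw [if_neg hγ, zero_mul]
    · simp
  · intro δ _ hδ
    rw [if_neg hδ, mul_zero]
  · simp

theorem standard_le_sim (t : ℕ) : tensorWreathStandard 2 t F ≤ similarityGroup (f₀ t) := by
  refine (Subgroup.closure_le _).2 ?_
  rintro g (⟨gs, hgs⟩ | ⟨σ, hσ⟩)
  · refine ⟨∏ i, Matrix.GeneralLinearGroup.det (gs i), fun u v => ?_⟩
    have h1 := pure_sim (g : Matrix _ _ F) (fun i => (gs i : Matrix (Fin 2) (Fin 2) F)) hgs
    rw [f₀_mulVec t _ _ h1]
    congr 1
    simp [Units.coe_prod]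
  · refine ⟨1, fun u v => ?_⟩
    have h1 := perm_sim (g : Matrix _ _ F) σ hσ
    rw [f₀_mulVec t _ _ h1]
    simp

variable [Fintype F]

theorem wreath_two_class {n t : ℕ} (ht : 2 ≤ t) (e : Fin n ≃ (Fin t → Fin 2)) (P : GL (Fin n) F) :
    ∃ M, InLinearClass n F M ∧ tensorWreathSubgroup 2 t e P ≤ M := by
  classical
  have hn : n = 2 ^ t := by
    have := Fintype.card_congr e
    simpa using this
  have hn4 : 4 ≤ n := by
    rw [hn]
    calc 4 = 2 ^ 2 := by norm_num
      _ ≤ 2 ^ t := Nat.pow_le_pow_right (by norm_num) ht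
  have hev : Even n := by
    rw [hn]
    exact (Nat.even_pow' (by omega)).2 even_two
  set A := trV e P with hA
  have hsim : ∀ h ∈ tensorWreathSubgroup 2 t e P, ∃ c : Fˣ, ∀ u v, f₀ t (A ((h : Matrix _ _ F) *ᵥ u)) (A ((h : Matrix _ _ F) *ᵥ v)) = (c : F) * f₀ t (A u) (A v) := by
    intro h hh
    obtain ⟨g, hg, hgh⟩ := (mem_tensorWreathSubgroup_iff e P h).1 hh
    obtain ⟨c, hc⟩ := standard_le_sim t hg
    refine ⟨c, fun u v => ?_⟩
    rw [hA, trV_intertwine e P h _ hgh, trV_intertwine e P h _ hgh]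
    exact hc _ _
  by_cases hcase : ringChar F = 2 ∨ Odd t
  · -- symplectic
    have hneg : ∀ α β, (BM t : Matrix _ _ F) β α = - BM t α β := by
      intro α β
      rw [BM_transpose]
      rcases hcase with h2 | hodd
      · have h3 : (-1 : F) = 1 := by
          have : (2 : F) = 0 := by
            have := ringChar.Nat.cast_ringChar (R := F)
            rw [h2] at this
            exact_mod_cast this
          linear_combination -this
        rw [h3, one_pow, one_mul]
        have h4 : ∀ x : F, -x = x := fun x => by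
          have : x + x = 0 := by
            have h5 : (2 : F) = 0 := by
              have := ringChar.Nat.cast_ringChar (R := F)
              rw [h2] at this
              exact_mod_cast this
            linear_combination x * h5
          linear_combination -this
        rw [h4]
      · rw [hodd.neg_one_pow]
        ring
    have halt : ∀ v, f₀ (F := F) t v v = 0 := by
      intro v
      simp only [f₀, dotProduct, Matrix.mulVec, Finset.mul_sum]
      rw [← Finset.sum_product']
      refine Finset.sum_involution (fun p _ => (p.2, p.1)) ?_ ?_ ?_ ?_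
      · rintro ⟨α, β⟩ _
        simp only
        rw [hneg α β]
        ring
      · rintro ⟨α, β⟩ _ hne
        simp only at hne ⊢
        intro heq
        apply hne
        have : α = β := (Prod.ext_iff.1 heq).2
        subst this
        rw [BM_diag (by omega), zero_mul, mul_zero]
      · intro p _
        simp
      · intro p _
        rfl
    have hskew : ∀ v w, f₀ (F := F) t v w = - f₀ t w v := by
      intro v w
      have h1 := halt (v + w)
      have hb := f₀_bilinear (F := F) t
      rw [hb.add_left, hb.add_right, hb.add_right, halt, halt] at h1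
      linear_combination h1
    have hf : IsSymplecticForm (f₀ (F := F) t) := ⟨f₀_bilinear t, hskew, halt, f₀_nondeg t⟩
    refine ⟨_, cl_symp (symplectic_transport A hf) hev hn4, ?_⟩
    intro h hh
    exact hsim h hh
  · -- quadratic
    push Not at hcase
    obtain ⟨hc2, hteven⟩ := hcase
    have hteven' : Even t := Nat.not_odd_iff_even.1 hteven
    have h2ne : (2 : F) ≠ 0 := Ring.two_ne_zero hc2
    have hsymm : ∀ v w, f₀ (F := F) t v w = f₀ t w v := by
      intro v w
      simp only [f₀, dotProduct, Matrix.mulVec, Finset.mul_sum]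
      rw [Finset.sum_comm]
      refine Finset.sum_congr rfl fun β _ => Finset.sum_congr rfl fun α _ => ?_
      rw [BM_transpose, hteven'.neg_one_pow]
      ring
    let Q₀ : ((Fin t → Fin 2) → F) → F := fun v => f₀ t v v
    have hb := f₀_bilinear (F := F) t
    have hp : QuadraticMap.polar Q₀ = fun u v => 2 * f₀ t u v := by
      funext u v
      simp only [QuadraticMap.polar, Q₀, hb.add_left, hb.add_right]
      rw [hsymm v u]
      ring
    have hQ : IsNondegenerateQuadraticForm Q₀ := by
      refine ⟨fun c v => ?_, ?_, ?_⟩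
      · simp only [Q₀, hb.smul_left, hb.smul_right]
        ring
      · rw [hp]
        exact ⟨fun x y v => by rw [hb.add_left]; ring, fun c x v => by rw [hb.smul_left]; ring,
          fun v x y => by rw [hb.add_right]; ring, fun c v x => by rw [hb.smul_right]; ring⟩
      · rw [hp]
        intro v hv
        obtain ⟨⟨x, hx⟩, ⟨y, hy⟩⟩ := f₀_nondeg (F := F) t v hv
        exact ⟨⟨x, mul_ne_zero h2ne hx⟩, ⟨y, mul_ne_zero h2ne hy⟩⟩
    have hodd : Odd (Fintype.card F) := Nat.odd_iff.2 (FiniteField.odd_card_of_char_ne_two hc2)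
    refine ⟨_, cl_quad (quad_transport A hQ) hodd (by omega), ?_⟩
    intro h hh
    obtain ⟨c, hc⟩ := hsim h hh
    exact ⟨c, fun v => hc v v⟩

end Cfsg.Agent.Lib.Asch.TW2
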