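import Mathlib
import Cfsg.Agent.Lib.Asch.TW2
import Cfsg.Agent.Lib.Asch.FieldSub

/-!
# Subgroups in no class: irreducibility, normal subgroups are scalar or absolutely irreducible
-/

set_option autoImplicit false

namespace Cfsg.Agent.Lib.Asch.H1

open Matrix Module Cfsg Cfsg.Geo
open Cfsg.Agent.Lib.Asch.Basic Cfsg.Agent.Lib.Asch.Semi Cfsg.Agent.Lib.Asch.Kr Cfsg.Agent.Lib.Asch.TD
open Cfsg.Agent.Lib.Asch.Cl Cfsg.Agent.Lib.Asch.Idem Cfsg.Agent.Lib.Asch.FieldSub

universe u

/-- Absolute irreducibility is inherited along a change of basis and a reindexing. -/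
theorem absIrr_of_conj {ι κ : Type} [Fintype ι] [DecidableEq ι] [Fintype κ] [DecidableEq κ] {F : Type u} [Field F]
    (e' : ι ≃ κ) (P : GL ι F) (S : Set (Matrix ι ι F)) (σ : Matrix ι ι F → Matrix κ κ F)
    (h : ∀ s ∈ S, s * (P : Matrix ι ι F) = (P : Matrix ι ι F) * (σ s).submatrix e' e')
    (hA : ActsAbsolutelyIrreducibly (σ '' S)) : ActsAbsolutelyIrreducibly S := by
  have hPi : ((P⁻¹ : GL ι F) : Matrix ι ι F) * (P : Matrix ι ι F) = 1 := by
    rw [← Units.val_mul, inv_mul_cancel, Units.val_one]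
  have hiP : (P : Matrix ι ι F) * ((P⁻¹ : GL ι F) : Matrix ι ι F) = 1 := by
    rw [← Units.val_mul, mul_inv_cancel, Units.val_one]
  set Q : (κ → F) → (ι → F) := fun x => (P : Matrix ι ι F) *ᵥ (x ∘ e') with hQ
  have hQs : ∀ s ∈ S, ∀ x, s *ᵥ Q x = Q (σ s *ᵥ x) := by
    intro s hs x
    simp only [hQ]
    rw [Matrix.mulVec_mulVec, h s hs, ← Matrix.mulVec_mulVec, Matrix.submatrix_mulVec_equiv,
      Function.comp_assoc, Equiv.self_comp_symm, Function.comp_id]
  have hQinj : Function.Injective Q := by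
    intro x y hxy
    have h1 := congrArg (fun v => ((P⁻¹ : GL ι F) : Matrix ι ι F) *ᵥ v) hxy
    simp only [hQ, Matrix.mulVec_mulVec, hPi, Matrix.one_mulVec] at h1
    exact e'.surjective.injective_comp_right h1
  have hQsurj : Function.Surjective Q := by
    intro v
    refine ⟨(((P⁻¹ : GL ι F) : Matrix ι ι F) *ᵥ v) ∘ e'.symm, ?_⟩
    simp only [hQ]
    have : ((((P⁻¹ : GL ι F) : Matrix ι ι F) *ᵥ v) ∘ e'.symm) ∘ e' = ((P⁻¹ : GL ι F) : Matrix ι ι F) *ᵥ v := by
      funext i
      simp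
    rw [this, Matrix.mulVec_mulVec, hiP, Matrix.one_mulVec]
  let QL : (κ → F) →ₗ[F] (ι → F) :=
    { toFun := Q
      map_add' := fun x y => by
        simp only [hQ]
        rw [← Matrix.mulVec_add]
        rfl
      map_smul' := fun c x => by
        simp only [hQ, RingHom.id_apply]
        rw [← Matrix.mulVec_smul]
        rfl }
  have hQL : ∀ x, QL x = Q x := fun _ => rfl
  refine ⟨?_, ?_⟩
  · rw [irr_iff]
    intro W hW
    rcases (irr_iff _).1 hA.1 (W.comap QL) (by
      rintro _ ⟨s, hs, rfl⟩ x hx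
      have hx' : Q x ∈ W := hx
      show QL _ ∈ W
      rw [hQL, ← hQs s hs]
      exact hW s hs _ hx') with h0 | h1
    · left
      rw [eq_bot_iff]
      intro v hv
      obtain ⟨x, rfl⟩ := hQsurj v
      have : x ∈ W.comap QL := hv
      rw [h0] at this
      have hx0 : x = 0 := by simpa using this
      rw [hx0, ← hQL, map_zero]
      exact Submodule.zero_mem _
    · right
      rw [eq_top_iff]
      intro v _
      obtain ⟨x, rfl⟩ := hQsurj v
      have : x ∈ W.comap QL := by rw [h1]; trivial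
      exact this
  · intro M hM
    -- the matrix `M` in the new coordinates
    set M' : Matrix κ κ F := (((P⁻¹ : GL ι F) : Matrix ι ι F) * M * (P : Matrix ι ι F)).submatrix e'.symm e'.symm with hM'
    have hcomm : ∀ s ∈ σ '' S, M' * s = s * M' := by
      rintro _ ⟨s, hs, rfl⟩
      have h1 := h s hs
      have h2 : (σ s).submatrix e' e' = ((P⁻¹ : GL ι F) : Matrix ι ι F) * s * (P : Matrix ι ι F) := by
        rw [mul_assoc, h1, ← mul_assoc, hPi, one_mul]
      have h3 : σ s = (((P⁻¹ : GL ι F) : Matrix ι ι F) * s * (P : Matrix ι ι F)).submatrix e'.symm e'.symm := by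
        rw [← h2]
        simp
      have hsub : ∀ A B : Matrix ι ι F, A.submatrix e'.symm e'.symm * B.submatrix e'.symm e'.symm =
          (A * B).submatrix e'.symm e'.symm := fun A B => Matrix.submatrix_mul_equiv A B _ _ _
      rw [h3, hM', hsub, hsub]
      congr 1
      calc (((P⁻¹ : GL ι F) : Matrix ι ι F) * M * (P : Matrix ι ι F)) * (((P⁻¹ : GL ι F) : Matrix ι ι F) * s * (P : Matrix ι ι F))
          = ((P⁻¹ : GL ι F) : Matrix ι ι F) * (M * ((P : Matrix ι ι F) * ((P⁻¹ : GL ι F) : Matrix ι ι F)) * s) * (P : Matrix ι ι F) := by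
            simp only [mul_assoc]
        _ = ((P⁻¹ : GL ι F) : Matrix ι ι F) * (s * M) * (P : Matrix ι ι F) := by
            rw [hiP, mul_one, hM s hs]
        _ = ((P⁻¹ : GL ι F) : Matrix ι ι F) * (s * ((P : Matrix ι ι F) * ((P⁻¹ : GL ι F) : Matrix ι ι F)) * M) * (P : Matrix ι ι F) := by
            rw [hiP, mul_one]
        _ = (((P⁻¹ : GL ι F) : Matrix ι ι F) * s * (P : Matrix ι ι F)) * (((P⁻¹ : GL ι F) : Matrix ι ι F) * M * (P : Matrix ι ι F)) := by
            simp only [mul_assoc]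
    obtain ⟨c, hc⟩ := hA.2 M' hcomm
    refine ⟨c, ?_⟩
    have h4 : ((P⁻¹ : GL ι F) : Matrix ι ι F) * M * (P : Matrix ι ι F) = c • 1 := by
      have := congrArg (fun X => X.submatrix e' e') hc
      simp only [hM', Matrix.submatrix_submatrix, Equiv.symm_comp_self, Matrix.submatrix_id_id] at this
      rw [this]
      ext i j
      simp [Matrix.smul_apply, Matrix.one_apply]
    calc M = (P : Matrix ι ι F) * (((P⁻¹ : GL ι F) : Matrix ι ι F) * M * (P : Matrix ι ι F)) * ((P⁻¹ : GL ι F) : Matrix ι ι F) := by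
          simp only [← mul_assoc, hiP, one_mul]
          rw [mul_assoc, hiP, mul_one]
      _ = c • 1 := by
          rw [h4, Matrix.mul_smul, Matrix.smul_mul, mul_one, hiP]

variable {F : Type u} [Field F] [Fintype F] {n : ℕ}

/-- A subgroup lying in no class acts irreducibly. -/
theorem irr_of_no_class (H : Subgroup (GL (Fin n) F)) (hNo : ∀ M, InLinearClass n F M → ¬ H ≤ M) :
    ActsIrreducibly (matrixSet H) := by
  rw [irr_iff]
  intro W hW
  by_contra hcon
  push Not at hcon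
  apply hNo _ (cl_sub W hcon.1 hcon.2)
  intro h hh
  exact (Cfsg.Agent.Lib.Geo.Basic.mem_subspaceStabilizer_iff_forall_mem W h).2
    (fun v hv => hW _ ⟨h, hh, rfl⟩ v hv)

omit [Fintype F] in
theorem kr_one_scalar {b : ℕ} (e : Fin n ≃ Fin 1 × Fin b) (X : Matrix (Fin 1) (Fin 1) F) :
    kr e X 1 = X 0 0 • 1 := by
  ext i j
  rw [kr_apply, Matrix.smul_apply, Matrix.one_apply, Matrix.one_apply, smul_eq_mul, Subsingleton.elim (e i).1 0, Subsingleton.elim (e j).1 0]
  congr 1
  by_cases hij : i = j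
  · subst hij
    simp
  · rw [if_neg hij, if_neg]
    intro h2
    apply hij
    apply e.injective
    exact Prod.ext (Subsingleton.elim _ _) h2

omit [Fintype F] in
/-- A tensor product `kr e α β` with equal factors is in the standard tensor wreath group. -/
theorem mem_wreath_of_kr {a : ℕ} (e : Fin n ≃ Fin a × Fin a) (P h : GL (Fin n) F) (α β : GL (Fin a) F)
    (hh : (h : Matrix (Fin n) (Fin n) F) * (P : Matrix (Fin n) (Fin n) F) = (P : Matrix (Fin n) (Fin n) F) * kr e α β) :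
    h ∈ tensorWreathSubgroup a 2 (e.trans (finTwoArrowEquiv (Fin a)).symm) P := by
  let f₂ := finTwoArrowEquiv (Fin a)
  let g : GL (Fin 2 → Fin a) F :=
    ⟨kr f₂ α β, kr f₂ ((α⁻¹ : GL (Fin a) F) : Matrix (Fin a) (Fin a) F) ((β⁻¹ : GL (Fin a) F) : Matrix (Fin a) (Fin a) F),
      by rw [kr_mul, ← Units.val_mul, ← Units.val_mul, mul_inv_cancel, mul_inv_cancel, Units.val_one, kr_one],
      by rw [kr_mul, ← Units.val_mul, ← Units.val_mul, inv_mul_cancel, inv_mul_cancel, Units.val_one, kr_one]⟩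
  refine (mem_tensorWreathSubgroup_iff _ P h).2 ⟨g, Subgroup.subset_closure (Or.inl ⟨![α, β], fun x y => ?_⟩), ?_⟩
  · rw [Fin.prod_univ_two]
    rfl
  · rw [hh]
    rfl

theorem conj_aux {M : Type*} [Monoid M] (pi p h hi s : M) (h1 : p * pi = 1) (h2 : hi * h = 1) :
    pi * h * p * (pi * (s * p)) = pi * (h * s * hi * p) * (pi * h * p) := by
  calc pi * h * p * (pi * (s * p)) = pi * h * (p * pi) * s * p := by simp only [mul_assoc]
    _ = pi * h * s * p := by rw [h1, mul_one]
    _ = pi * h * s * (hi * h) * p := by rw [h2, mul_one]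
    _ = pi * h * s * hi * (p * pi) * h * p := by rw [h1, mul_one]; simp only [mul_assoc]
    _ = _ := by simp only [mul_assoc]

/-- The main dichotomy for a subgroup normalised by a subgroup in no class. -/
theorem normal_dichotomy (hn : 3 ≤ n) (H : Subgroup (GL (Fin n) F)) (hNo : ∀ M, InLinearClass n F M → ¬ H ≤ M)
    (N : Subgroup (GL (Fin n) F)) (hN : ∀ h ∈ H, ∀ x ∈ N, h * x * h⁻¹ ∈ N) :
    N ≤ scalars (Fin n) F ∨ ActsAbsolutelyIrreducibly (matrixSet N) := by
  classical
  haveI : Nonempty (Fin n) := ⟨⟨0, by omega⟩⟩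
  have hIrr := irr_of_no_class H hNo
  set S := matrixSet N with hS
  haveI hss : IsSemisimpleModule (AT S) (Fin n → F) := semisimple_of_irred H N hIrr hN
  have hconj1 : ∀ h ∈ H, ∀ s ∈ S, (h : Matrix (Fin n) (Fin n) F) * s * ((h⁻¹ : GL (Fin n) F) : Matrix (Fin n) (Fin n) F) ∈ S := by
    rintro h hh _ ⟨x, hx, rfl⟩
    exact ⟨_, hN h hh x hx, by simp [Units.val_mul]⟩
  have hconj2 : ∀ h ∈ H, ∀ s ∈ S, ((h⁻¹ : GL (Fin n) F) : Matrix (Fin n) (Fin n) F) * s * (h : Matrix (Fin n) (Fin n) F) ∈ S := by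
    intro h hh s hs
    have := hconj1 h⁻¹ (H.inv_mem hh) s hs
    rwa [inv_inv] at this
  have hKconj : ∀ h ∈ H, ∀ k ∈ Kc S, (h : Matrix (Fin n) (Fin n) F) * k * ((h⁻¹ : GL (Fin n) F) : Matrix (Fin n) (Fin n) F) ∈ Kc S :=
    fun h hh k hk => Kc_conj h (hconj2 h hh) (hconj1 h hh) hk
  by_cases hiso : IsIsotypic (AT S) (Fin n → F)
  swap
  · obtain ⟨e, heK, hee, he0, he1⟩ := exists_idem_of_not_isotypic hiso
    obtain ⟨t, x, hx⟩ := exists_idemSystem H hIrr (Kc S : Set (Matrix (Fin n) (Fin n) F))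
      (fun a ha b hb => Kc_comm ha hb) (fun a ha b hb => (Kc S).mul_mem ha hb) hKconj e heK hee he0 he1
    obtain ⟨m, D, hD, hle, -⟩ := decomp_of_system H hx
    exact absurd hle (hNo _ (cl_decomp hD))
  have hfield := Kc_isField hiso
  set d := Module.finrank F (Kc S) with hd
  have hone : (1 : Matrix (Fin n) (Fin n) F) ≠ 0 := one_ne_zero
  by_cases hd1 : 1 < d
  · obtain ⟨p, hp⟩ := CharP.exists F
    haveI hpp : Fact p.Prime := ⟨CharP.char_is_prime F p⟩
    obtain ⟨r, K₁, hr, hK₁, -, hnorm⟩ := exists_prime_subalgebra p (Kc S) hfield hd1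
    apply absurd _ (hNo _ (cl_field hr hK₁))
    intro h hh
    refine hnorm h fun k => ⟨fun hk => hKconj h hh k hk, fun hk => ?_⟩
    have := hKconj h⁻¹ (H.inv_mem hh) _ hk
    rwa [conj_inv_conj] at this
  have hscal : ∀ k ∈ Kc S, ∃ c : F, k = c • 1 := by
    have h1mem : (1 : Kc S) ≠ 0 := by
      intro h
      apply hone
      have := congrArg (Subtype.val) h
      simpa using this
    have hd' : d = 1 := by
      have hpos : 0 < d := Module.finrank_pos_iff.2 (by
        exact ⟨⟨1, 0, h1mem⟩⟩)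
      omega
    intro k hk
    obtain ⟨c, hc⟩ := (finrank_eq_one_iff_of_nonzero' (1 : Kc S) h1mem).1 hd' ⟨k, hk⟩
    refine ⟨c, ?_⟩
    have := congrArg Subtype.val hc
    simpa using this.symm
  obtain ⟨a, b, e, P, ρ, hTD⟩ := exists_TD hiso hscal
  have hPi : ((P⁻¹ : GL (Fin n) F) : Matrix (Fin n) (Fin n) F) * (P : Matrix (Fin n) (Fin n) F) = 1 := by
    rw [← Units.val_mul, inv_mul_cancel, Units.val_one]
  have hiP : (P : Matrix (Fin n) (Fin n) F) * ((P⁻¹ : GL (Fin n) F) : Matrix (Fin n) (Fin n) F) = 1 := by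
    rw [← Units.val_mul, mul_inv_cancel, Units.val_one]
  have hcardn : n = a * b := by
    have := Fintype.card_congr e
    simpa using this
  have ha0 : a ≠ 0 := by
    rintro rfl
    omega
  have hb0 : b ≠ 0 := by
    rintro rfl
    omega
  by_cases ha1 : a = 1
  · subst ha1
    left
    intro x hx
    have h1 := hTD.conj _ (mem_matrixSet hx)
    rw [kr_one_scalar, Matrix.mul_smul, mul_one] at h1
    have h2 : (x : Matrix (Fin n) (Fin n) F) = ρ x 0 0 • 1 := by
      have := congrArg (· * ((P⁻¹ : GL (Fin n) F) : Matrix (Fin n) (Fin n) F)) h1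
      simp only [mul_assoc, hiP, mul_one, Matrix.smul_mul] at this
      exact this
    have h3 : ρ x 0 0 ≠ 0 := by
      intro h0
      have h4 : (x : Matrix (Fin n) (Fin n) F) = 0 := by rw [h2, h0, zero_smul]
      have h5 : IsUnit (x : Matrix (Fin n) (Fin n) F) := x.isUnit
      rw [h4] at h5
      exact not_isUnit_zero h5
    rw [mem_scalars_iff]
    exact ⟨Units.mk0 _ h3, h2⟩
  by_cases hb1 : b = 1
  · subst hb1
    right
    let e' : Fin n ≃ Fin a := e.trans (Equiv.prodUnique (Fin a) (Fin 1))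
    refine absIrr_of_conj e' P S ρ (fun s hs => ?_) hTD.abs
    rw [hTD.conj s hs]
    congr 1
    ext i j
    rw [kr_apply, Matrix.submatrix_apply, Subsingleton.elim (e i).2 (e j).2, Matrix.one_apply_eq, mul_one]
    rfl
  -- the tensor decomposition
  exfalso
  have hmem : ∀ h ∈ H, ∃ (α : GL (Fin a) F) (β : GL (Fin b) F),
      (h : Matrix (Fin n) (Fin n) F) * (P : Matrix (Fin n) (Fin n) F) = (P : Matrix (Fin n) (Fin n) F) * kr e α β := by
    intro h hh
    have hT : IsUnit (((P⁻¹ : GL (Fin n) F) : Matrix (Fin n) (Fin n) F) * (h : Matrix (Fin n) (Fin n) F) * (P : Matrix (Fin n) (Fin n) F)).det :=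
      Matrix.isUnits_det_units (P⁻¹ * h * P)
    obtain ⟨α, β, hαβ⟩ := exists_kr_of_normalises e _ hT (ρ '' S) hTD.abs (by
      rintro _ ⟨s, hs, rfl⟩
      refine ⟨ρ ((h : Matrix (Fin n) (Fin n) F) * s * ((h⁻¹ : GL (Fin n) F) : Matrix (Fin n) (Fin n) F)), ?_⟩
      have h1 := hTD.conj s hs
      have h2 := hTD.conj _ (hconj1 h hh s hs)
      have h3 : kr e (ρ s) 1 = ((P⁻¹ : GL (Fin n) F) : Matrix (Fin n) (Fin n) F) * (s * (P : Matrix (Fin n) (Fin n) F)) := by
        rw [h1, ← mul_assoc, hPi, one_mul]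
      have h4 : kr e (ρ ((h : Matrix (Fin n) (Fin n) F) * s * ((h⁻¹ : GL (Fin n) F) : Matrix (Fin n) (Fin n) F))) 1 =
          ((P⁻¹ : GL (Fin n) F) : Matrix (Fin n) (Fin n) F) * ((h : Matrix (Fin n) (Fin n) F) * s * ((h⁻¹ : GL (Fin n) F) : Matrix (Fin n) (Fin n) F) * (P : Matrix (Fin n) (Fin n) F)) := by
        rw [h2, ← mul_assoc, hPi, one_mul]
      rw [h3, h4]
      have hih : ((h⁻¹ : GL (Fin n) F) : Matrix (Fin n) (Fin n) F) * (h : Matrix (Fin n) (Fin n) F) = 1 := by
        rw [← Units.val_mul, inv_mul_cancel, Units.val_one]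
      exact conj_aux _ _ _ _ _ hiP hih)
    refine ⟨α, β, ?_⟩
    rw [← hαβ]
    simp only [← mul_assoc, hiP, one_mul]
  have ha2 : 2 ≤ a := by omega
  have hb2 : 2 ≤ b := by omega
  rcases lt_trichotomy a b with hab | hab | hab
  · refine hNo _ (cl_tensor e P ha2 hab) fun h hh => ?_
    obtain ⟨α, β, hαβ⟩ := hmem h hh
    exact mem_tensorProductSubgroup e P h α β hαβ
  · subst hab
    rcases eq_or_lt_of_le ha2 with h2 | h3
    · subst h2
      obtain ⟨M, hM, hle⟩ := TW2.wreath_two_class (le_refl 2) (e.trans (finTwoArrowEquiv (Fin 2)).symm) P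
      refine hNo M hM fun h hh => hle ?_
      obtain ⟨α, β, hαβ⟩ := hmem h hh
      exact mem_wreath_of_kr e P h α β hαβ
    · refine hNo _ (cl_wreath (e.trans (finTwoArrowEquiv (Fin a)).symm) P h3 (le_refl 2)) fun h hh => ?_
      obtain ⟨α, β, hαβ⟩ := hmem h hh
      exact mem_wreath_of_kr e P h α β hαβ
  · let e' : Fin n ≃ Fin b × Fin a := e.trans (Equiv.prodComm _ _)
    refine hNo _ (cl_tensor e' P hb2 hab) fun h hh => ?_
    obtain ⟨α, β, hαβ⟩ := hmem h hh
    refine mem_tensorProductSubgroup e' P h β α ?_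
    rw [hαβ]
    congr 1
    ext i j
    simp only [kr_apply, e', Equiv.trans_apply, Equiv.prodComm_apply, Prod.fst_swap, Prod.snd_swap]
    ring

end Cfsg.Agent.Lib.Asch.H1
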