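import Mathlib
import Cfsg.Agent.Lib.Asch.H1
import Cfsg.Agent.Lib.Geo.RatStruct

/-!
# Descent to a subfield: a group normalising an absolutely irreducible group realisable over a subfield
-/

set_option autoImplicit false

namespace Cfsg.Agent.Lib.Asch.Desc

open Matrix Module Cfsg Cfsg.Geo
open Cfsg.Agent.Lib.Asch.Cl Cfsg.Agent.Lib.Asch.FieldSub Cfsg.Agent.Lib.Geo.RatStruct

universe u

variable {F : Type u} [Field F] [Fintype F] {n : ℕ}

theorem subfield_class (hn : 0 < n) (H P₀ : Subgroup (GL (Fin n) F))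
    (hA : ActsAbsolutelyIrreducibly (matrixSet P₀)) (hN : ∀ h ∈ H, ∀ x ∈ P₀, h * x * h⁻¹ ∈ P₀)
    (F₀ : Subfield F) (hF₀ : F₀ ≠ ⊤) (hR : RealisableOver F₀ (matrixSet P₀)) :
    ∃ M, InLinearClass n F M ∧ H ≤ M := by
  classical
  obtain ⟨p, hp⟩ := CharP.exists F
  haveI hpp : Fact p.Prime := ⟨CharP.char_is_prime F p⟩
  obtain ⟨B, hB⟩ := hR
  obtain ⟨F₁, s, k, hF₀₁, hs, hcard, -, hF₁⟩ := exists_max_subfield p F₀ hF₀
  refine ⟨_, cl_subfield F₁ B⁻¹ hs hcard, fun h hh => ?_⟩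
  rw [mem_subfield_iff, inv_inv]
  -- notation
  set A : GL (Fin n) F := B * h * B⁻¹ with hA'
  let τ : Matrix (Fin n) (Fin n) F →+* Matrix (Fin n) (Fin n) F := (iterateFrobenius F p k).mapMatrix
  have hτa : ∀ X i j, τ X i j = (X i j) ^ p ^ k := by
    intro X i j
    simp [τ, iterateFrobenius_def]
  have hτfix : ∀ X, (∀ i j, X i j ∈ F₀) → τ X = X := by
    intro X hX
    ext i j
    rw [hτa]
    exact (hF₁ _).1 (hF₀₁ (hX i j))
  have hBi : ((B⁻¹ : GL (Fin n) F) : Matrix (Fin n) (Fin n) F) * (B : Matrix (Fin n) (Fin n) F) = 1 := by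
    rw [← Units.val_mul, inv_mul_cancel, Units.val_one]
  have hiB : (B : Matrix (Fin n) (Fin n) F) * ((B⁻¹ : GL (Fin n) F) : Matrix (Fin n) (Fin n) F) = 1 := by
    rw [← Units.val_mul, mul_inv_cancel, Units.val_one]
  have hAi : ((A⁻¹ : GL (Fin n) F) : Matrix (Fin n) (Fin n) F) * (A : Matrix (Fin n) (Fin n) F) = 1 := by
    rw [← Units.val_mul, inv_mul_cancel, Units.val_one]
  have hiA : (A : Matrix (Fin n) (Fin n) F) * ((A⁻¹ : GL (Fin n) F) : Matrix (Fin n) (Fin n) F) = 1 := by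
    rw [← Units.val_mul, mul_inv_cancel, Units.val_one]
  set T : Matrix (Fin n) (Fin n) F := (A : Matrix (Fin n) (Fin n) F) with hT
  set Ti : Matrix (Fin n) (Fin n) F := ((A⁻¹ : GL (Fin n) F) : Matrix (Fin n) (Fin n) F) with hTi
  have hτi : τ Ti * τ T = 1 := by
    rw [← map_mul, hAi, map_one]
  -- the commuting element
  let C : Matrix (Fin n) (Fin n) F := Ti * τ T
  have hCcomm : ∀ x ∈ P₀, ∀ Y : Matrix (Fin n) (Fin n) F,
      Y = (B : Matrix (Fin n) (Fin n) F) * (x : Matrix (Fin n) (Fin n) F) * ((B⁻¹ : GL (Fin n) F) : Matrix (Fin n) (Fin n) F) →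
      C * Y = Y * C := by
    intro x hx Y hY
    have hY1 : τ Y = Y := by
      apply hτfix
      rw [hY]
      exact hB _ ⟨x, hx, rfl⟩
    have hx' := hN h hh x hx
    have hY2 : τ (T * Y * Ti) = T * Y * Ti := by
      apply hτfix
      have h1 := hB _ ⟨h * x * h⁻¹, hx', rfl⟩
      have h2 : T * Y * Ti = (B : Matrix (Fin n) (Fin n) F) * ((h * x * h⁻¹ : GL (Fin n) F) : Matrix (Fin n) (Fin n) F) * ((B⁻¹ : GL (Fin n) F) : Matrix (Fin n) (Fin n) F) := by
        rw [hY, hT, hTi, hA']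
        simp only [Units.val_mul, _root_.mul_inv_rev, inv_inv, mul_assoc]
        rw [← mul_assoc ((B⁻¹ : GL (Fin n) F) : Matrix (Fin n) (Fin n) F), hBi, one_mul]
        rw [← mul_assoc ((B⁻¹ : GL (Fin n) F) : Matrix (Fin n) (Fin n) F), hBi, one_mul]
      rw [h2]
      exact h1
    have h3 : τ T * Y * τ Ti = T * Y * Ti := by
      rw [map_mul, map_mul, hY1] at hY2
      exact hY2
    calc C * Y = Ti * (τ T * Y * τ Ti) * τ T := by
          simp only [C, mul_assoc]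
          rw [hτi, mul_one]
      _ = Ti * (T * Y * Ti) * τ T := by rw [h3]
      _ = Y * C := by
          simp only [C, ← mul_assoc]
          rw [hAi, one_mul]
  -- so it is scalar
  obtain ⟨c, hc⟩ := hA.2 (((B⁻¹ : GL (Fin n) F) : Matrix (Fin n) (Fin n) F) * C * (B : Matrix (Fin n) (Fin n) F)) (by
    rintro _ ⟨x, hx, rfl⟩
    have h1 := hCcomm x hx _ rfl
    calc ((B⁻¹ : GL (Fin n) F) : Matrix (Fin n) (Fin n) F) * C * (B : Matrix (Fin n) (Fin n) F) * (x : Matrix (Fin n) (Fin n) F)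
        = ((B⁻¹ : GL (Fin n) F) : Matrix (Fin n) (Fin n) F) * (C * ((B : Matrix (Fin n) (Fin n) F) * (x : Matrix (Fin n) (Fin n) F) * ((B⁻¹ : GL (Fin n) F) : Matrix (Fin n) (Fin n) F))) * (B : Matrix (Fin n) (Fin n) F) := by
          simp only [mul_assoc]
          rw [hBi, mul_one]
      _ = ((B⁻¹ : GL (Fin n) F) : Matrix (Fin n) (Fin n) F) * (((B : Matrix (Fin n) (Fin n) F) * (x : Matrix (Fin n) (Fin n) F) * ((B⁻¹ : GL (Fin n) F) : Matrix (Fin n) (Fin n) F)) * C) * (B : Matrix (Fin n) (Fin n) F) := by rw [h1]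
      _ = (x : Matrix (Fin n) (Fin n) F) * (((B⁻¹ : GL (Fin n) F) : Matrix (Fin n) (Fin n) F) * C * (B : Matrix (Fin n) (Fin n) F)) := by
          simp only [← mul_assoc]
          rw [hBi, one_mul])
  have hC : C = c • 1 := by
    calc C = (B : Matrix (Fin n) (Fin n) F) * (((B⁻¹ : GL (Fin n) F) : Matrix (Fin n) (Fin n) F) * C * (B : Matrix (Fin n) (Fin n) F)) * ((B⁻¹ : GL (Fin n) F) : Matrix (Fin n) (Fin n) F) := by
          simp only [← mul_assoc]
          rw [hiB, one_mul, mul_assoc, hiB, mul_one]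
      _ = c • 1 := by
          rw [hc, Matrix.mul_smul, Matrix.smul_mul, mul_one, hiB]
  have hτT : τ T = c • T := by
    calc τ T = T * C := by simp only [C]; rw [← mul_assoc, hiA, one_mul]
      _ = c • T := by rw [hC, Matrix.mul_smul, mul_one]
  -- a non-zero entry
  have hT0 : T ≠ 0 := by
    intro h0
    haveI : Nonempty (Fin n) := ⟨⟨0, hn⟩⟩
    have h5 : IsUnit T := A.isUnit
    rw [h0] at h5
    exact not_isUnit_zero h5
  obtain ⟨i₀, j₀, hd⟩ : ∃ i j, T i j ≠ 0 := by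
    by_contra hcon
    push Not at hcon
    exact hT0 (Matrix.ext hcon)
  set d := T i₀ j₀ with hd'
  have hτd : d ^ p ^ k = c * d := by
    have := congrFun (congrFun hτT i₀) j₀
    rw [hτa, Matrix.smul_apply, smul_eq_mul] at this
    exact this
  have hc0 : c ≠ 0 := by
    rintro rfl
    rw [zero_mul] at hτd
    exact hd (pow_eq_zero_iff (pow_ne_zero _ hpp.out.ne_zero) |>.1 hτd)
  -- scaling
  let Z : GL (Fin n) F := (Units.map (Matrix.scalar (Fin n) : F →+* Matrix (Fin n) (Fin n) F).toMonoidHom) (Units.mk0 d hd)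
  have hZ : Z ∈ scalars (Fin n) F := ⟨_, rfl⟩
  have hZv : ((Z⁻¹ : GL (Fin n) F) : Matrix (Fin n) (Fin n) F) = d⁻¹ • 1 := by
    have h7 : ((Z⁻¹ : GL (Fin n) F) : Matrix (Fin n) (Fin n) F) = (Matrix.scalar (Fin n) (d⁻¹ : F)) := by
      simp [Z, ← map_inv]
    rw [h7, Matrix.smul_one_eq_diagonal]
    rfl
  have hrange : Z⁻¹ * A ∈ (Matrix.GeneralLinearGroup.map (F₁.subtype : F₁ →+* F)).range := by
    apply mem_range_of_entries
    intro i j
    rw [Units.val_mul, hZv, Matrix.smul_mul, one_mul, Matrix.smul_apply, smul_eq_mul, hF₁, mul_pow]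
    have h8 : (T i j) ^ p ^ k = c * T i j := by
      have := congrFun (congrFun hτT i) j
      rw [hτa, Matrix.smul_apply, smul_eq_mul] at this
      exact this
    change (d⁻¹) ^ p ^ k * (T i j) ^ p ^ k = d⁻¹ * T i j
    rw [h8, inv_pow, hτd]
    field_simp
  have hfin : A = Z * (Z⁻¹ * A) := by simp
  rw [hfin]
  exact Subgroup.mul_mem _ (Subgroup.mem_sup_right hZ) (Subgroup.mem_sup_left hrange)

end Cfsg.Agent.Lib.Asch.Desc
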