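import Mathlib

/-!
# Abstract group theory for the structure of a group modulo a central subgroup
-/

set_option autoImplicit false

namespace Cfsg.Agent.Lib.Asch.GT

open scoped commutatorElement

universe u

variable {G : Type u} [Group G]

/-- `N` is normalised by `H`. -/
def HN (H N : Subgroup G) : Prop := ∀ h ∈ H, ∀ x ∈ N, h * x * h⁻¹ ∈ N

/-- The conjugate of a subgroup. -/
def cj (h : G) (T : Subgroup G) : Subgroup G := T.map (MulAut.conj h).toMonoidHom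

theorem mem_cj {h x : G} {T : Subgroup G} : x ∈ cj h T ↔ h⁻¹ * x * h ∈ T := by
  constructor
  · rintro ⟨t, ht, rfl⟩
    simpa [mul_assoc] using ht
  · intro hx
    exact ⟨_, hx, by simp [mul_assoc]⟩

theorem conj_mem_cj {h x : G} {T : Subgroup G} (hx : x ∈ T) : h * x * h⁻¹ ∈ cj h T := ⟨x, hx, rfl⟩

theorem cj_mono (h : G) {A B : Subgroup G} (hAB : A ≤ B) : cj h A ≤ cj h B := Subgroup.map_mono hAB

theorem cj_one (T : Subgroup G) : cj 1 T = T := by
  ext x
  simp [mem_cj]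

theorem cj_mul (g h : G) (T : Subgroup G) : cj (g * h) T = cj g (cj h T) := by
  ext x
  simp only [mem_cj, mul_inv_rev, mul_assoc]

theorem cj_cj_inv (h : G) (T : Subgroup G) : cj h (cj h⁻¹ T) = T := by
  rw [← cj_mul, mul_inv_cancel, cj_one]

theorem cj_inv_cj (h : G) (T : Subgroup G) : cj h⁻¹ (cj h T) = T := by
  rw [← cj_mul, inv_mul_cancel, cj_one]

theorem cj_commutator (h : G) (A B : Subgroup G) : cj h ⁅A, B⁆ = ⁅cj h A, cj h B⁆ :=
  Subgroup.map_commutator _ _ _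

theorem cj_inf (h : G) (A B : Subgroup G) : cj h (A ⊓ B) = cj h A ⊓ cj h B := by
  ext x
  simp only [mem_cj, Subgroup.mem_inf]

theorem cj_sup (h : G) (A B : Subgroup G) : cj h (A ⊔ B) = cj h A ⊔ cj h B := Subgroup.map_sup _ _ _

theorem cj_iSup {ι : Sort*} (h : G) (A : ι → Subgroup G) : cj h (⨆ i, A i) = ⨆ i, cj h (A i) :=
  Subgroup.map_iSup _ _

theorem cj_central {Z : Subgroup G} (hZ : Z ≤ Subgroup.center G) (h : G) : cj h Z = Z := by
  ext x
  rw [mem_cj]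
  constructor
  · intro hx
    have : x = h⁻¹ * x * h := by
      have h3 := Subgroup.mem_center_iff.1 (hZ hx) h
      have h4 : h * (h⁻¹ * x * h) * h⁻¹ = h⁻¹ * x * h := by
        rw [h3, mul_assoc, mul_inv_cancel, mul_one]
      have h5 : h * (h⁻¹ * x * h) * h⁻¹ = x := by
        simp [mul_assoc]
      exact h5.symm.trans h4
    rwa [this]
  · intro hx
    have h1 := (Subgroup.mem_center_iff.1 (hZ hx) h⁻¹)
    have : h⁻¹ * x * h = x := by
      rw [h1, mul_assoc, inv_mul_cancel, mul_one]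
    rwa [this]

theorem HN_iff {H N : Subgroup G} : HN H N ↔ ∀ h ∈ H, cj h N ≤ N := by
  constructor
  · rintro hN h hh _ ⟨x, hx, rfl⟩
    exact hN h hh x hx
  · intro hN h hh x hx
    exact hN h hh (conj_mem_cj hx)

theorem HN_cj_eq {H N : Subgroup G} (hN : HN H N) {h : G} (hh : h ∈ H) : cj h N = N := by
  apply le_antisymm (HN_iff.1 hN h hh)
  have h1 := HN_iff.1 hN h⁻¹ (H.inv_mem hh)
  have h2 := cj_mono h h1
  rwa [cj_cj_inv] at h2

theorem HN.commutator {H A B : Subgroup G} (hA : HN H A) (hB : HN H B) : HN H ⁅A, B⁆ := by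
  rw [HN_iff]
  intro h hh
  rw [cj_commutator]
  exact Subgroup.commutator_mono (HN_iff.1 hA h hh) (HN_iff.1 hB h hh)

theorem HN.inf {H A B : Subgroup G} (hA : HN H A) (hB : HN H B) : HN H (A ⊓ B) :=
  fun h hh x hx => ⟨hA h hh x hx.1, hB h hh x hx.2⟩

theorem HN.sup {H A B : Subgroup G} (hA : HN H A) (hB : HN H B) : HN H (A ⊔ B) := by
  rw [HN_iff]
  intro h hh
  rw [cj_sup]
  exact sup_le_sup (HN_iff.1 hA h hh) (HN_iff.1 hB h hh)

theorem HN.central {H Z : Subgroup G} (hZ : Z ≤ Subgroup.center G) : HN H Z := by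
  rw [HN_iff]
  intro h _
  rw [cj_central hZ]

theorem HN.iSup {ι : Sort*} {H : Subgroup G} {A : ι → Subgroup G} (hA : ∀ i, HN H (A i)) : HN H (⨆ i, A i) := by
  rw [HN_iff]
  intro h hh
  rw [cj_iSup]
  exact iSup_mono fun i => HN_iff.1 (hA i) h hh

theorem HN.mono {H H' N : Subgroup G} (hH : H' ≤ H) (hN : HN H N) : HN H' N := fun h hh => hN h (hH hh)

theorem HN_self (H : Subgroup G) : HN H H := fun _ hh _ hx => H.mul_mem (H.mul_mem hh hx) (H.inv_mem hh)

/-- `H`-conjugates of a subgroup normal in `M` are normal in `M` if `H` normalises `M`. -/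
theorem HN.cj_of {H M T : Subgroup G} (hM : HN H M) (hT : HN M T) {h : G} (hh : h ∈ H) : HN M (cj h T) := by
  intro m hm x hx
  rw [mem_cj] at hx ⊢
  have h1 := hT _ (hM h⁻¹ (H.inv_mem hh) m hm) _ hx
  have h2 : h⁻¹ * m * h⁻¹⁻¹ * (h⁻¹ * x * h) * (h⁻¹ * m * h⁻¹⁻¹)⁻¹ = h⁻¹ * (m * x * m⁻¹) * h := by
    simp only [mul_inv_rev, inv_inv, mul_assoc, mul_inv_cancel_left]
  rwa [h2] at h1

/-- A subgroup of the centre is normal. -/
theorem normal_of_central {Z : Subgroup G} (hZ : Z ≤ Subgroup.center G) : Z.Normal := by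
  refine ⟨fun x hx g => ?_⟩
  have h1 := Subgroup.mem_center_iff.1 (hZ hx) g
  rw [h1, mul_assoc, mul_inv_cancel, mul_one]
  exact hx

/-- Commutators are not changed by adding central elements. -/
theorem commutator_sup_central {Z : Subgroup G} (hZ : Z ≤ Subgroup.center G) (A B : Subgroup G) :
    ⁅A ⊔ Z, B ⊔ Z⁆ ≤ ⁅A, B⁆ := by
  haveI := normal_of_central hZ
  rw [Subgroup.commutator_le]
  intro x hx y hy
  obtain ⟨a, ha, z, hz, rfl⟩ := Subgroup.mem_sup_of_normal_right.1 hx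
  obtain ⟨b, hb, w, hw, rfl⟩ := Subgroup.mem_sup_of_normal_right.1 hy
  have h1 : ∀ g : G, ⁅z, g⁆ = 1 := fun g =>
    commutatorElement_eq_one_iff_mul_comm.2 (Subgroup.mem_center_iff.1 (hZ hz) g).symm
  have h2 : ∀ g : G, ⁅g, w⁆ = 1 := fun g =>
    commutatorElement_eq_one_iff_mul_comm.2 (Subgroup.mem_center_iff.1 (hZ hw) g)
  have : ⁅a * z, b * w⁆ = ⁅a, b⁆ := by
    rw [commutatorElement_mul_left_eq_conj_mul, h1, commutatorElement_mul_right_eq_mul_conj, h2]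
    simp
  rw [this]
  exact Subgroup.commutator_mem_commutator ha hb

/-- Commutators with a supremum on the left. -/
theorem iSup_commutator_le {ι : Sort*} {Z : Subgroup G} (hZ : Z ≤ Subgroup.center G) {A : ι → Subgroup G} {B : Subgroup G}
    (h : ∀ i, ⁅A i, B⁆ ≤ Z) : ⁅⨆ i, A i, B⁆ ≤ Z := by
  haveI := normal_of_central hZ
  rw [Subgroup.commutator_le]
  intro x hx y hy
  induction hx using Subgroup.iSup_induction' with
  | hp i x hx => exact (Subgroup.commutator_le.1 (h i)) x hx y hy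
  | h1 => simp
  | hmul a b _ _ ha hb =>
    rw [commutatorElement_mul_left_eq_conj_mul]
    exact Z.mul_mem (‹Z.Normal›.conj_mem _ hb _) ha

theorem commutator_iSup_le {ι : Sort*} {Z : Subgroup G} (hZ : Z ≤ Subgroup.center G) {A : Subgroup G} {B : ι → Subgroup G}
    (h : ∀ i, ⁅A, B i⁆ ≤ Z) : ⁅A, ⨆ i, B i⁆ ≤ Z := by
  rw [Subgroup.commutator_comm]
  exact iSup_commutator_le hZ fun i => by rw [Subgroup.commutator_comm]; exact h i

/-- A commutator in the centre with a perfect subgroup is trivial. -/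
theorem commutator_eq_bot_of_perfect {Z : Subgroup G} (hZ : Z ≤ Subgroup.center G) {A B : Subgroup G}
    (hA : ⁅A, A⁆ = A) (h : ⁅A, B⁆ ≤ Z) : ⁅A, B⁆ = ⊥ := by
  have h1 : ⁅⁅A, B⁆, A⁆ = ⊥ := by
    rw [eq_bot_iff, ← Subgroup.commutator_center_left A]
    exact Subgroup.commutator_mono (h.trans hZ) le_rfl
  have h2 : ⁅⁅B, A⁆, A⁆ = ⊥ := by
    rw [Subgroup.commutator_comm B A]
    exact h1
  have := Subgroup.commutator_commutator_eq_bot_of_rotate h1 h2
  rwa [hA] at this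

variable [Finite G]

/-- The alternatives for a subgroup modulo a central subgroup. -/
theorem trichotomy {H Z : Subgroup G} (hZ : Z ≤ Subgroup.center G) (hH : ¬ H ≤ Z) :
    (∃ N, N ≤ H ∧ HN H N ∧ ¬ N ≤ Z ∧ ⁅N, N⁆ ≤ Z ∧ H ⊓ Z ≤ N ∧ ∀ N', HN H N' → H ⊓ Z ≤ N' → N' ≤ N → N' ≤ Z ∨ N' = N) ∨
    (∃ M, M ≤ H ∧ HN H M ∧ ¬ M ≤ Z ∧ ⁅M, M⁆ = M ∧ ∀ T, HN M T → M ⊓ Z ≤ T → T ≤ M → T = M ⊓ Z ∨ T = M) ∨
    (∃ M T, M ≤ H ∧ HN H M ∧ ¬ M ≤ Z ∧ ⁅M, M⁆ = M ∧ T ≤ M ∧ HN M T ∧ ¬ T ≤ Z ∧ ⁅T, T⁆ = T ∧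
      (∀ h ∈ H, cj h T = T ∨ ⁅T, cj h T⁆ = ⊥) ∧ (⨆ h : H, cj (h : G) T) = M ∧ ∃ h ∈ H, cj h T ≠ T) := by
  classical
  set ZH := H ⊓ Z with hZH
  have hZHc : ZH ≤ Subgroup.center G := inf_le_right.trans hZ
  have hZHn : HN H ZH := HN.central hZHc
  -- a minimal normal subgroup modulo `ZH`
  obtain ⟨N, hNmin⟩ : ∃ N, Minimal (fun N : Subgroup G => N ≤ H ∧ HN H N ∧ ZH ≤ N ∧ ¬ N ≤ Z) N :=
    Set.Finite.exists_minimal (Set.toFinite {N : Subgroup G | N ≤ H ∧ HN H N ∧ ZH ≤ N ∧ ¬ N ≤ Z})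
      ⟨H, le_rfl, HN_self H, inf_le_left, hH⟩
  obtain ⟨⟨hNH, hNn, hZN, hNZ⟩, hNm⟩ := hNmin
  by_cases hab : ⁅N, N⁆ ≤ Z
  · left
    refine ⟨N, hNH, hNn, hNZ, hab, hZN, fun N' hN' hZN' hle => ?_⟩
    by_cases hN'Z : N' ≤ Z
    · exact Or.inl hN'Z
    · right
      exact le_antisymm hle (hNm ⟨hle.trans hNH, hN', hZN', hN'Z⟩ hle)
  right
  set M := ⁅N, N⁆ with hM
  have hMn : HN H M := HN.commutator hNn hNn
  have hMN : M ≤ N := Subgroup.commutator_le_self N
  have hMZ : ¬ M ≤ Z := hab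
  have hMH : M ≤ H := hMN.trans hNH
  have key : ∀ W, HN H W → W ≤ N → ¬ W ≤ Z → M ≤ ⁅W, W⁆ := by
    intro W hWn hWN hWZ
    have h1 : W ⊔ ZH ≤ N := sup_le hWN hZN
    have h2 : N ≤ W ⊔ ZH := hNm ⟨h1.trans hNH, HN.sup hWn hZHn, le_sup_right,
      fun h => hWZ (le_sup_left.trans h)⟩ h1
    exact (Subgroup.commutator_mono h2 h2).trans (commutator_sup_central hZHc W W)
  have hMperf : ⁅M, M⁆ = M :=
    le_antisymm (Subgroup.commutator_le_self M) (key M hMn hMN hMZ)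
  set ZM := M ⊓ Z with hZM
  have hZMc : ZM ≤ Subgroup.center G := inf_le_right.trans hZ
  have hZMn : HN M ZM := HN.central hZMc
  -- a minimal normal subgroup of `M` modulo `ZM`
  let Pr : Subgroup G → Prop := fun T => T ≤ M ∧ HN M T ∧ ZM ≤ T ∧ ¬ T ≤ Z
  obtain ⟨T, hTmin⟩ : ∃ T, Minimal Pr T :=
    Set.Finite.exists_minimal (Set.toFinite {T : Subgroup G | Pr T})
      ⟨M, le_rfl, HN_self M, inf_le_left, hMZ⟩
  obtain ⟨hTP, hTm⟩ := hTmin
  obtain ⟨hTM, hTn, hZT, hTZ⟩ := id hTP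
  have hPcj : ∀ h ∈ H, ∀ T', Pr T' → Pr (cj h T') := by
    intro h hh T' hT'
    obtain ⟨h1, h2, h3, h4⟩ := hT'
    refine ⟨?_, HN.cj_of hMn h2 hh, ?_, fun h5 => h4 ?_⟩
    · have := cj_mono h h1
      rwa [HN_cj_eq hMn hh] at this
    · have := cj_mono h h3
      rwa [cj_central hZMc] at this
    · have := cj_mono h⁻¹ h5
      rwa [cj_inv_cj, cj_central hZ] at this
  have hmincj : ∀ h ∈ H, ∀ T', Pr T' → T' ≤ cj h T → cj h T ≤ T' := by
    intro h hh T' hT' hle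
    have h1 := cj_mono h⁻¹ hle
    rw [cj_inv_cj] at h1
    have h2 := hTm (hPcj h⁻¹ (H.inv_mem hh) T' hT') h1
    have h3 := cj_mono h h2
    rwa [cj_cj_inv] at h3
  have hD : ∀ h ∈ H, ∀ h' ∈ H, cj h T ≠ cj h' T → ⁅cj h T, cj h' T⁆ ≤ Z := by
    intro h hh h' hh' hne
    have hA := hPcj h hh T hTP
    have hB := hPcj h' hh' T hTP
    set A := cj h T with hAd
    set B := cj h' T with hBd
    obtain ⟨hAM, hAn, hZA, hAZ⟩ := id hA
    obtain ⟨hBM, hBn, hZB, hBZ⟩ := id hB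
    have hX : A ⊓ B ≤ Z := by
      by_contra hX
      have hXP : Pr (A ⊓ B) := ⟨inf_le_left.trans hAM, HN.inf hAn hBn, le_inf hZA hZB, hX⟩
      have h1 : A ≤ A ⊓ B := hmincj h hh _ hXP inf_le_left
      have h2 : A ≤ B := h1.trans inf_le_right
      exact hne (le_antisymm h2 (hmincj h' hh' _ hA h2))
    refine le_trans ?_ hX
    rw [Subgroup.commutator_le]
    intro x hx y hy
    refine ⟨?_, ?_⟩
    · have h1 := hAn y (hBM hy) x⁻¹ (A.inv_mem hx)
      rw [commutatorElement_def, mul_assoc, mul_assoc]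
      rw [← mul_assoc y x⁻¹ y⁻¹]
      exact A.mul_mem hx h1
    · have h1 := hBn x (hAM hx) y hy
      rw [commutatorElement_def]
      exact B.mul_mem h1 (B.inv_mem hy)
  have hT1mem : T = cj 1 T := (cj_one T).symm
  -- `T` is not abelian modulo `Z`
  have hTnab : ¬ ⁅T, T⁆ ≤ Z := by
    intro hc
    let W' : Subgroup G := ⨆ h : H, cj (h : G) T
    have hW'n : HN H W' := by
      rw [HN_iff]
      intro g hg
      simp only [W']
      rw [cj_iSup]
      refine iSup_le fun h => ?_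
      rw [← cj_mul]
      exact le_iSup (fun h : H => cj (h : G) T) ⟨g * h, H.mul_mem hg h.2⟩
    have hW'N : W' ≤ N := iSup_le fun h => by
      have := (hPcj h h.2 T hTP).1
      exact this.trans hMN
    have hTW' : T ≤ W' := by
      have := le_iSup (fun h : H => cj (h : G) T) ⟨1, H.one_mem⟩
      simpa [cj_one] using this
    have hW'Z : ¬ W' ≤ Z := fun h => hTZ (hTW'.trans h)
    have h1 := key W' hW'n hW'N hW'Z
    apply hMZ
    refine h1.trans ?_
    refine iSup_commutator_le hZ fun h => commutator_iSup_le hZ fun h' => ?_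
    by_cases heq : cj (h : G) T = cj (h' : G) T
    · rw [heq, ← cj_commutator]
      have := cj_mono (h' : G) hc
      rwa [cj_central hZ] at this
    · exact hD h h.2 h' h'.2 heq
  set T₁ := ⁅T, T⁆ with hT₁
  have hT₁T : T₁ ≤ T := Subgroup.commutator_le_self T
  have hT₁M : T₁ ≤ M := hT₁T.trans hTM
  have hT₁n : HN M T₁ := HN.commutator hTn hTn
  have hT₁perf : ⁅T₁, T₁⁆ = T₁ := by
    apply le_antisymm (Subgroup.commutator_le_self T₁)
    have h1 : T₁ ⊔ ZM ≤ T := sup_le hT₁T hZT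
    have h2 : T ≤ T₁ ⊔ ZM := hTm ⟨h1.trans hTM, HN.sup hT₁n hZMn, le_sup_right, fun h => hTnab (le_sup_left.trans h)⟩ h1
    exact (Subgroup.commutator_mono h2 h2).trans (commutator_sup_central hZMc T₁ T₁)
  have hF : ∀ h ∈ H, cj h T₁ = T₁ ∨ ⁅T₁, cj h T₁⁆ = ⊥ := by
    intro h hh
    by_cases hc : cj h T = T
    · left
      rw [hT₁, cj_commutator, hc]
    · right
      have h1 := hD h hh 1 H.one_mem (by rwa [cj_one])
      rw [cj_one] at h1
      apply commutator_eq_bot_of_perfect hZ hT₁perf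
      rw [Subgroup.commutator_comm]
      refine le_trans (Subgroup.commutator_mono (cj_mono h hT₁T) hT₁T) h1
  have hG : (⨆ h : H, cj (h : G) T₁) = M := by
    let W : Subgroup G := ⨆ h : H, cj (h : G) T₁
    have hWn : HN H W := by
      rw [HN_iff]
      intro g hg
      simp only [W]
      rw [cj_iSup]
      refine iSup_le fun h => ?_
      rw [← cj_mul]
      exact le_iSup (fun h : H => cj (h : G) T₁) ⟨g * h, H.mul_mem hg h.2⟩
    have hWM : W ≤ M := iSup_le fun h => by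
      have h1 := cj_mono (h : G) hT₁M
      rwa [HN_cj_eq hMn h.2] at h1
    have hT₁W : T₁ ≤ W := by
      have := le_iSup (fun h : H => cj (h : G) T₁) ⟨1, H.one_mem⟩
      simpa [cj_one] using this
    have h1 := key W hWn (hWM.trans hMN) (fun h => hTnab (hT₁W.trans h))
    exact le_antisymm hWM (h1.trans (Subgroup.commutator_le_self W))
  by_cases hall : ∀ h ∈ H, cj h T₁ = T₁
  · left
    have hT₁H : HN H T₁ := by
      rw [HN_iff]
      intro h hh
      rw [hall h hh]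
    have h1 := key T₁ hT₁H (hT₁M.trans hMN) hTnab
    rw [hT₁perf] at h1
    have hTeq : M ≤ T := h1.trans hT₁T
    refine ⟨M, hMH, hMn, hMZ, hMperf, fun T' hT'n hZT' hT'M => ?_⟩
    by_cases hT'Z : T' ≤ Z
    · left
      exact le_antisymm (le_inf hT'M hT'Z) hZT'
    · right
      have hP' : Pr T' := ⟨hT'M, hT'n, hZT', hT'Z⟩
      have h2 : T ≤ T' := hTm hP' (hT'M.trans hTeq)
      exact le_antisymm hT'M (hTeq.trans h2)
  · right
    push Not at hall
    exact ⟨M, T₁, hMH, hMn, hMZ, hMperf, hT₁M, hT₁n, hTnab, hT₁perf, hF, hG, hall⟩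

end Cfsg.Agent.Lib.Asch.GT
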