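import Mathlib
import Cfsg.Agent.Lib.Asch.Cl

/-!
# Tensor powers: pure tensors, commuting matrix algebras give a tensor decomposition
-/

set_option autoImplicit false

namespace Cfsg.Agent.Lib.Asch.TS

open Matrix Module Cfsg Cfsg.Geo Cfsg.Agent.Lib.Asch.Basic

universe u

variable {F : Type u} [Field F] {k m : ℕ}

/-- The pure tensor of a family of matrices. -/
def pure (f : Fin k → Matrix (Fin m) (Fin m) F) : Matrix (Fin k → Fin m) (Fin k → Fin m) F :=
  fun x y => ∏ i, f i (x i) (y i)

theorem pure_apply (f : Fin k → Matrix (Fin m) (Fin m) F) (x y : Fin k → Fin m) :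
    pure f x y = ∏ i, f i (x i) (y i) := rfl

theorem pure_mul (f g : Fin k → Matrix (Fin m) (Fin m) F) : pure f * pure g = pure (f * g) := by
  ext x y
  rw [Matrix.mul_apply]
  simp only [pure, Pi.mul_apply, Matrix.mul_apply, ← Finset.prod_mul_distrib]
  rw [Finset.prod_univ_sum, Fintype.piFinset_univ]

theorem pure_one : pure (1 : Fin k → Matrix (Fin m) (Fin m) F) = 1 := by
  ext x y
  simp only [pure, Pi.one_apply, Matrix.one_apply]
  by_cases h : x = y
  · subst h
    simp
  · rw [if_neg h]
    obtain ⟨i, hi⟩ := Function.ne_iff.1 h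
    exact Finset.prod_eq_zero (Finset.mem_univ i) (if_neg hi)

theorem pure_update (f : Fin k → Matrix (Fin m) (Fin m) F) (i : Fin k) (z : Matrix (Fin m) (Fin m) F)
    (x y : Fin k → Fin m) :
    pure (Function.update f i z) x y = z (x i) (y i) * ∏ j ∈ Finset.univ.erase i, f j (x j) (y j) := by
  rw [pure_apply, ← Finset.mul_prod_erase Finset.univ _ (Finset.mem_univ i), Function.update_self]
  congr 1
  refine Finset.prod_congr rfl fun j hj => ?_
  rw [Function.update_of_ne (Finset.ne_of_mem_erase hj)]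

/-- The `i`-th factor embedding. -/
def emb (i : Fin k) (X : Matrix (Fin m) (Fin m) F) : Matrix (Fin k → Fin m) (Fin k → Fin m) F :=
  pure (Pi.mulSingle i X)

theorem emb_mul (i : Fin k) (X Y : Matrix (Fin m) (Fin m) F) : emb i (X * Y) = emb i X * emb i Y := by
  rw [emb, emb, emb, pure_mul, Pi.mulSingle_mul]

theorem emb_one (i : Fin k) : emb i (1 : Matrix (Fin m) (Fin m) F) = 1 := by
  rw [emb, Pi.mulSingle_one, pure_one]

theorem emb_add (i : Fin k) (X Y : Matrix (Fin m) (Fin m) F) : emb i (X + Y) = emb i X + emb i Y := by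
  ext x y
  simp only [emb, Pi.mulSingle, Matrix.add_apply, pure_update, add_mul]

theorem emb_smul (i : Fin k) (c : F) (X : Matrix (Fin m) (Fin m) F) : emb i (c • X) = c • emb i X := by
  ext x y
  simp only [emb, Pi.mulSingle, Matrix.smul_apply, pure_update, smul_eq_mul, mul_assoc]

theorem emb_injective (hm : 0 < m) (i : Fin k) : Function.Injective (emb i : Matrix (Fin m) (Fin m) F → _) := by
  intro X Y hXY
  ext a b
  let z : Fin k → Fin m := fun _ => ⟨0, hm⟩
  have h := congrFun (congrFun hXY (Function.update z i a)) (Function.update z i b)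
  simp only [emb, Pi.mulSingle, pure_update, Function.update_self] at h
  have h1 : ∏ j ∈ Finset.univ.erase i, (1 : Fin k → Matrix (Fin m) (Fin m) F) j (Function.update z i a j) (Function.update z i b j) = 1 := by
    refine Finset.prod_eq_one fun j hj => ?_
    have hji := Finset.ne_of_mem_erase hj
    rw [Function.update_of_ne hji, Function.update_of_ne hji]
    simp
  rw [h1, mul_one, mul_one] at h
  exact h

/-- The `i`-th factor embedding as an algebra homomorphism. -/
def embA (i : Fin k) : Matrix (Fin m) (Fin m) F →ₐ[F] Matrix (Fin k → Fin m) (Fin k → Fin m) F :=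
  AlgHom.ofLinearMap
    { toFun := emb i
      map_add' := emb_add i
      map_smul' := emb_smul i } (emb_one i) (emb_mul i)

theorem embA_apply (i : Fin k) (X : Matrix (Fin m) (Fin m) F) : embA i X = emb i X := rfl

theorem pure_mulVec_single (i : Fin k) (X : Matrix (Fin m) (Fin m) F) (β : Fin k → Fin m) :
    emb i X *ᵥ Pi.single β (1 : F) = ∑ a, X a (β i) • Pi.single (Function.update β i a) (1 : F) := by
  funext γ
  rw [Matrix.mulVec_single_one, Finset.sum_apply]
  simp only [Pi.smul_apply, Pi.single_apply, smul_eq_mul, Matrix.col_apply]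
  simp only [emb, Pi.mulSingle, pure_update]
  by_cases hγ : ∀ j, j ≠ i → γ j = β j
  · rw [Finset.sum_eq_single (γ i)]
    · have h1 : γ = Function.update β i (γ i) := by
        funext j
        by_cases hj : j = i
        · subst hj; simp
        · rw [Function.update_of_ne hj, hγ j hj]
      rw [if_pos h1, mul_one]
      have h2 : ∏ j ∈ Finset.univ.erase i, (1 : Fin k → Matrix (Fin m) (Fin m) F) j (γ j) (β j) = 1 := by
        refine Finset.prod_eq_one fun j hj => ?_
        rw [hγ j (Finset.ne_of_mem_erase hj)]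
        simp
      rw [h2, mul_one]
    · intro a _ ha
      rw [if_neg, mul_zero]
      intro h
      apply ha
      rw [h]
      simp
    · simp
  · push Not at hγ
    obtain ⟨j, hji, hj⟩ := hγ
    have h0 : ∏ l ∈ Finset.univ.erase i, (1 : Fin k → Matrix (Fin m) (Fin m) F) l (γ l) (β l) = 0 := by
      refine Finset.prod_eq_zero (Finset.mem_erase.2 ⟨hji, Finset.mem_univ j⟩) ?_
      simp [hj]
    rw [h0, mul_zero]
    symm
    refine Finset.sum_eq_zero fun a _ => ?_
    rw [if_neg, mul_zero]
    intro h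
    apply hj
    rw [h, Function.update_of_ne hji]

variable {ι : Type} [Fintype ι] [DecidableEq ι]

section TS1

variable (φ : Fin k → Matrix (Fin m) (Fin m) F →ₐ[F] Matrix ι ι F)
  (hc : Pairwise fun i j => ∀ x y, Commute ((φ i : Matrix (Fin m) (Fin m) F →* Matrix ι ι F) x) ((φ j : Matrix (Fin m) (Fin m) F →* Matrix ι ι F) y))

/-- The product of a commuting family of representations. -/
noncomputable def PiP : (Fin k → Matrix (Fin m) (Fin m) F) →* Matrix ι ι F :=
  MonoidHom.noncommPiCoprod (fun i => (φ i : Matrix (Fin m) (Fin m) F →* Matrix ι ι F)) hc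

theorem PiP_single (i : Fin k) (X : Matrix (Fin m) (Fin m) F) : PiP φ hc (Pi.mulSingle i X) = φ i X :=
  MonoidHom.noncommPiCoprod_mulSingle (N := fun _ => Matrix (Fin m) (Fin m) F) (fun i => (φ i : Matrix (Fin m) (Fin m) F →* Matrix ι ι F)) i X

theorem PiP_update (f : Fin k → Matrix (Fin m) (Fin m) F) (i : Fin k) (X : Matrix (Fin m) (Fin m) F) :
    PiP φ hc (Function.update f i X) = PiP φ hc (Function.update f i 1) * φ i X := by
  rw [← PiP_single φ hc i X, ← map_mul]
  congr 1
  funext j
  by_cases hj : j = i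
  · subst hj
    simp
  · simp [Function.update_of_ne hj, Pi.mulSingle_eq_of_ne hj]

/-- The product as a multilinear map. -/
noncomputable def PiM : MultilinearMap F (fun _ : Fin k => Matrix (Fin m) (Fin m) F) (Matrix ι ι F) where
  toFun := PiP φ hc
  map_update_add' := by
    intro _ f i x y
    have hd : ‹DecidableEq (Fin k)› = instDecidableEqFin k := Subsingleton.elim _ _
    subst hd
    rw [PiP_update φ hc f i (x + y), PiP_update φ hc f i x, PiP_update φ hc f i y, map_add, mul_add]
  map_update_smul' := by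
    intro _ f i c x
    have hd : ‹DecidableEq (Fin k)› = instDecidableEqFin k := Subsingleton.elim _ _
    subst hd
    rw [PiP_update φ hc f i (c • x), PiP_update φ hc f i x, map_smul, mul_smul_comm]

theorem PiM_apply (f : Fin k → Matrix (Fin m) (Fin m) F) : PiM φ hc f = PiP φ hc f := rfl

theorem PiP_induction (p : Matrix ι ι F → Prop) (hmul : ∀ a b, p a → p b → p (a * b)) (hone : p 1)
    (hbase : ∀ i X, p (φ i X)) (f : Fin k → Matrix (Fin m) (Fin m) F) : p (PiP φ hc f) := by
  unfold PiP
  rw [MonoidHom.noncommPiCoprod_apply]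
  exact Finset.noncommProd_induction _ _ _ p hmul hone fun i _ => hbase i (f i)

/-- The matrix units. -/
abbrev EU (a b : Fin m) : Matrix (Fin m) (Fin m) F := Matrix.single a b 1

theorem EU_mul_EU (a b c : Fin m) : (EU a b : Matrix (Fin m) (Fin m) F) * EU b c = EU a c := by
  simp [EU, Matrix.single_mul_single_same]

theorem EU_mul_EU_ne (a b c d : Fin m) (h : b ≠ c) : (EU a b : Matrix (Fin m) (Fin m) F) * EU c d = 0 :=
  Matrix.single_mul_single_of_ne 1 a b c h 1

theorem sum_EU : ∑ a : Fin m, (EU a a : Matrix (Fin m) (Fin m) F) = 1 := by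
  ext x y
  rw [Matrix.sum_apply, Matrix.one_apply]
  simp only [EU, Matrix.single_apply]
  by_cases h : x = y
  · subst h
    simp
  · rw [if_neg h]
    refine Finset.sum_eq_zero fun a _ => ?_
    rw [if_neg]
    rintro ⟨rfl, rfl⟩
    exact h rfl

theorem mul_EU (X : Matrix (Fin m) (Fin m) F) (b c : Fin m) : X * EU b c = ∑ a, X a b • EU a c := by
  ext x y
  rw [Matrix.sum_apply]
  simp only [Matrix.smul_apply, EU, Matrix.mul_apply, Matrix.single_apply, smul_eq_mul]
  rw [Finset.sum_eq_single b, Finset.sum_eq_single x]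
  · simp
  · intro a _ ha
    rw [if_neg (fun h => ha h.1), mul_zero]
  · simp
  · intro a _ ha
    rw [if_neg (fun h => ha h.1.symm), mul_zero]
  · simp

/-- A linear map sending a given non-zero vector anywhere. -/
theorem exists_mat_mulVec {κ : Type} [Fintype κ] [DecidableEq κ] {v : κ → F} (hv : v ≠ 0) (w : κ → F) :
    ∃ X : Matrix κ κ F, X *ᵥ v = w := by
  obtain ⟨j, hj⟩ := Function.ne_iff.1 hv
  refine ⟨Matrix.of fun a b => if b = j then w a * (v j)⁻¹ else 0, ?_⟩
  funext a
  simp only [Matrix.mulVec, dotProduct, Matrix.of_apply]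
  rw [Finset.sum_eq_single j]
  · rw [if_pos rfl, mul_assoc, inv_mul_cancel₀ hj, mul_one]
  · intro b _ hb
    rw [if_neg hb, zero_mul]
  · simp

theorem exists_L [Nonempty ι] (hm : 0 < m) (hspan : Submodule.span F (Set.range (PiP φ hc)) = ⊤) :
    ∃ L : ((Fin k → Fin m) → F) ≃ₗ[F] (ι → F), ∀ (i : Fin k) (X : Matrix (Fin m) (Fin m) F) (x : (Fin k → Fin m) → F),
      φ i X *ᵥ L x = L (emb i X *ᵥ x) := by
  classical
  let o : Fin m := ⟨0, hm⟩
  let P₀ : Matrix ι ι F := PiP φ hc fun _ => EU o o
  -- `P₀` is non-zero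
  have hne : ∀ s : Finset (Fin k), PiP φ hc (fun i => if i ∈ s then EU o o else 1) ≠ 0 := by
    intro s
    induction s using Finset.induction_on with
    | empty =>
      simp only [Finset.notMem_empty, if_false]
      have : (fun _ : Fin k => (1 : Matrix (Fin m) (Fin m) F)) = 1 := rfl
      rw [this, map_one]
      exact one_ne_zero
    | insert a s has ih =>
      intro h0
      apply ih
      set g : Fin k → Matrix (Fin m) (Fin m) F := fun i => if i ∈ s then EU o o else 1 with hg
      have hga : g a = 1 := by simp [hg, has]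
      have hcomm : ∀ X, Pi.mulSingle a X * g = g * Pi.mulSingle a X := by
        intro X
        funext j
        by_cases hj : j = a
        · subst hj
          simp [hga]
        · simp [Pi.mulSingle_eq_of_ne hj]
      have h1 : g * Pi.mulSingle a (EU o o) = fun i => if i ∈ insert a s then EU o o else 1 := by
        funext j
        by_cases hj : j = a
        · subst hj
          simp [hga]
        · simp [Pi.mulSingle_eq_of_ne hj, hg, hj]
      have h2 : PiP φ hc g * φ a (EU o o) = 0 := by
        rw [← PiP_single φ hc a, ← map_mul, h1, h0]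
      have h3 : ∀ b : Fin m, PiP φ hc g * φ a (EU b b) = 0 := by
        intro b
        have h4 : (EU b b : Matrix (Fin m) (Fin m) F) = EU b o * EU o o * EU o b := by
          rw [EU_mul_EU, EU_mul_EU]
        have h5 : PiP φ hc g * φ a (EU b o) = φ a (EU b o) * PiP φ hc g := by
          rw [← PiP_single φ hc a, ← map_mul, ← map_mul, hcomm]
        rw [h4, map_mul, map_mul, ← mul_assoc, ← mul_assoc, h5, mul_assoc _ (PiP φ hc g), h2, mul_zero, zero_mul]
      calc PiP φ hc g = PiP φ hc g * φ a 1 := by rw [map_one, mul_one]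
        _ = 0 := by
          rw [← sum_EU, map_sum, Finset.mul_sum]
          exact Finset.sum_eq_zero fun b _ => h3 b
  have hP₀ : P₀ ≠ 0 := by
    have := hne Finset.univ
    simpa [P₀] using this
  have hP₀2 : P₀ * P₀ = P₀ := by
    simp only [P₀]
    rw [← map_mul]
    congr 1
    funext j
    simp [EU_mul_EU]
  -- a non-zero vector fixed by `P₀`
  obtain ⟨v₀, hv₀, hv₀0⟩ : ∃ v₀, P₀ *ᵥ v₀ = v₀ ∧ v₀ ≠ 0 := by
    by_contra hcon
    push Not at hcon
    apply hP₀
    apply Matrix.ext_of_mulVec_single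
    intro i
    have h1 := hcon (P₀ *ᵥ Pi.single i 1) (by rw [Matrix.mulVec_mulVec, hP₀2])
    rw [Matrix.zero_mulVec]
    exact h1
  -- the basis vectors
  let vv : (Fin k → Fin m) → (ι → F) := fun α => PiP φ hc (fun i => EU (α i) o) *ᵥ v₀
  -- dual pairing
  have hpair : ∀ α β : Fin k → Fin m, PiP φ hc (fun i => EU o (β i)) *ᵥ vv α = if α = β then v₀ else 0 := by
    intro α β
    simp only [vv]
    rw [Matrix.mulVec_mulVec, ← map_mul]
    by_cases h : α = β
    · subst h
      rw [if_pos rfl]
      have : (fun i => (EU o (α i) : Matrix (Fin m) (Fin m) F)) * (fun i => EU (α i) o) = fun _ => EU o o := by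
        funext j
        simp [EU_mul_EU]
      rw [this]
      exact hv₀
    · rw [if_neg h]
      obtain ⟨i, hi⟩ := Function.ne_iff.1 h
      have : (((fun i => EU o (β i)) * fun i => EU (α i) o) : Fin k → Matrix (Fin m) (Fin m) F) i = 0 := by
        simp only [Pi.mul_apply]
        exact EU_mul_EU_ne _ _ _ _ (Ne.symm hi)
      rw [← PiM_apply, MultilinearMap.map_coord_zero _ i this, Matrix.zero_mulVec]
  -- action of the factors
  have hact : ∀ (i : Fin k) (X : Matrix (Fin m) (Fin m) F) (β : Fin k → Fin m),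
      φ i X *ᵥ vv β = ∑ a, X a (β i) • vv (Function.update β i a) := by
    intro i X β
    simp only [vv]
    rw [Matrix.mulVec_mulVec, ← PiP_single φ hc i X, ← map_mul]
    have h1 : Pi.mulSingle i X * (fun j => (EU (β j) o : Matrix (Fin m) (Fin m) F)) =
        Function.update (fun j => EU (β j) o) i (∑ a, X a (β i) • EU a o) := by
      funext j
      by_cases hj : j = i
      · subst hj
        simp [mul_EU]
      · simp [Pi.mulSingle_eq_of_ne hj, Function.update_of_ne hj]
    rw [h1, ← PiM_apply, MultilinearMap.map_update_sum, Matrix.sum_mulVec]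
    refine Finset.sum_congr rfl fun a _ => ?_
    rw [MultilinearMap.map_update_smul, Matrix.smul_mulVec, PiM_apply]
    congr 3
    funext j
    by_cases hj : j = i
    · subst hj
      simp
    · simp [Function.update_of_ne hj]
  -- the linear map
  let L₀ : ((Fin k → Fin m) → F) →ₗ[F] (ι → F) :=
    { toFun := fun x => ∑ α, x α • vv α
      map_add' := fun x y => by simp [add_smul, Finset.sum_add_distrib]
      map_smul' := fun c x => by simp [smul_smul, Finset.smul_sum] }
  have hL₀ : ∀ x, L₀ x = ∑ α, x α • vv α := fun _ => rfl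
  have hL₀s : ∀ β, L₀ (Pi.single β 1) = vv β := by
    intro β
    rw [hL₀, Finset.sum_eq_single β]
    · simp
    · intro α _ hα
      simp [Pi.single_eq_of_ne hα]
    · simp
  have hinj : Function.Injective L₀ := by
    rw [injective_iff_map_eq_zero]
    intro x hx
    funext β
    have h1 := congrArg (fun v => PiP φ hc (fun i => EU o (β i)) *ᵥ v) hx
    simp only [hL₀, Matrix.mulVec_zero, Matrix.mulVec_sum, Matrix.mulVec_smul, hpair] at h1
    rw [Finset.sum_eq_single β] at h1
    · rw [if_pos rfl] at h1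
      exact (smul_eq_zero.1 h1).resolve_right hv₀0
    · intro α _ hα
      rw [if_neg hα, smul_zero]
    · simp
  have hsurj : Function.Surjective L₀ := by
    rw [← LinearMap.range_eq_top]
    set W := LinearMap.range L₀ with hW
    have hvvW : ∀ β, vv β ∈ W := fun β => ⟨Pi.single β 1, hL₀s β⟩
    have hφW : ∀ i X, ∀ v ∈ W, φ i X *ᵥ v ∈ W := by
      rintro i X _ ⟨x, rfl⟩
      rw [hL₀, Matrix.mulVec_sum]
      refine Submodule.sum_mem _ fun β _ => ?_
      rw [Matrix.mulVec_smul, hact]
      refine Submodule.smul_mem _ _ (Submodule.sum_mem _ fun a _ => Submodule.smul_mem _ _ (hvvW _))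
    have hPiW : ∀ f, ∀ v ∈ W, PiP φ hc f *ᵥ v ∈ W := by
      intro f
      refine PiP_induction φ hc (fun a => ∀ v ∈ W, a *ᵥ v ∈ W) ?_ ?_ hφW f
      · intro a b ha hb v hv
        rw [← Matrix.mulVec_mulVec]
        exact ha _ (hb v hv)
      · intro v hv
        rwa [Matrix.one_mulVec]
    have hallW : ∀ X : Matrix ι ι F, ∀ v ∈ W, X *ᵥ v ∈ W := by
      intro X v hv
      have hX : X ∈ Submodule.span F (Set.range (PiP φ hc)) := by rw [hspan]; trivial
      induction hX using Submodule.span_induction with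
      | mem y hy =>
        obtain ⟨f, rfl⟩ := hy
        exact hPiW f v hv
      | zero =>
        rw [Matrix.zero_mulVec]
        exact Submodule.zero_mem _
      | add a b _ _ ha hb =>
        rw [Matrix.add_mulVec]
        exact Submodule.add_mem _ ha hb
      | smul c a _ ha =>
        rw [Matrix.smul_mulVec]
        exact Submodule.smul_mem _ c ha
    -- a non-zero vector
    let α₀ : Fin k → Fin m := fun _ => o
    have hne0 : vv α₀ ≠ 0 := by
      intro h0
      have h1 := hpair α₀ α₀
      rw [h0, Matrix.mulVec_zero, if_pos rfl] at h1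
      exact hv₀0 h1.symm
    rw [eq_top_iff]
    intro u _
    obtain ⟨X, rfl⟩ := exists_mat_mulVec hne0 u
    exact hallW X _ (hvvW α₀)
  let L : ((Fin k → Fin m) → F) ≃ₗ[F] (ι → F) := LinearEquiv.ofBijective L₀ ⟨hinj, hsurj⟩
  refine ⟨L, fun i X x => ?_⟩
  have hLL : ∀ y, L y = L₀ y := fun _ => rfl
  rw [hLL, hLL]
  have h1 : (Matrix.toLin' (φ i X)) ∘ₗ L₀ = L₀ ∘ₗ Matrix.toLin' (emb i X) := by
    apply LinearMap.pi_ext'
    intro β
    apply LinearMap.ext_ring
    simp only [LinearMap.comp_apply, LinearMap.single_apply, Matrix.toLin'_apply]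
    rw [hL₀s, hact, pure_mulVec_single, map_sum]
    refine Finset.sum_congr rfl fun a _ => ?_
    rw [map_smul, hL₀s]
  have h2 := LinearMap.congr_fun h1 x
  simpa only [LinearMap.comp_apply, Matrix.toLin'_apply] using h2

end TS1

section TS2

/-- The Skolem--Noether theorem for full matrix algebras. -/
theorem skolem_noether (hm : 0 < m) (ψ : Matrix (Fin m) (Fin m) F →ₐ[F] Matrix (Fin m) (Fin m) F) :
    ∃ a : GL (Fin m) F, ∀ X, ψ X * (a : Matrix (Fin m) (Fin m) F) = (a : Matrix (Fin m) (Fin m) F) * X := by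
  classical
  let o : Fin m := ⟨0, hm⟩
  haveI : Nonempty (Fin m) := ⟨o⟩
  have h00 : ψ (EU o o) ≠ 0 := by
    intro h0
    have h3 : ∀ b : Fin m, ψ (EU b b) = 0 := by
      intro b
      have h4 : (EU b b : Matrix (Fin m) (Fin m) F) = EU b o * EU o o * EU o b := by
        rw [EU_mul_EU, EU_mul_EU]
      rw [h4, map_mul, map_mul, h0, mul_zero, zero_mul]
    have h5 : ψ 1 = 0 := by
      rw [← sum_EU, map_sum]
      exact Finset.sum_eq_zero fun b _ => h3 b
    rw [map_one] at h5
    exact one_ne_zero h5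
  have h002 : ψ (EU o o) * ψ (EU o o) = ψ (EU o o) := by
    rw [← map_mul, EU_mul_EU]
  obtain ⟨u, hu, hu0⟩ : ∃ u, ψ (EU o o) *ᵥ u = u ∧ u ≠ 0 := by
    by_contra hcon
    push Not at hcon
    apply h00
    apply Matrix.ext_of_mulVec_single
    intro i
    have h1 := hcon (ψ (EU o o) *ᵥ Pi.single i 1) (by rw [Matrix.mulVec_mulVec, h002])
    rw [Matrix.zero_mulVec]
    exact h1
  let a : Matrix (Fin m) (Fin m) F := Matrix.of fun i j => (ψ (EU j o) *ᵥ u) i
  have hamul : ∀ y, a *ᵥ y = ∑ j, y j • (ψ (EU j o) *ᵥ u) := by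
    intro y
    funext i
    simp only [Matrix.mulVec, dotProduct, a, Matrix.of_apply, Finset.sum_apply, Pi.smul_apply, smul_eq_mul]
    exact Finset.sum_congr rfl fun j _ => mul_comm _ _
  have hinj : Function.Injective a.mulVec := by
    change Function.Injective (Matrix.mulVecLin a)
    rw [injective_iff_map_eq_zero (Matrix.mulVecLin a)]
    intro y hy
    have hy' : a *ᵥ y = 0 := hy
    funext l
    have h1 := congrArg (fun v => ψ (EU o l) *ᵥ v) hy'
    simp only [hamul, Matrix.mulVec_zero, Matrix.mulVec_sum, Matrix.mulVec_smul, Matrix.mulVec_mulVec, ← map_mul] at h1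
    rw [Finset.sum_eq_single l] at h1
    · rw [EU_mul_EU, hu] at h1
      exact (smul_eq_zero.1 h1).resolve_right hu0
    · intro j _ hj
      rw [EU_mul_EU_ne _ _ _ _ (Ne.symm hj), map_zero, Matrix.zero_mulVec, smul_zero]
    · simp
  have hunit : IsUnit a := (Matrix.mulVec_injective_iff_isUnit).1 hinj
  refine ⟨hunit.unit, fun X => ?_⟩
  change ψ X * a = a * X
  apply Matrix.ext_of_mulVec_single
  intro j
  rw [← Matrix.mulVec_mulVec, ← Matrix.mulVec_mulVec, hamul, hamul]
  simp only [Pi.single_apply, ite_smul, one_smul, zero_smul]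
  rw [Finset.sum_ite_eq' Finset.univ j, if_pos (Finset.mem_univ j), Matrix.mulVec_mulVec, ← map_mul, mul_EU, map_sum,
    Matrix.sum_mulVec]
  refine Finset.sum_congr rfl fun l _ => ?_
  rw [map_smul, Matrix.smul_mulVec]
  congr 1
  rw [Matrix.mulVec_single_one]
  rfl

/-- The matrix permuting the tensor factors. -/
def pm (σ : Equiv.Perm (Fin k)) : Matrix (Fin k → Fin m) (Fin k → Fin m) F :=
  fun x y => if y = x ∘ σ then 1 else 0

theorem pm_mul_apply (σ : Equiv.Perm (Fin k)) (M : Matrix (Fin k → Fin m) (Fin k → Fin m) F) (x y : Fin k → Fin m) :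
    ((pm σ * M : Matrix (Fin k → Fin m) (Fin k → Fin m) F)) x y = M (x ∘ σ) y := by
  rw [Matrix.mul_apply, Finset.sum_eq_single (x ∘ σ)]
  · simp [pm]
  · intro z _ hz
    simp [pm, hz]
  · simp

theorem mul_pm_apply (σ : Equiv.Perm (Fin k)) (M : Matrix (Fin k → Fin m) (Fin k → Fin m) F) (x y : Fin k → Fin m) :
    ((M * pm σ : Matrix (Fin k → Fin m) (Fin k → Fin m) F)) x y = M x (y ∘ σ.symm) := by
  rw [Matrix.mul_apply, Finset.sum_eq_single (y ∘ σ.symm)]
  · have h1 : y = (y ∘ σ.symm) ∘ σ := by
      funext j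
      simp
    have h2 : pm σ (y ∘ σ.symm) y = (1 : F) := if_pos h1
    rw [h2, mul_one]
  · intro z _ hz
    have : y ≠ z ∘ σ := by
      rintro rfl
      apply hz
      funext j
      simp
    simp [pm, this]
  · simp

theorem pm_mul_pm (σ τ : Equiv.Perm (Fin k)) : (pm σ * pm τ : Matrix (Fin k → Fin m) (Fin k → Fin m) F) = pm (σ * τ) := by
  ext x y
  rw [pm_mul_apply]
  simp only [pm]
  rfl

theorem pm_one : (pm 1 : Matrix (Fin k → Fin m) (Fin k → Fin m) F) = 1 := by
  ext x y
  simp only [pm, Matrix.one_apply]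
  by_cases h : x = y
  · subst h
    simp
  · rw [if_neg h, if_neg]
    intro h2
    exact h h2.symm

theorem pm_mul_pure (σ : Equiv.Perm (Fin k)) (f : Fin k → Matrix (Fin m) (Fin m) F) :
    pm σ * pure f = pure (f ∘ σ.symm) * pm σ := by
  ext x y
  rw [pm_mul_apply, mul_pm_apply, pure_apply, pure_apply]
  refine Eq.trans ?_ (Equiv.prod_comp σ (fun j => (f ∘ σ.symm) j (x j) ((y ∘ σ.symm) j)))
  refine Finset.prod_congr rfl fun i _ => ?_
  simp

theorem pm_mul_emb (σ : Equiv.Perm (Fin k)) (i : Fin k) (X : Matrix (Fin m) (Fin m) F) :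
    pm σ * emb i X = emb (σ i) X * pm σ := by
  rw [emb, emb, pm_mul_pure]
  congr 2
  funext j
  simp only [Function.comp_apply, Pi.mulSingle, Function.update_apply, Pi.one_apply, Equiv.symm_apply_eq]

theorem pure_induction (p : Matrix (Fin k → Fin m) (Fin k → Fin m) F → Prop) (hmul : ∀ a b, p a → p b → p (a * b)) (hone : p 1)
    (hbase : ∀ i X, p (emb i X)) (f : Fin k → Matrix (Fin m) (Fin m) F) : p (pure f) := by
  classical
  have key : ∀ s : Finset (Fin k), p (pure fun i => if i ∈ s then f i else 1) := by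
    intro s
    induction s using Finset.induction_on with
    | empty =>
      simp only [Finset.notMem_empty, if_false]
      have : (fun _ : Fin k => (1 : Matrix (Fin m) (Fin m) F)) = 1 := rfl
      rw [this, pure_one]
      exact hone
    | insert a s has ih =>
      have h1 : (fun i => if i ∈ insert a s then f i else 1) =
          (fun i => if i ∈ s then f i else 1) * Pi.mulSingle a (f a) := by
        funext j
        by_cases hj : j = a
        · subst hj
          simp [has]
        · simp [Pi.mulSingle_eq_of_ne hj, hj]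
      rw [h1, ← pure_mul]
      exact hmul _ _ ih (hbase a (f a))
  simpa using key Finset.univ

theorem pure_EU (x y : Fin k → Fin m) : pure (fun i => (EU (x i) (y i) : Matrix (Fin m) (Fin m) F)) = Matrix.single x y 1 := by
  ext u v
  rw [pure_apply, Matrix.single_apply]
  by_cases h : x = u ∧ y = v
  · obtain ⟨rfl, rfl⟩ := h
    simp
  · rw [if_neg h]
    by_cases h1 : x = u
    · have h2 : y ≠ v := fun h2 => h ⟨h1, h2⟩
      obtain ⟨i, hi⟩ := Function.ne_iff.1 h2
      refine Finset.prod_eq_zero (Finset.mem_univ i) ?_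
      simp [Matrix.single_apply, hi]
    · obtain ⟨i, hi⟩ := Function.ne_iff.1 h1
      refine Finset.prod_eq_zero (Finset.mem_univ i) ?_
      simp [Matrix.single_apply, hi]

/-- A matrix commuting with all pure tensors is scalar. -/
theorem scalar_of_comm_pure (hm : 0 < m) (T : Matrix (Fin k → Fin m) (Fin k → Fin m) F) (hT : ∀ f, T * pure f = pure f * T) :
    ∃ c : F, T = c • 1 := by
  classical
  let o : Fin k → Fin m := fun _ => ⟨0, hm⟩
  refine ⟨T o o, ?_⟩
  have h1 : ∀ x y u v, (T * Matrix.single x y (1 : F) : Matrix (Fin k → Fin m) (Fin k → Fin m) F) u v = (Matrix.single x y (1 : F) * T : Matrix (Fin k → Fin m) (Fin k → Fin m) F) u v := by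
    intro x y u v
    rw [← pure_EU, hT]
  have h2 : ∀ x u, T u x = if x = u then T o o else 0 := by
    intro x u
    have h3 := h1 x o u o
    rw [Matrix.mul_single_apply_same, mul_one] at h3
    by_cases hxu : x = u
    · subst hxu
      rw [if_pos rfl, h3, Matrix.single_mul_apply_same, one_mul]
    · rw [if_neg hxu, h3, Matrix.single_mul_apply_of_ne _ _ _ _ _ (Ne.symm hxu)]
  ext u v
  rw [h2, Matrix.smul_apply, Matrix.one_apply, smul_eq_mul]
  by_cases huv : u = v
  · subst huv
    simp
  · rw [if_neg huv, if_neg (Ne.symm huv), mul_zero]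

/-- A matrix normalising the tensor factors, permuted by `σ`, lies in the standard tensor wreath group. -/
theorem mem_standard_of_normalises (hm : 0 < m) (hk : 0 < k) (T : GL (Fin k → Fin m) F) (σ : Equiv.Perm (Fin k))
    (hT : ∀ i X, ∃ Y, (T : Matrix (Fin k → Fin m) (Fin k → Fin m) F) * emb i X = emb (σ i) Y * (T : Matrix (Fin k → Fin m) (Fin k → Fin m) F)) :
    T ∈ tensorWreathStandard m k F := by
  classical
  -- the factor permutation
  let g₀ : GL (Fin k → Fin m) F := ⟨pm σ, pm σ⁻¹, by rw [pm_mul_pm, mul_inv_cancel, pm_one], by rw [pm_mul_pm, inv_mul_cancel, pm_one]⟩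
  have hg₀ : g₀ ∈ tensorWreathStandard m k F := Subgroup.subset_closure (Or.inr ⟨σ, fun x y => rfl⟩)
  -- the normalising part
  let T₁ : GL (Fin k → Fin m) F := g₀⁻¹ * T
  have hT₁mat : (T₁ : Matrix (Fin k → Fin m) (Fin k → Fin m) F) = pm σ⁻¹ * (T : Matrix (Fin k → Fin m) (Fin k → Fin m) F) := rfl
  have hT₁ : ∀ i X, ∃ Y, (T₁ : Matrix (Fin k → Fin m) (Fin k → Fin m) F) * emb i X = emb i Y * (T₁ : Matrix (Fin k → Fin m) (Fin k → Fin m) F) := by
    intro i X
    obtain ⟨Y, hY⟩ := hT i X
    refine ⟨Y, ?_⟩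
    rw [hT₁mat, mul_assoc, hY, ← mul_assoc, pm_mul_emb, mul_assoc]
    simp
  choose ψ₀ hψ₀ using hT₁
  have huniq : ∀ i Y Y', emb i Y * (T₁ : Matrix (Fin k → Fin m) (Fin k → Fin m) F) = emb i Y' * (T₁ : Matrix (Fin k → Fin m) (Fin k → Fin m) F) → Y = Y' := by
    intro i Y Y' h
    exact emb_injective hm i ((T₁.isUnit).mul_left_injective h)
  let ψ : Fin k → (Matrix (Fin m) (Fin m) F →ₐ[F] Matrix (Fin m) (Fin m) F) := fun i =>
    AlgHom.ofLinearMap
      { toFun := ψ₀ i
        map_add' := fun X Y => huniq i _ _ (by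
          rw [← hψ₀, emb_add, emb_add, add_mul, mul_add, hψ₀, hψ₀])
        map_smul' := fun c X => huniq i _ _ (by
          simp only [RingHom.id_apply]
          rw [← hψ₀, emb_smul, emb_smul, smul_mul_assoc, mul_smul_comm, hψ₀]) }
      (huniq i _ _ (by
        change emb i (ψ₀ i 1) * _ = _
        rw [← hψ₀, emb_one, mul_one, one_mul]))
      (fun X Y => huniq i _ _ (by
        change emb i (ψ₀ i (X * Y)) * _ = emb i (ψ₀ i X * ψ₀ i Y) * _
        rw [← hψ₀, emb_mul, emb_mul, ← mul_assoc, hψ₀, mul_assoc, hψ₀, mul_assoc]))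
  have hψ : ∀ i X, (T₁ : Matrix (Fin k → Fin m) (Fin k → Fin m) F) * emb i X = emb i (ψ i X) * (T₁ : Matrix (Fin k → Fin m) (Fin k → Fin m) F) := hψ₀
  choose a ha using fun i => skolem_noether hm (ψ i)
  -- the pure tensor
  let A : GL (Fin k → Fin m) F := ⟨pure fun i => (a i : Matrix (Fin m) (Fin m) F), pure fun i => ((a i)⁻¹ : GL (Fin m) F),
    by
      rw [pure_mul, ← pure_one]
      congr 1
      funext i
      simp,
    by
      rw [pure_mul, ← pure_one]
      congr 1
      funext i
      simp⟩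
  have hA : A ∈ tensorWreathStandard m k F := Subgroup.subset_closure (Or.inl ⟨a, fun x y => rfl⟩)
  have hAemb : ∀ i X, (A : Matrix (Fin k → Fin m) (Fin k → Fin m) F) * emb i X = emb i (ψ i X) * (A : Matrix (Fin k → Fin m) (Fin k → Fin m) F) := by
    intro i X
    change pure _ * pure _ = pure _ * pure _
    rw [pure_mul, pure_mul]
    congr 1
    funext j
    by_cases hj : j = i
    · subst hj
      simp [ha]
    · simp [Pi.mulSingle_eq_of_ne hj]
  -- the remaining part commutes with everything
  let T₂ : GL (Fin k → Fin m) F := A⁻¹ * T₁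
  have hT₂comm : ∀ i X, (T₂ : Matrix (Fin k → Fin m) (Fin k → Fin m) F) * emb i X = emb i X * (T₂ : Matrix (Fin k → Fin m) (Fin k → Fin m) F) := by
    intro i X
    have h1 : ((A⁻¹ : GL (Fin k → Fin m) F) : Matrix (Fin k → Fin m) (Fin k → Fin m) F) * (A : Matrix (Fin k → Fin m) (Fin k → Fin m) F) = 1 := by
      rw [← Units.val_mul, inv_mul_cancel, Units.val_one]
    have h2 : (A : Matrix (Fin k → Fin m) (Fin k → Fin m) F) * ((A⁻¹ : GL (Fin k → Fin m) F) : Matrix (Fin k → Fin m) (Fin k → Fin m) F) = 1 := by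
      rw [← Units.val_mul, mul_inv_cancel, Units.val_one]
    have h3 : ((A⁻¹ : GL (Fin k → Fin m) F) : Matrix (Fin k → Fin m) (Fin k → Fin m) F) * emb i (ψ i X) = emb i X * ((A⁻¹ : GL (Fin k → Fin m) F) : Matrix (Fin k → Fin m) (Fin k → Fin m) F) := by
      calc _ = ((A⁻¹ : GL (Fin k → Fin m) F) : Matrix (Fin k → Fin m) (Fin k → Fin m) F) * emb i (ψ i X) * ((A : Matrix (Fin k → Fin m) (Fin k → Fin m) F) * ((A⁻¹ : GL (Fin k → Fin m) F) : Matrix (Fin k → Fin m) (Fin k → Fin m) F)) := by
            rw [h2, mul_one]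
        _ = ((A⁻¹ : GL (Fin k → Fin m) F) : Matrix (Fin k → Fin m) (Fin k → Fin m) F) * (emb i (ψ i X) * (A : Matrix (Fin k → Fin m) (Fin k → Fin m) F)) * ((A⁻¹ : GL (Fin k → Fin m) F) : Matrix (Fin k → Fin m) (Fin k → Fin m) F) := by
            simp only [mul_assoc]
        _ = _ := by
            rw [← hAemb, ← mul_assoc, h1, one_mul]
    change ((A⁻¹ : GL (Fin k → Fin m) F) : Matrix (Fin k → Fin m) (Fin k → Fin m) F) * (T₁ : Matrix (Fin k → Fin m) (Fin k → Fin m) F) * emb i X = emb i X * (((A⁻¹ : GL (Fin k → Fin m) F) : Matrix (Fin k → Fin m) (Fin k → Fin m) F) * (T₁ : Matrix (Fin k → Fin m) (Fin k → Fin m) F))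
    rw [mul_assoc, hψ, ← mul_assoc, h3, mul_assoc]
  have hT₂pure : ∀ f, (T₂ : Matrix (Fin k → Fin m) (Fin k → Fin m) F) * pure f = pure f * (T₂ : Matrix (Fin k → Fin m) (Fin k → Fin m) F) := by
    intro f
    refine pure_induction (fun p => (T₂ : Matrix (Fin k → Fin m) (Fin k → Fin m) F) * p = p * (T₂ : Matrix (Fin k → Fin m) (Fin k → Fin m) F)) ?_ ?_ hT₂comm f
    · intro p q hp hq
      change _ * (p * q) = (p * q) * _
      rw [← mul_assoc, hp, mul_assoc, hq, mul_assoc]
    · simp
  obtain ⟨c, hc⟩ := scalar_of_comm_pure hm _ hT₂pure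
  -- the scalar is a pure tensor
  have hT₂mem : T₂ ∈ tensorWreathStandard m k F := by
    have hc0 : c ≠ 0 := by
      intro h0
      have h5 : IsUnit (T₂ : Matrix (Fin k → Fin m) (Fin k → Fin m) F) := T₂.isUnit
      rw [hc, h0, zero_smul] at h5
      haveI : Nonempty (Fin k → Fin m) := ⟨fun _ => ⟨0, hm⟩⟩
      exact not_isUnit_zero h5
    let i₀ : Fin k := ⟨0, hk⟩
    let Z : GL (Fin m) F := (Units.map (Matrix.scalar (Fin m) : F →+* Matrix (Fin m) (Fin m) F).toMonoidHom) (Units.mk0 c hc0)
    have hZ : (Z : Matrix (Fin m) (Fin m) F) = c • 1 := by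
      simp [Z, Matrix.smul_one_eq_diagonal]
    let gZ : Fin k → GL (Fin m) F := Pi.mulSingle i₀ Z
    refine Subgroup.subset_closure (Or.inl ⟨gZ, fun x y => ?_⟩)
    rw [hc]
    have h6 : (fun i => (gZ i : Matrix (Fin m) (Fin m) F)) = Pi.mulSingle i₀ (c • 1) := by
      funext i
      by_cases hi : i = i₀
      · subst hi
        simp [gZ, hZ]
      · simp [gZ, Pi.mulSingle_eq_of_ne hi]
    have h7 : ∏ i, (gZ i : Matrix (Fin m) (Fin m) F) (x i) (y i) =
        pure (Pi.mulSingle i₀ (c • 1)) x y := by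
      rw [← h6]
      rfl
    rw [h7]
    change _ = emb i₀ (c • 1) x y
    rw [emb_smul, emb_one]
  have hfinal : T = g₀ * (A * T₂) := by
    simp [T₂, T₁]
  rw [hfinal]
  exact Subgroup.mul_mem _ hg₀ (Subgroup.mul_mem _ hA hT₂mem)

end TS2

end Cfsg.Agent.Lib.Asch.TS
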