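import Mathlib
import Cfsg.Agent.Lib.Asch.GT
import Cfsg.Agent.Lib.Asch.H1
import Cfsg.Agent.Lib.Asch.TS

/-!
# The tensor induced case
-/

set_option autoImplicit false

namespace Cfsg.Agent.Lib.Asch.Ten

open Matrix Module Cfsg Cfsg.Geo
open Cfsg.Agent.Lib.Asch.Basic Cfsg.Agent.Lib.Asch.GT Cfsg.Agent.Lib.Asch.H1 Cfsg.Agent.Lib.Asch.Semi
  Cfsg.Agent.Lib.Asch.Kr Cfsg.Agent.Lib.Asch.TD Cfsg.Agent.Lib.Asch.TS Cfsg.Agent.Lib.Asch.Cl

open scoped commutatorElement

universe u

variable {ι : Type} [Fintype ι] [DecidableEq ι] {F : Type u} [Field F] {a b : ℕ}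

theorem kr_add_left (e : ι ≃ Fin a × Fin b) (X X' : Matrix (Fin a) (Fin a) F) (Y : Matrix (Fin b) (Fin b) F) :
    kr e (X + X') Y = kr e X Y + kr e X' Y := by
  ext i j
  simp only [kr_apply, Matrix.add_apply, add_mul]

theorem kr_smul_left (e : ι ≃ Fin a × Fin b) (c : F) (X : Matrix (Fin a) (Fin a) F) (Y : Matrix (Fin b) (Fin b) F) :
    kr e (c • X) Y = c • kr e X Y := by
  ext i j
  simp only [kr_apply, Matrix.smul_apply, smul_eq_mul, mul_assoc]

/-- The representation on a tensor factor, conjugated by `Q`. -/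
noncomputable def phiA (e : ι ≃ Fin a × Fin b) (Q : GL ι F) : Matrix (Fin a) (Fin a) F →ₐ[F] Matrix ι ι F :=
  AlgHom.ofLinearMap
    { toFun := fun X => (Q : Matrix ι ι F) * kr e X 1 * ((Q⁻¹ : GL ι F) : Matrix ι ι F)
      map_add' := fun X Y => by rw [kr_add_left, mul_add, add_mul]
      map_smul' := fun c X => by
        rw [kr_smul_left, mul_smul_comm, smul_mul_assoc]
        rfl }
    (by
      simp only [LinearMap.coe_mk, AddHom.coe_mk]
      rw [kr_one, mul_one, ← Units.val_mul, mul_inv_cancel, Units.val_one])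
    (fun X Y => by
      simp only [LinearMap.coe_mk, AddHom.coe_mk]
      have h1 : ((Q⁻¹ : GL ι F) : Matrix ι ι F) * (Q : Matrix ι ι F) = 1 := by
        rw [← Units.val_mul, inv_mul_cancel, Units.val_one]
      have h2 : kr e (X * Y) 1 = kr e X 1 * kr e Y 1 := by
        rw [kr_mul, mul_one]
      rw [h2]
      calc (Q : Matrix ι ι F) * (kr e X 1 * kr e Y 1) * ((Q⁻¹ : GL ι F) : Matrix ι ι F)
          = (Q : Matrix ι ι F) * kr e X 1 * 1 * kr e Y 1 * ((Q⁻¹ : GL ι F) : Matrix ι ι F) := by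
            simp only [mul_assoc, one_mul]
        _ = _ := by
            rw [← h1]
            simp only [mul_assoc])

theorem phiA_apply (e : ι ≃ Fin a × Fin b) (Q : GL ι F) (X : Matrix (Fin a) (Fin a) F) :
    phiA e Q X = (Q : Matrix ι ι F) * kr e X 1 * ((Q⁻¹ : GL ι F) : Matrix ι ι F) := rfl

theorem conj_of_kr (e : ι ≃ Fin a × Fin b) (P h x : GL ι F) (X : Matrix (Fin a) (Fin a) F)
    (hx : (x : Matrix ι ι F) * (P : Matrix ι ι F) = (P : Matrix ι ι F) * kr e X 1) :
    phiA e (h * P) X = ((h * x * h⁻¹ : GL ι F) : Matrix ι ι F) := by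
  have h1 : (P : Matrix ι ι F) * kr e X 1 * ((P⁻¹ : GL ι F) : Matrix ι ι F) = x := by
    rw [← hx, mul_assoc, ← Units.val_mul, mul_inv_cancel, Units.val_one, mul_one]
  rw [phiA_apply, _root_.mul_inv_rev, Units.val_mul, Units.val_mul, Units.val_mul, Units.val_mul, ← h1]
  simp only [mul_assoc]

variable [Fintype F] {n : ℕ}

theorem le_scalars_of_dim_one {b : ℕ} (hn : 0 < n) (e : Fin n ≃ Fin 1 × Fin b) (P : GL (Fin n) F)
    (ρ : Matrix (Fin n) (Fin n) F → Matrix (Fin 1) (Fin 1) F) (N : Subgroup (GL (Fin n) F))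
    (h : ∀ x ∈ N, (x : Matrix (Fin n) (Fin n) F) * (P : Matrix (Fin n) (Fin n) F) = (P : Matrix (Fin n) (Fin n) F) * kr e (ρ x) 1) :
    N ≤ scalars (Fin n) F := by
  haveI : Nonempty (Fin n) := ⟨⟨0, hn⟩⟩
  intro x hx
  have hiP : (P : Matrix (Fin n) (Fin n) F) * ((P⁻¹ : GL (Fin n) F) : Matrix (Fin n) (Fin n) F) = 1 := by
    rw [← Units.val_mul, mul_inv_cancel, Units.val_one]
  have h1 := h x hx
  rw [kr_one_scalar, Matrix.mul_smul, mul_one] at h1
  have h2 : (x : Matrix (Fin n) (Fin n) F) = ρ x 0 0 • 1 := by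
    have := congrArg (· * ((P⁻¹ : GL (Fin n) F) : Matrix (Fin n) (Fin n) F)) h1
    simp only [mul_assoc, hiP, mul_one, Matrix.smul_mul] at this
    exact this
  have h3 : ρ x 0 0 ≠ 0 := by
    intro h0
    have h4 : (x : Matrix (Fin n) (Fin n) F) = 0 := by rw [h2, h0, zero_smul]
    have h5 : IsUnit (x : Matrix (Fin n) (Fin n) F) := x.isUnit
    rw [h4] at h5
    exact not_isUnit_zero h5
  rw [mem_scalars_iff]
  exact ⟨Units.mk0 _ h3, h2⟩

theorem cj_bot {G : Type*} [Group G] (h : G) : cj h (⊥ : Subgroup G) = ⊥ := Subgroup.map_bot _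

theorem commute_of_commutator_eq_bot {G : Type*} [Group G] {A B : Subgroup G} (h : ⁅A, B⁆ = ⊥) {x y : G} (hx : x ∈ A) (hy : y ∈ B) :
    x * y = y * x := by
  have h3 := Subgroup.commutator_eq_bot_iff_le_centralizer.1 h hx
  exact (Subgroup.mem_centralizer_iff.1 h3 y hy).symm

/-- The tensor induced case leads to a member of the classes. -/
theorem tensor_case (hn : 3 ≤ n) (H : Subgroup (GL (Fin n) F)) (hNo : ∀ M, InLinearClass n F M → ¬ H ≤ M)
    (M T : Subgroup (GL (Fin n) F)) (hMn : HN H M) (hMZ : ¬ M ≤ scalars (Fin n) F)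
    (hTn : HN M T) (hTZ : ¬ T ≤ scalars (Fin n) F)
    (hF : ∀ h ∈ H, cj h T = T ∨ ⁅T, cj h T⁆ = ⊥) (hG : (⨆ h : H, cj (h : GL (Fin n) F) T) = M)
    (hne : ∃ h ∈ H, cj h T ≠ T) : False := by
  classical
  haveI hne0 : Nonempty (Fin n) := ⟨⟨0, by omega⟩⟩
  have hMA := (normal_dichotomy hn H hNo M hMn).resolve_left hMZ
  set S := matrixSet T with hS
  haveI hss : IsSemisimpleModule (AT S) (Fin n → F) := semisimple_of_irred M T hMA.1 hTn
  have hcomm2 : ∀ h ∈ H, ∀ h' ∈ H, cj h T ≠ cj h' T → ⁅cj h T, cj h' T⁆ = ⊥ := by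
    intro h hh h' hh' hne
    have hne' : cj (h⁻¹ * h') T ≠ T := by
      intro e
      apply hne
      rw [cj_mul] at e
      have := congrArg (cj h) e
      rw [cj_cj_inv] at this
      exact this.symm
    rcases hF (h⁻¹ * h') (H.mul_mem (H.inv_mem hh) hh') with h1 | h1
    · exact absurd h1 hne'
    · have := congrArg (cj h) h1
      rw [cj_commutator, ← cj_mul, mul_inv_cancel_left, cj_bot] at this
      exact this
  -- the centre of the commutant is scalar
  have hscal : ∀ k ∈ Kc S, ∃ c : F, k = c • 1 := by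
    intro k hk
    obtain ⟨hk1, hk2⟩ := mem_Kc.1 hk
    apply hMA.2 k
    let Ck : Subgroup (GL (Fin n) F) :=
      { carrier := {g | k * (g : Matrix (Fin n) (Fin n) F) = (g : Matrix (Fin n) (Fin n) F) * k}
        mul_mem' := fun {x y} hx hy => by
          change k * ((x * y : GL (Fin n) F) : Matrix (Fin n) (Fin n) F) = ((x * y : GL (Fin n) F) : Matrix (Fin n) (Fin n) F) * k
          have hx' : k * (x : Matrix (Fin n) (Fin n) F) = (x : Matrix (Fin n) (Fin n) F) * k := hx
          have hy' : k * (y : Matrix (Fin n) (Fin n) F) = (y : Matrix (Fin n) (Fin n) F) * k := hy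
          rw [Units.val_mul, ← mul_assoc, hx', mul_assoc, hy', mul_assoc]
        one_mem' := by
          change k * ((1 : GL (Fin n) F) : Matrix (Fin n) (Fin n) F) = ((1 : GL (Fin n) F) : Matrix (Fin n) (Fin n) F) * k
          simp
        inv_mem' := fun {x} hx => by
          change k * ((x⁻¹ : GL (Fin n) F) : Matrix (Fin n) (Fin n) F) = ((x⁻¹ : GL (Fin n) F) : Matrix (Fin n) (Fin n) F) * k
          have hx' : k * (x : Matrix (Fin n) (Fin n) F) = (x : Matrix (Fin n) (Fin n) F) * k := hx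
          have h1 : ((x⁻¹ : GL (Fin n) F) : Matrix (Fin n) (Fin n) F) * (x : Matrix (Fin n) (Fin n) F) = 1 := by
            rw [← Units.val_mul, inv_mul_cancel, Units.val_one]
          have h2 : (x : Matrix (Fin n) (Fin n) F) * ((x⁻¹ : GL (Fin n) F) : Matrix (Fin n) (Fin n) F) = 1 := by
            rw [← Units.val_mul, mul_inv_cancel, Units.val_one]
          calc k * ((x⁻¹ : GL (Fin n) F) : Matrix (Fin n) (Fin n) F)
              = ((x⁻¹ : GL (Fin n) F) : Matrix (Fin n) (Fin n) F) * ((x : Matrix (Fin n) (Fin n) F) * k) * ((x⁻¹ : GL (Fin n) F) : Matrix (Fin n) (Fin n) F) := by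
                rw [← mul_assoc, h1, one_mul]
            _ = ((x⁻¹ : GL (Fin n) F) : Matrix (Fin n) (Fin n) F) * k * ((x : Matrix (Fin n) (Fin n) F) * ((x⁻¹ : GL (Fin n) F) : Matrix (Fin n) (Fin n) F)) := by
                rw [← hx']
                simp only [mul_assoc]
            _ = _ := by rw [h2, mul_one] }
    have hMle : M ≤ Ck := by
      rw [← hG]
      refine iSup_le fun h => ?_
      intro y hy
      rcases hF h h.2 with h1 | h1
      · rw [h1] at hy
        exact (hk1 _ ⟨y, hy, rfl⟩).symm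
      · refine (hk2 (y : Matrix (Fin n) (Fin n) F) ?_).symm
        rintro _ ⟨x, hx, rfl⟩
        have h2 := commute_of_commutator_eq_bot h1 hx hy
        rw [← Units.val_mul, ← Units.val_mul, h2]
    rintro _ ⟨x, hx, rfl⟩
    exact hMle hx
  have hiso : IsIsotypic (AT S) (Fin n → F) := by
    by_contra hc
    obtain ⟨e, he, hee, he0, he1⟩ := exists_idem_of_not_isotypic hc
    obtain ⟨c, rfl⟩ := hscal e he
    have h1 : (c * c) • (1 : Matrix (Fin n) (Fin n) F) = c • 1 := by
      rw [mul_smul]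
      simpa [Matrix.smul_mul] using hee
    have h2 : c * c = c := by
      have := congrFun (congrFun h1 ⟨0, by omega⟩) ⟨0, by omega⟩
      simpa using this
    have hc0 : c ≠ 0 := by
      rintro rfl
      exact he0 (zero_smul _ _)
    have hc1 : c ≠ 1 := by
      rintro rfl
      exact he1 (one_smul _ _)
    apply hc1
    have h3 : c * (c - 1) = 0 := by linear_combination h2
    exact sub_eq_zero.1 ((mul_eq_zero.1 h3).resolve_left hc0)
  obtain ⟨a, b, e, P, ρ, hTD⟩ := exists_TD hiso hscal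
  have hcardn : n = a * b := by
    have := Fintype.card_congr e
    simpa using this
  have ha0 : 0 < a := by
    rcases Nat.eq_zero_or_pos a with rfl | h
    · omega
    · exact h
  haveI hNa : Nonempty (Fin a) := ⟨⟨0, ha0⟩⟩
  have hconjT : ∀ x ∈ T, (x : Matrix (Fin n) (Fin n) F) * (P : Matrix (Fin n) (Fin n) F) = (P : Matrix (Fin n) (Fin n) F) * kr e (ρ x) 1 :=
    fun x hx => hTD.conj _ ⟨x, hx, rfl⟩
  have ha1 : a ≠ 1 := by
    rintro rfl
    exact hTZ (le_scalars_of_dim_one (by omega) e P ρ T hconjT)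
  -- conjugates
  let 𝒞 : Type u := {C : Subgroup (GL (Fin n) F) // ∃ h ∈ H, cj h T = C}
  haveI h𝒞fin : Finite 𝒞 := inferInstance
  let k := Nat.card 𝒞
  let cc : 𝒞 ≃ Fin k := Finite.equivFin 𝒞
  have hexi : ∀ i : Fin k, ∃ h ∈ H, cj h T = (cc.symm i).1 := fun i => (cc.symm i).2
  choose hi hhi hci using hexi
  have hk2 : 2 ≤ k := by
    obtain ⟨h, hh, hne'⟩ := hne
    haveI : Nontrivial 𝒞 := ⟨⟨⟨T, 1, H.one_mem, cj_one T⟩, ⟨cj h T, h, hh, rfl⟩, fun h1 => hne' (congrArg Subtype.val h1).symm⟩⟩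
    exact Finite.one_lt_card
  have hcinj : ∀ i j, i ≠ j → cj (hi i) T ≠ cj (hi j) T := by
    intro i j hij heq
    apply hij
    apply cc.symm.injective
    apply Subtype.ext
    rw [← hci, ← hci, heq]
  let Q : Fin k → GL (Fin n) F := fun i => hi i * P
  let φ : Fin k → (Matrix (Fin a) (Fin a) F →ₐ[F] Matrix (Fin n) (Fin n) F) := fun i => phiA e (Q i)
  have hφρ : ∀ i, ∀ x ∈ T, φ i (ρ x) = ((hi i * x * (hi i)⁻¹ : GL (Fin n) F) : Matrix (Fin n) (Fin n) F) :=
    fun i x hx => conj_of_kr e P (hi i) x _ (hconjT x hx)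
  -- generation
  have hadj := adjoin_eq_top hTD.abs
  have hind : ∀ p : Matrix (Fin a) (Fin a) F → Prop, (∀ x ∈ T, p (ρ x)) → (∀ c : F, p (algebraMap F _ c)) →
      (∀ x y, p x → p y → p (x + y)) → (∀ x y, p x → p y → p (x * y)) → ∀ X, p X := by
    intro p hgen hc hadd hmul X
    have hX : X ∈ Algebra.adjoin F (ρ '' S) := by rw [hadj]; trivial
    induction hX using Algebra.adjoin_induction with
    | mem z hz =>
      obtain ⟨_, ⟨x, hx, rfl⟩, rfl⟩ := hz
      exact hgen x hx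
    | algebraMap c => exact hc c
    | add x y _ _ hx hy => exact hadd x y hx hy
    | mul x y _ _ hx hy => exact hmul x y hx hy
  have hφcomm : ∀ i j, i ≠ j → ∀ X Y, φ i X * φ j Y = φ j Y * φ i X := by
    intro i j hij X
    have hbot := hcomm2 _ (hhi i) _ (hhi j) (hcinj i j hij)
    refine hind (fun X => ∀ Y, φ i X * φ j Y = φ j Y * φ i X) ?_ ?_ ?_ ?_ X
    · intro x hx Y
      refine hind (fun Y => φ i (ρ x) * φ j Y = φ j Y * φ i (ρ x)) ?_ ?_ ?_ ?_ Y
      · intro y hy
        rw [hφρ i x hx, hφρ j y hy, ← Units.val_mul, ← Units.val_mul]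
        rw [commute_of_commutator_eq_bot hbot (conj_mem_cj hx) (conj_mem_cj hy)]
      · intro c
        rw [AlgHom.commutes]
        exact (Algebra.commutes c _).symm
      · intro y z hy hz
        rw [map_add, mul_add, add_mul, hy, hz]
      · intro y z hy hz
        rw [map_mul, ← mul_assoc, hy, mul_assoc, hz, mul_assoc]
    · intro c Y
      rw [AlgHom.commutes]
      exact Algebra.commutes c _
    · intro x y hx hy Y
      rw [map_add, add_mul, mul_add, hx, hy]
    · intro x y hx hy Y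
      rw [map_mul, mul_assoc, hy, ← mul_assoc, hx, mul_assoc]
  have hc : Pairwise fun i j => ∀ x y, Commute ((φ i : Matrix (Fin a) (Fin a) F →* Matrix (Fin n) (Fin n) F) x) ((φ j : Matrix (Fin a) (Fin a) F →* Matrix (Fin n) (Fin n) F) y) :=
    fun i j hij x y => hφcomm i j hij x y
  -- the span
  have hspan : Submodule.span F (Set.range (PiP φ hc)) = ⊤ := by
    rw [eq_top_iff, ← span_matrixSet_eq_top hMA, Submodule.span_le]
    set R := Submodule.span F (Set.range (PiP φ hc)) with hR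
    have hRmul : ∀ x ∈ R, ∀ y ∈ R, x * y ∈ R := by
      intro x hx y hy
      have h1 : R * R ≤ R := by
        rw [hR, Submodule.span_mul_span]
        apply Submodule.span_mono
        rintro _ ⟨_, ⟨f, rfl⟩, _, ⟨g, rfl⟩, rfl⟩
        exact ⟨f * g, map_mul _ f g⟩
      exact h1 (Submodule.mul_mem_mul hx hy)
    have hRφ : ∀ i X, φ i X ∈ R := by
      intro i X
      apply Submodule.subset_span
      exact ⟨Pi.mulSingle i X, PiP_single φ hc i X⟩
    have hMR : ∀ x ∈ M, (x : Matrix (Fin n) (Fin n) F) ∈ R := by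
      intro x hx
      rw [← hG] at hx
      induction hx using Subgroup.iSup_induction' with
      | hp h y hy =>
        -- an element of a conjugate
        have h1 : cj (h : GL (Fin n) F) T ∈ Set.range fun i => cj (hi i) T := by
          obtain ⟨i, hi'⟩ := cc.symm.surjective ⟨cj (h : GL (Fin n) F) T, h, h.2, rfl⟩
          refine ⟨i, ?_⟩
          simp only
          rw [hci, hi']
        obtain ⟨i, hi'⟩ := h1
        simp only at hi'
        rw [← hi'] at hy
        obtain ⟨t, ht, rfl⟩ := hy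
        have h2 := hRφ i (ρ t)
        rw [hφρ i t ht] at h2
        exact h2
      | h1 =>
        apply Submodule.subset_span
        exact ⟨1, map_one _⟩
      | hmul x y _ _ hx hy =>
        rw [Units.val_mul]
        exact hRmul _ hx _ hy
    rintro _ ⟨x, hx, rfl⟩
    exact hMR x hx
  obtain ⟨L, hL⟩ := exists_L φ hc ha0 hspan
  have hcard : Fintype.card (Fin n) = Fintype.card (Fin k → Fin a) := by
    have := LinearEquiv.finrank_eq L
    simpa using this.symm
  let e₂ : Fin n ≃ (Fin k → Fin a) := Fintype.equivOfCardEq hcard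
  obtain ⟨P₂, hP₂⟩ := exists_gl_of_equiv e₂ L
  have hφP₂ : ∀ i X, φ i X * (P₂ : Matrix (Fin n) (Fin n) F) = (P₂ : Matrix (Fin n) (Fin n) F) * (emb i X).submatrix e₂ e₂ := by
    intro i X
    apply Matrix.ext_of_mulVec_single
    intro j
    set y : Fin n → F := Pi.single j 1 with hy
    have hy2 : y = (y ∘ e₂.symm) ∘ e₂ := by
      funext l
      simp
    rw [← Matrix.mulVec_mulVec, ← Matrix.mulVec_mulVec, hy2, hP₂, hL, Matrix.submatrix_mulVec_equiv]
    rw [Function.comp_assoc, Equiv.self_comp_symm, Function.comp_id]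
    rw [hP₂]
  -- the conjugation action
  have hσ : ∀ h ∈ H, ∃ σ : Equiv.Perm (Fin k), ∀ i, cj (hi (σ i)) T = cj h (cj (hi i) T) := by
    intro h hh
    let pc : 𝒞 ≃ 𝒞 :=
      { toFun := fun C => ⟨cj h C.1, by
          obtain ⟨g, hg, hC⟩ := C.2
          exact ⟨h * g, H.mul_mem hh hg, by rw [cj_mul, hC]⟩⟩
        invFun := fun C => ⟨cj h⁻¹ C.1, by
          obtain ⟨g, hg, hC⟩ := C.2
          exact ⟨h⁻¹ * g, H.mul_mem (H.inv_mem hh) hg, by rw [cj_mul, hC]⟩⟩
        left_inv := fun C => Subtype.ext (cj_inv_cj h C.1)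
        right_inv := fun C => Subtype.ext (cj_cj_inv h C.1) }
    refine ⟨cc.symm.trans (pc.trans cc), fun i => ?_⟩
    rw [hci, hci]
    simp [pc]
  have hconj : ∀ h ∈ H, ∀ i j, cj (hi j) T = cj h (cj (hi i) T) → ∀ X, ∃ X',
      (h : Matrix (Fin n) (Fin n) F) * φ i X = φ j X' * (h : Matrix (Fin n) (Fin n) F) := by
    intro h hh i j hij X
    refine hind (fun X => ∃ X', (h : Matrix (Fin n) (Fin n) F) * φ i X = φ j X' * (h : Matrix (Fin n) (Fin n) F)) ?_ ?_ ?_ ?_ X
    · intro x hx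
      -- the conjugate
      have h1 : h * (hi i * x * (hi i)⁻¹) * h⁻¹ ∈ cj (hi j) T := by
        rw [hij]
        exact conj_mem_cj (conj_mem_cj hx)
      obtain ⟨t, ht, ht'⟩ := h1
      refine ⟨ρ t, ?_⟩
      rw [hφρ i x hx, hφρ j t ht]
      have h2 : hi j * t * (hi j)⁻¹ = h * (hi i * x * (hi i)⁻¹) * h⁻¹ := ht'
      rw [h2, ← Units.val_mul, ← Units.val_mul]
      congr 1
      group
    · intro c
      refine ⟨algebraMap F _ c, ?_⟩
      rw [AlgHom.commutes, AlgHom.commutes]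
      exact Algebra.commutes c _ |>.symm
    · rintro x y ⟨x', hx⟩ ⟨y', hy⟩
      refine ⟨x' + y', ?_⟩
      rw [map_add, map_add, mul_add, add_mul, hx, hy]
    · rintro x y ⟨x', hx⟩ ⟨y', hy⟩
      refine ⟨x' * y', ?_⟩
      rw [map_mul, map_mul, ← mul_assoc, hx, mul_assoc, hy, mul_assoc]
  -- membership in the tensor wreath subgroup
  have hle : H ≤ tensorWreathSubgroup a k e₂ P₂ := by
    intro h hh
    rw [mem_tensorWreathSubgroup_iff]
    obtain ⟨σ, hσ'⟩ := hσ h hh
    let g : GL (Fin k → Fin a) F := glReindex e₂ (P₂⁻¹ * h * P₂)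
    have hgv : (g : Matrix (Fin k → Fin a) (Fin k → Fin a) F).submatrix e₂ e₂ = ((P₂⁻¹ * h * P₂ : GL (Fin n) F) : Matrix (Fin n) (Fin n) F) := by
      ext u v
      simp [g, glReindex, Matrix.reindexAlgEquiv]
    refine ⟨g, ?_, ?_⟩
    · refine mem_standard_of_normalises ha0 (by omega) g σ fun i Y => ?_
      obtain ⟨Y', hY'⟩ := hconj h hh i (σ i) (hσ' i) Y
      refine ⟨Y', ?_⟩
      -- transport to the submatrix level
      have hsub : Function.Injective (fun X : Matrix (Fin k → Fin a) (Fin k → Fin a) F => X.submatrix e₂ e₂) := by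
        intro X X' h1
        have := congrArg (fun W => W.submatrix e₂.symm e₂.symm) h1
        simpa using this
      apply hsub
      simp only
      rw [← Matrix.submatrix_mul_equiv _ _ _ e₂, ← Matrix.submatrix_mul_equiv _ _ _ e₂, hgv]
      have hPi : ((P₂⁻¹ : GL (Fin n) F) : Matrix (Fin n) (Fin n) F) * (P₂ : Matrix (Fin n) (Fin n) F) = 1 := by
        rw [← Units.val_mul, inv_mul_cancel, Units.val_one]
      have hiP : (P₂ : Matrix (Fin n) (Fin n) F) * ((P₂⁻¹ : GL (Fin n) F) : Matrix (Fin n) (Fin n) F) = 1 := by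
        rw [← Units.val_mul, mul_inv_cancel, Units.val_one]
      have h1 : (emb i Y).submatrix e₂ e₂ = ((P₂⁻¹ : GL (Fin n) F) : Matrix (Fin n) (Fin n) F) * φ i Y * (P₂ : Matrix (Fin n) (Fin n) F) := by
        rw [mul_assoc, hφP₂, ← mul_assoc, hPi, one_mul]
      have h2 : (emb (σ i) Y').submatrix e₂ e₂ = ((P₂⁻¹ : GL (Fin n) F) : Matrix (Fin n) (Fin n) F) * φ (σ i) Y' * (P₂ : Matrix (Fin n) (Fin n) F) := by
        rw [mul_assoc, hφP₂, ← mul_assoc, hPi, one_mul]
      rw [h1, h2, Units.val_mul, Units.val_mul]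
      calc ((P₂⁻¹ : GL (Fin n) F) : Matrix (Fin n) (Fin n) F) * (h : Matrix (Fin n) (Fin n) F) * (P₂ : Matrix (Fin n) (Fin n) F) * (((P₂⁻¹ : GL (Fin n) F) : Matrix (Fin n) (Fin n) F) * φ i Y * (P₂ : Matrix (Fin n) (Fin n) F))
          = ((P₂⁻¹ : GL (Fin n) F) : Matrix (Fin n) (Fin n) F) * (h : Matrix (Fin n) (Fin n) F) * ((P₂ : Matrix (Fin n) (Fin n) F) * ((P₂⁻¹ : GL (Fin n) F) : Matrix (Fin n) (Fin n) F)) * φ i Y * (P₂ : Matrix (Fin n) (Fin n) F) := by
            simp only [mul_assoc]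
        _ = ((P₂⁻¹ : GL (Fin n) F) : Matrix (Fin n) (Fin n) F) * ((h : Matrix (Fin n) (Fin n) F) * φ i Y) * (P₂ : Matrix (Fin n) (Fin n) F) := by
            rw [hiP, mul_one, mul_assoc ((P₂⁻¹ : GL (Fin n) F) : Matrix (Fin n) (Fin n) F)]
        _ = ((P₂⁻¹ : GL (Fin n) F) : Matrix (Fin n) (Fin n) F) * (φ (σ i) Y' * (h : Matrix (Fin n) (Fin n) F)) * (P₂ : Matrix (Fin n) (Fin n) F) := by
            rw [hY']
        _ = ((P₂⁻¹ : GL (Fin n) F) : Matrix (Fin n) (Fin n) F) * φ (σ i) Y' * ((P₂ : Matrix (Fin n) (Fin n) F) * ((P₂⁻¹ : GL (Fin n) F) : Matrix (Fin n) (Fin n) F)) * (h : Matrix (Fin n) (Fin n) F) * (P₂ : Matrix (Fin n) (Fin n) F) := by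
            rw [hiP, mul_one]
            simp only [mul_assoc]
        _ = _ := by simp only [mul_assoc]
    · rw [hgv, ← Units.val_mul, ← Units.val_mul]
      congr 1
      group
  rcases Nat.lt_or_ge a 3 with ha3 | ha3
  · have ha2 : a = 2 := by omega
    subst ha2
    obtain ⟨M', hM', hle'⟩ := TW2.wreath_two_class hk2 e₂ P₂
    exact hNo M' hM' (hle.trans hle')
  · exact hNo _ (cl_wreath e₂ P₂ ha3 hk2) hle

end Cfsg.Agent.Lib.Asch.Ten
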