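import Mathlib
import Cfsg.Agent.Lib.Asch.H1
import Cfsg.Agent.Lib.Elusive.SpIndex

/-!
# Forms fixed by an absolutely irreducible group normalised by a group
-/

set_option autoImplicit false

namespace Cfsg.Agent.Lib.Asch.Forms

open Matrix Module Cfsg Cfsg.Geo
open Cfsg.Agent.Lib.Asch.Cl

universe u

variable {ι : Type} [Fintype ι] [DecidableEq ι] {F : Type u} [Field F]

/-- Sesquilinear forms. -/
structure Sesq (σ : F ≃+* F) (f : (ι → F) → (ι → F) → F) : Prop where
  add_left : ∀ x y v, f (x + y) v = f x v + f y v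
  smul_left : ∀ (c : F) (x v : ι → F), f (c • x) v = c * f x v
  add_right : ∀ v x y, f v (x + y) = f v x + f v y
  smul_right : ∀ (c : F) (v x : ι → F), f v (c • x) = σ c * f v x

/-- The Gram matrix of a form. -/
def gram (f : (ι → F) → (ι → F) → F) : Matrix ι ι F := fun i j => f (Pi.single i 1) (Pi.single j 1)

theorem sum_single (u : ι → F) : u = ∑ i, u i • Pi.single i (1 : F) := by
  funext a
  simp [Finset.sum_apply, Pi.single_apply]

theorem eq_gram {σ : F ≃+* F} {f : (ι → F) → (ι → F) → F} (hf : Sesq σ f) (u v : ι → F) :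
    f u v = u ⬝ᵥ (gram f *ᵥ (σ ∘ v)) := by
  let fl : (ι → F) → ((ι → F) →+ F) := fun w => AddMonoidHom.mk' (fun x => f x w) (fun x y => hf.add_left x y w)
  let fr : (ι → F) → ((ι → F) →+ F) := fun w => AddMonoidHom.mk' (fun x => f w x) (fun x y => hf.add_right w x y)
  have h1 : f u v = ∑ i, u i * f (Pi.single i 1) v := by
    conv_lhs => rw [sum_single u]
    have := map_sum (fl v) (fun i => u i • (Pi.single i (1 : F) : ι → F)) Finset.univ
    change fl v _ = _
    rw [this]
    exact Finset.sum_congr rfl fun i _ => hf.smul_left _ _ _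
  have h2 : ∀ i, f (Pi.single i 1) v = ∑ j, σ (v j) * f (Pi.single i 1) (Pi.single j 1) := by
    intro i
    conv_lhs => rw [sum_single v]
    have := map_sum (fr (Pi.single i 1)) (fun j => v j • (Pi.single j (1 : F) : ι → F)) Finset.univ
    change fr (Pi.single i 1) _ = _
    rw [this]
    exact Finset.sum_congr rfl fun j _ => hf.smul_right _ _ _
  rw [h1]
  simp only [dotProduct, Matrix.mulVec, gram, h2, Function.comp_apply]
  refine Finset.sum_congr rfl fun i _ => ?_
  congr 1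
  exact Finset.sum_congr rfl fun j _ => mul_comm _ _

theorem comp_mulVec (σ : F ≃+* F) (s : Matrix ι ι F) (v : ι → F) :
    σ ∘ (s *ᵥ v) = s.map σ *ᵥ (σ ∘ v) := by
  funext i
  simp [Matrix.mulVec, dotProduct, map_sum, map_mul]

theorem comp_single (σ : F ≃+* F) (i : ι) : σ ∘ (Pi.single i (1 : F)) = Pi.single i (1 : F) := by
  funext j
  by_cases h : j = i
  · subst h
    simp
  · simp [Pi.single_eq_of_ne h]

/-- The Gram matrix of the form moved by a matrix. -/
theorem gram_comp {σ : F ≃+* F} {f : (ι → F) → (ι → F) → F} (hf : Sesq σ f) (s : Matrix ι ι F) :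
    gram (fun u v => f (s *ᵥ u) (s *ᵥ v)) = sᵀ * gram f * s.map σ := by
  ext i j
  have h1 : f (s *ᵥ Pi.single i 1) (s *ᵥ Pi.single j 1) =
      (Pi.single i (1 : F)) ⬝ᵥ ((sᵀ * gram f * s.map σ) *ᵥ Pi.single j 1) := by
    rw [eq_gram hf, comp_mulVec, comp_single, ← Matrix.mulVec_mulVec, ← Matrix.mulVec_mulVec,
      Matrix.dotProduct_mulVec (Pi.single i (1 : F)), Matrix.vecMul_transpose]
  change f (s *ᵥ Pi.single i 1) (s *ᵥ Pi.single j 1) = _
  rw [h1, single_one_dotProduct, Matrix.mulVec_single_one]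
  rfl

theorem gram_unit {σ : F ≃+* F} {f : (ι → F) → (ι → F) → F} (hf : Sesq σ f) (hnd : IsNondegenerateForm f) :
    IsUnit (gram f) := by
  apply (Matrix.mulVec_injective_iff_isUnit).1
  change Function.Injective (Matrix.mulVecLin (gram f))
  rw [injective_iff_map_eq_zero (Matrix.mulVecLin (gram f))]
  intro w hw
  have hw' : gram f *ᵥ w = 0 := hw
  by_contra hw0
  -- `w = σ ∘ v`
  let v : ι → F := σ.symm ∘ w
  have hv : σ ∘ v = w := by
    funext i
    simp [v]
  have hv0 : v ≠ 0 := by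
    intro h0
    apply hw0
    rw [← hv, h0]
    funext i
    simp
  obtain ⟨⟨x, hx⟩, -⟩ := hnd v hv0
  apply hx
  rw [eq_gram hf, hv, hw', dotProduct_zero]

/-- Two sesquilinear forms fixed by an absolutely irreducible set of matrices are proportional. -/
theorem forms_proportional {σ : F ≃+* F} {f G : (ι → F) → (ι → F) → F} (hf : Sesq σ f) (hG : Sesq σ G)
    (hnd : IsNondegenerateForm f) {S : Set (Matrix ι ι F)} (hA : ActsAbsolutelyIrreducibly S)
    (hfixf : FixesForm S f) (hfixG : FixesForm S G) : ∃ c : F, ∀ u v, G u v = c * f u v := by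
  have hAu := gram_unit hf hnd
  obtain ⟨Au, hAu'⟩ := hAu
  set A := gram f with hAdef
  set C := gram G with hCdef
  set Ai : Matrix ι ι F := ((Au⁻¹ : (Matrix ι ι F)ˣ) : Matrix ι ι F) with hAi
  have hAiA : Ai * A = 1 := by
    rw [hAi, ← hAu', ← Units.val_mul, inv_mul_cancel, Units.val_one]
  have hAAi : A * Ai = 1 := by
    rw [hAi, ← hAu', ← Units.val_mul, mul_inv_cancel, Units.val_one]
  have hsA : ∀ s ∈ S, sᵀ * A * s.map σ = A := by
    intro s hs
    rw [hAdef, ← gram_comp hf]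
    congr 1
    funext u v
    exact hfixf s hs u v
  have hsC : ∀ s ∈ S, sᵀ * C * s.map σ = C := by
    intro s hs
    rw [hCdef, ← gram_comp hG]
    congr 1
    funext u v
    exact hfixG s hs u v
  set D := C * Ai with hD
  have hDcomm : ∀ s ∈ S, sᵀ * D = D * sᵀ := by
    intro s hs
    have h1 : (Ai * sᵀ * A) * s.map σ = 1 := by
      calc (Ai * sᵀ * A) * s.map σ = Ai * (sᵀ * A * s.map σ) := by simp only [mul_assoc]
        _ = 1 := by rw [hsA s hs, hAiA]
    have h2 : s.map σ * (Ai * sᵀ * A) = 1 := mul_eq_one_comm.1 h1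
    have h3 : s.map σ * Ai * sᵀ = Ai := by
      calc s.map σ * Ai * sᵀ = s.map σ * (Ai * sᵀ * A) * Ai := by
            simp only [mul_assoc]
            rw [hAAi, mul_one]
        _ = Ai := by rw [h2, one_mul]
    calc sᵀ * D = sᵀ * C * (s.map σ * Ai * sᵀ) := by
          rw [h3, hD]
          simp only [mul_assoc]
      _ = (sᵀ * C * s.map σ) * Ai * sᵀ := by simp only [mul_assoc]
      _ = D * sᵀ := by rw [hsC s hs]
  obtain ⟨c, hc⟩ := hA.2 Dᵀ (fun s hs => by
    have := congrArg Matrix.transpose (hDcomm s hs)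
    simp only [Matrix.transpose_mul, Matrix.transpose_transpose] at this
    exact this)
  have hD2 : D = c • 1 := by
    have := congrArg Matrix.transpose hc
    simpa using this
  have hCA : C = c • A := by
    calc C = D * A := by rw [hD, mul_assoc, hAiA, mul_one]
      _ = c • A := by rw [hD2, Matrix.smul_mul, one_mul]
  refine ⟨c, fun u v => ?_⟩
  rw [eq_gram hG, eq_gram hf, ← hCdef, ← hAdef, hCA, Matrix.smul_mulVec, dotProduct_smul, smul_eq_mul]

variable {n : ℕ}

/-- Consequence for a group normalising an absolutely irreducible group. -/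
theorem sim_of_fix {σ : F ≃+* F} {f : (Fin n → F) → (Fin n → F) → F} (hf : Sesq σ f) (hnd : IsNondegenerateForm f)
    (hn : 0 < n) {H P₀ : Subgroup (GL (Fin n) F)} (hA : ActsAbsolutelyIrreducibly (matrixSet P₀))
    (hN : ∀ h ∈ H, ∀ x ∈ P₀, h * x * h⁻¹ ∈ P₀) (hfix : FixesForm (matrixSet P₀) f) {h : GL (Fin n) F} (hh : h ∈ H) :
    h ∈ similarityGroup f := by
  set G : (Fin n → F) → (Fin n → F) → F := fun u v => f ((h : Matrix (Fin n) (Fin n) F) *ᵥ u) ((h : Matrix (Fin n) (Fin n) F) *ᵥ v) with hG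
  have hGS : Sesq σ G := by
    refine ⟨fun x y v => ?_, fun c x v => ?_, fun v x y => ?_, fun c v x => ?_⟩
    · simp only [hG, Matrix.mulVec_add, hf.add_left]
    · simp only [hG, Matrix.mulVec_smul, hf.smul_left]
    · simp only [hG, Matrix.mulVec_add, hf.add_right]
    · simp only [hG, Matrix.mulVec_smul, hf.smul_right]
  have hfixG : FixesForm (matrixSet P₀) G := by
    rintro _ ⟨x, hx, rfl⟩ u v
    have h1 := hfix _ ⟨_, hN h hh x hx, rfl⟩ ((h : Matrix (Fin n) (Fin n) F) *ᵥ u) ((h : Matrix (Fin n) (Fin n) F) *ᵥ v)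
    have h2 : ∀ w : Fin n → F, (h : Matrix (Fin n) (Fin n) F) *ᵥ ((x : Matrix (Fin n) (Fin n) F) *ᵥ w) =
        ((h * x * h⁻¹ : GL (Fin n) F) : Matrix (Fin n) (Fin n) F) *ᵥ ((h : Matrix (Fin n) (Fin n) F) *ᵥ w) := by
      intro w
      rw [Matrix.mulVec_mulVec, Matrix.mulVec_mulVec, ← Units.val_mul, ← Units.val_mul]
      simp
    simp only [hG]
    rw [h2, h2]
    exact h1
  obtain ⟨c, hc⟩ := forms_proportional hf hGS hnd hA hfix hfixG
  -- `c` is non-zero
  have hc0 : c ≠ 0 := by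
    rintro rfl
    let v₀ : Fin n → F := Pi.single ⟨0, hn⟩ 1
    have hv₀ : v₀ ≠ 0 := by
      intro h0
      have := congrFun h0 ⟨0, hn⟩
      simp [v₀] at this
    obtain ⟨⟨x, hx⟩, -⟩ := hnd v₀ hv₀
    apply hx
    have h1 := hc (((h⁻¹ : GL (Fin n) F) : Matrix (Fin n) (Fin n) F) *ᵥ x) (((h⁻¹ : GL (Fin n) F) : Matrix (Fin n) (Fin n) F) *ᵥ v₀)
    simp only [hG, Matrix.mulVec_mulVec, ← Units.val_mul, mul_inv_cancel, Units.val_one, Matrix.one_mulVec, zero_mul] at h1
    exact h1
  exact ⟨Units.mk0 c hc0, hc⟩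

variable [Fintype F]

theorem symp_class (hn : 3 ≤ n) {f : (Fin n → F) → (Fin n → F) → F} (hf : IsSymplecticForm f) :
    InLinearClass n F (similarityGroup f) := by
  have hev : Even n := by
    have := Cfsg.Agent.Lib.Elusive.SpIndex.even_finrank_of_nondeg (Cfsg.Agent.Lib.Elusive.SpIndex.toBilin hf)
      (Cfsg.Agent.Lib.Elusive.SpIndex.toBilin_isAlt hf) (Cfsg.Agent.Lib.Elusive.SpIndex.toBilin_nondegOn hf)
    simpa using this
  refine cl_symp hf hev ?_
  obtain ⟨a, rfl⟩ := hev
  omega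

theorem no_symp (hn : 3 ≤ n) {H P₀ : Subgroup (GL (Fin n) F)} (hA : ActsAbsolutelyIrreducibly (matrixSet P₀))
    (hN : ∀ h ∈ H, ∀ x ∈ P₀, h * x * h⁻¹ ∈ P₀) {f : (Fin n → F) → (Fin n → F) → F} (hf : IsSymplecticForm f)
    (hfix : FixesForm (matrixSet P₀) f) : ∃ M, InLinearClass n F M ∧ H ≤ M := by
  refine ⟨_, symp_class hn hf, fun h hh => ?_⟩
  have hS : Sesq (RingEquiv.refl F) f :=
    ⟨hf.bilinear.add_left, hf.bilinear.smul_left, hf.bilinear.add_right, hf.bilinear.smul_right⟩
  exact sim_of_fix hS hf.nondegenerate (by omega) hA hN hfix hh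

theorem no_unit (hn : 3 ≤ n) {H P₀ : Subgroup (GL (Fin n) F)} (hA : ActsAbsolutelyIrreducibly (matrixSet P₀))
    (hN : ∀ h ∈ H, ∀ x ∈ P₀, h * x * h⁻¹ ∈ P₀) {σ : F ≃+* F} {f : (Fin n → F) → (Fin n → F) → F} (hf : IsUnitaryForm σ f)
    (hfix : FixesForm (matrixSet P₀) f) : ∃ M, InLinearClass n F M ∧ H ≤ M := by
  refine ⟨_, cl_unit hf hn, fun h hh => ?_⟩
  have hS : Sesq σ f :=
    ⟨hf.add_left, hf.smul_left, fun v x y => by rw [hf.herm, hf.add_left, map_add, ← hf.herm, ← hf.herm],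
      fun c v x => by rw [hf.herm, hf.smul_left, map_mul, ← hf.herm]⟩
  exact sim_of_fix hS hf.nondegenerate (by omega) hA hN hfix hh

theorem no_quad (hn : 3 ≤ n) {H P₀ : Subgroup (GL (Fin n) F)} (hA : ActsAbsolutelyIrreducibly (matrixSet P₀))
    (hN : ∀ h ∈ H, ∀ x ∈ P₀, h * x * h⁻¹ ∈ P₀) {Q : (Fin n → F) → F} (hQ : IsNondegenerateQuadraticForm Q)
    (hfix : FixesQuadForm (matrixSet P₀) Q) : ∃ M, InLinearClass n F M ∧ H ≤ M := by
  classical
  set f := QuadraticMap.polar Q with hf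
  have hS : Sesq (RingEquiv.refl F) f :=
    ⟨hQ.polar_bilinear.add_left, hQ.polar_bilinear.smul_left, hQ.polar_bilinear.add_right, hQ.polar_bilinear.smul_right⟩
  have hfixf : FixesForm (matrixSet P₀) f := by
    intro s hs u v
    simp only [hf, QuadraticMap.polar]
    rw [← Matrix.mulVec_add, hfix s hs, hfix s hs, hfix s hs]
  have hsim : ∀ h ∈ H, h ∈ similarityGroup f := fun h hh =>
    sim_of_fix hS hQ.nondegenerate (by omega) hA hN hfixf hh
  have hdiag : ∀ v, f v v = 2 * Q v := by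
    intro v
    have h1 : v + v = (2 : F) • v := by
      rw [two_smul]
    simp only [hf, QuadraticMap.polar]
    rw [h1, hQ.smul]
    ring
  by_cases hc2 : ringChar F = 2
  · -- characteristic two: the polar form is symplectic
    have h2 : (2 : F) = 0 := by
      have := ringChar.Nat.cast_ringChar (R := F)
      rw [hc2] at this
      exact_mod_cast this
    have hneg : ∀ x : F, -x = x := fun x => by
      have : x + x = 0 := by linear_combination x * h2
      linear_combination -this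
    have hf' : IsSymplecticForm f := by
      refine ⟨hQ.polar_bilinear, fun v w => ?_, fun v => ?_, hQ.nondegenerate⟩
      · rw [hneg]
        exact QuadraticMap.polar_comm Q v w
      · rw [hdiag, h2, zero_mul]
    exact ⟨_, symp_class hn hf', hsim⟩
  · have h2ne : (2 : F) ≠ 0 := Ring.two_ne_zero hc2
    have hodd : Odd (Fintype.card F) := Nat.odd_iff.2 (FiniteField.odd_card_of_char_ne_two hc2)
    refine ⟨_, cl_quad hQ hodd hn, fun h hh => ?_⟩
    obtain ⟨c, hc⟩ := hsim h hh
    refine ⟨c, fun v => ?_⟩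
    have h3 := hc v v
    rw [hdiag, hdiag] at h3
    apply mul_left_cancel₀ h2ne
    rw [h3]
    ring

end Cfsg.Agent.Lib.Asch.Forms
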