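import Mathlib
import Cfsg.Agent.Lib.Asch.GT
import Cfsg.Agent.Lib.Asch.Desc
import Cfsg.Agent.Lib.Asch.Forms

/-!
# The almost simple case: the residual class
-/

set_option autoImplicit false

namespace Cfsg.Agent.Lib.Asch.Res

open Matrix Module Cfsg Cfsg.Geo
open Cfsg.Agent.Lib.Asch.Basic Cfsg.Agent.Lib.Asch.GT Cfsg.Agent.Lib.Asch.H1

open scoped commutatorElement

universe u

variable {ι : Type} [Fintype ι] [DecidableEq ι] {F : Type u} [Field F]

theorem scalars_le_center : scalars ι F ≤ Subgroup.center (GL ι F) := by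
  intro g hg
  rw [Subgroup.mem_center_iff]
  intro x
  obtain ⟨c, hc⟩ := (mem_scalars_iff g).1 hg
  apply Units.ext
  rw [Units.val_mul, Units.val_mul, hc, Matrix.smul_mul, Matrix.mul_smul, one_mul, mul_one]

/-- A commutator with a subgroup generated by elements. -/
theorem commutator_zpowers_le {G : Type*} [Group G] {Z : Subgroup G} (hZ : Z ≤ Subgroup.center G) {A : Subgroup G} {h : G}
    (hh : ∀ a ∈ A, ⁅a, h⁆ ∈ Z) : ⁅A, Subgroup.zpowers h⁆ ≤ Z := by
  haveI := normal_of_central hZ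
  rw [Subgroup.commutator_le]
  rintro a ha _ ⟨k, rfl⟩
  simp only
  induction k using Int.induction_on with
  | zero => simp
  | succ k ih =>
    rw [_root_.zpow_add_one, commutatorElement_mul_right_eq_mul_conj]
    have h1 := hh a ha
    have h2 := ‹Z.Normal›.conj_mem _ h1 (h ^ (k : ℤ))
    rw [mul_assoc, mul_assoc, ← mul_assoc (h ^ (k : ℤ))]
    exact Z.mul_mem ih h2
  | pred k ih =>
    rw [_root_.zpow_sub_one, commutatorElement_mul_right_eq_mul_conj]
    have h1 : ⁅a, h⁻¹⁆ ∈ Z := by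
      rw [commutatorElement_inv_right, ← commutatorElement_inv]
      have h2 := ‹Z.Normal›.conj_mem _ (Z.inv_mem (hh a ha)) h⁻¹
      simpa using h2
    have h2 := ‹Z.Normal›.conj_mem _ h1 (h ^ (-(k : ℤ)))
    rw [mul_assoc, mul_assoc, ← mul_assoc (h ^ (-(k : ℤ)))]
    exact Z.mul_mem ih h2

variable [Fintype F] {n : ℕ}

/-- The residual class in the simple case. -/
theorem residual_of_simple (hn : 3 ≤ n) (H : Subgroup (GL (Fin n) F)) (hNo : ∀ M, InLinearClass n F M → ¬ H ≤ M)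
    (M : Subgroup (GL (Fin n) F)) (hMH : M ≤ H) (hMn : HN H M) (hMZ : ¬ M ≤ scalars (Fin n) F) (hMperf : ⁅M, M⁆ = M)
    (hsimple : ∀ T, HN M T → M ⊓ scalars (Fin n) F ≤ T → T ≤ M → T = M ⊓ scalars (Fin n) F ∨ T = M) :
    InLinearResidualClass H := by
  classical
  have hA : ActsAbsolutelyIrreducibly (matrixSet M) := (normal_dichotomy hn H hNo M hMn).resolve_left hMZ
  set Z := scalars (Fin n) F with hZ
  have hZc : Z ≤ Subgroup.center (GL (Fin n) F) := scalars_le_center
  let K : Subgroup M := Z.subgroupOf M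
  have hKmem : ∀ x : M, x ∈ K ↔ (x : GL (Fin n) F) ∈ Z := fun x => Subgroup.mem_subgroupOf
  haveI hKn : K.Normal := by
    refine ⟨fun x hx g => ?_⟩
    rw [hKmem] at hx ⊢
    have := (normal_of_central hZc).conj_mem _ hx g
    simpa using this
  refine ⟨M, ⟨hMH, hMn, hMperf, ?_, ?_, ?_, hA, ?_⟩, ?_, ?_, ?_⟩
  · -- simple
    have hnt : Nontrivial (M ⧸ K) := by
      obtain ⟨x, hxM, hxZ⟩ := Set.not_subset.1 hMZ
      refine ⟨⟨QuotientGroup.mk ⟨x, hxM⟩, 1, ?_⟩⟩
      intro h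
      apply hxZ
      have := (QuotientGroup.eq_one_iff _).1 h
      exact (hKmem _).1 this
    refine @IsSimpleGroup.mk _ _ hnt ?_
    intro N hN
    let N₀ : Subgroup M := N.comap (QuotientGroup.mk' K)
    let T : Subgroup (GL (Fin n) F) := N₀.map M.subtype
    have hTM : T ≤ M := Subgroup.map_subtype_le N₀
    have hTmem : ∀ x : M, (x : GL (Fin n) F) ∈ T ↔ (QuotientGroup.mk x : M ⧸ K) ∈ N := by
      intro x
      constructor
      · rintro ⟨y, hy, hyx⟩
        have : y = x := Subtype.ext hyx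
        rw [← this]
        exact hy
      · intro hx
        exact ⟨x, hx, rfl⟩
    have hTn : HN M T := by
      intro m hm x hx
      obtain ⟨y, hy, rfl⟩ := hx
      have h1 : (QuotientGroup.mk y : M ⧸ K) ∈ N := hy
      have h2 := hN.conj_mem _ h1 (QuotientGroup.mk ⟨m, hm⟩)
      have h3 : (QuotientGroup.mk (⟨m, hm⟩ * y * (⟨m, hm⟩ : M)⁻¹) : M ⧸ K) ∈ N := by
        simpa using h2
      exact (hTmem _).2 h3
    have hZT : M ⊓ Z ≤ T := by
      rintro x ⟨hxM, hxZ⟩
      have h1 : (⟨x, hxM⟩ : M) ∈ K := (hKmem _).2 hxZ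
      have h2 : (QuotientGroup.mk (⟨x, hxM⟩ : M) : M ⧸ K) = 1 := (QuotientGroup.eq_one_iff _).2 h1
      have := (hTmem ⟨x, hxM⟩).2 (by rw [h2]; exact N.one_mem)
      exact this
    rcases hsimple T hTn hZT hTM with h | h
    · left
      rw [eq_bot_iff]
      intro q hq
      obtain ⟨x, rfl⟩ := QuotientGroup.mk_surjective q
      have h1 : (x : GL (Fin n) F) ∈ T := (hTmem x).2 hq
      rw [h] at h1
      exact (Subgroup.mem_bot).2 ((QuotientGroup.eq_one_iff _).2 ((hKmem x).2 h1.2))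
    · right
      rw [eq_top_iff]
      intro q _
      obtain ⟨x, rfl⟩ := QuotientGroup.mk_surjective q
      have h1 : (x : GL (Fin n) F) ∈ T := by rw [h]; exact x.2
      exact (hTmem x).1 h1
  · -- non-abelian
    intro hcomm
    apply hMZ
    rw [← hMperf, Subgroup.commutator_le]
    intro x hx y hy
    have h1 : (QuotientGroup.mk ⟨x, hx⟩ : M ⧸ K) * QuotientGroup.mk ⟨y, hy⟩ = QuotientGroup.mk ⟨y, hy⟩ * QuotientGroup.mk ⟨x, hx⟩ :=
      hcomm.is_comm.comm _ _
    have h2 : (QuotientGroup.mk (⟨x, hx⟩ * ⟨y, hy⟩ * (⟨x, hx⟩ : M)⁻¹ * (⟨y, hy⟩ : M)⁻¹) : M ⧸ K) = 1 := by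
      simp only [QuotientGroup.mk_mul, QuotientGroup.mk_inv]
      rw [h1]
      group
    have h3 := (hKmem _).1 ((QuotientGroup.eq_one_iff _).1 h2)
    exact h3
  · -- centraliser
    intro h hh hc
    have h1 : ⁅M, Subgroup.zpowers h⁆ ≤ Z := commutator_zpowers_le hZc (by
      intro a ha
      have h2 := Z.inv_mem (hc a ha)
      rw [commutatorElement_def]
      simpa [mul_assoc] using h2)
    have h2 := commutator_eq_bot_of_perfect hZc hMperf h1
    obtain ⟨c, hc'⟩ := hA.2 (h : Matrix (Fin n) (Fin n) F) (by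
      rintro _ ⟨x, hx, rfl⟩
      have h3 := Subgroup.commutator_eq_bot_iff_le_centralizer.1 h2 hx
      have h4 := Subgroup.mem_centralizer_iff.1 h3 h (Subgroup.mem_zpowers h)
      have h5 : (h : Matrix (Fin n) (Fin n) F) * (x : Matrix (Fin n) (Fin n) F) = (x : Matrix (Fin n) (Fin n) F) * (h : Matrix (Fin n) (Fin n) F) := by
        rw [← Units.val_mul, ← Units.val_mul, h4]
      exact h5)
    have hc0 : c ≠ 0 := by
      rintro rfl
      haveI : Nonempty (Fin n) := ⟨⟨0, by omega⟩⟩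
      have h5 : IsUnit (h : Matrix (Fin n) (Fin n) F) := h.isUnit
      rw [hc', zero_smul] at h5
      exact not_isUnit_zero h5
    rw [mem_scalars_iff]
    exact ⟨Units.mk0 c hc0, hc'⟩
  · -- no subfield
    intro F₀ hF₀ hR
    obtain ⟨M', hM', hle⟩ := Desc.subfield_class (by omega) H M hA hMn F₀ hF₀ hR
    exact hNo M' hM' hle
  · rintro ⟨Q, hQ, hfix⟩
    obtain ⟨M', hM', hle⟩ := Forms.no_quad hn hA hMn hQ hfix
    exact hNo M' hM' hle
  · rintro ⟨f, hf, hfix⟩
    obtain ⟨M', hM', hle⟩ := Forms.no_symp hn hA hMn hf hfix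
    exact hNo M' hM' hle
  · rintro ⟨σ, f, hf, hfix⟩
    obtain ⟨M', hM', hle⟩ := Forms.no_unit hn hA hMn hf hfix
    exact hNo M' hM' hle

end Cfsg.Agent.Lib.Asch.Res
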