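import Mathlib
import Cfsg.Agent.Lib.Asch.Res

/-!
# Absolutely irreducible groups with scalar commutators
-/

set_option autoImplicit false

namespace Cfsg.Agent.Lib.Asch.SC

open Matrix Module Cfsg Cfsg.Geo
open Cfsg.Agent.Lib.Asch.Basic Cfsg.Agent.Lib.Asch.Res

universe u

variable {ι : Type} [Fintype ι] [DecidableEq ι] {F : Type u} [Field F]

/-- The commutators are scalars. -/
def ScC (R : Subgroup (GL ι F)) : Prop :=
  ∀ x ∈ R, ∀ y ∈ R, ∃ c : F, (x : Matrix ι ι F) * (y : Matrix ι ι F) = c • ((y : Matrix ι ι F) * (x : Matrix ι ι F))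

theorem ScC.mono {R R' : Subgroup (GL ι F)} (h : R' ≤ R) (hR : ScC R) : ScC R' :=
  fun x hx y hy => hR x (h hx) y (h hy)

/-- An element commuting with an absolutely irreducible group is scalar. -/
theorem mem_scalars_of_comm [Nonempty ι] {R : Subgroup (GL ι F)} (hA : ActsAbsolutelyIrreducibly (matrixSet R)) {x : GL ι F}
    (h : ∀ y ∈ R, x * y = y * x) : x ∈ scalars ι F := by
  obtain ⟨c, hc⟩ := hA.2 (x : Matrix ι ι F) (by
    rintro _ ⟨y, hy, rfl⟩
    rw [← Units.val_mul, ← Units.val_mul, h y hy])
  have hc0 : c ≠ 0 := by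
    rintro rfl
    have h5 : IsUnit (x : Matrix ι ι F) := x.isUnit
    rw [hc, zero_smul] at h5
    exact not_isUnit_zero h5
  rw [mem_scalars_iff]
  exact ⟨Units.mk0 c hc0, hc⟩

theorem comm_of_mem_scalars {x y : GL ι F} (hx : x ∈ scalars ι F) : x * y = y * x :=
  (Subgroup.mem_center_iff.1 (scalars_le_center hx) y).symm

/-- Non-scalar elements have trace zero. -/
theorem trace_eq_zero [Nonempty ι] {R : Subgroup (GL ι F)} (hA : ActsAbsolutelyIrreducibly (matrixSet R)) (hSC : ScC R)
    {x : GL ι F} (hx : x ∈ R) (hxZ : x ∉ scalars ι F) : Matrix.trace (x : Matrix ι ι F) = 0 := by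
  by_contra ht
  apply hxZ
  apply mem_scalars_of_comm hA
  intro y hy
  obtain ⟨c, hc⟩ := hSC x hx y hy
  have hiy : (y : Matrix ι ι F) * ((y⁻¹ : GL ι F) : Matrix ι ι F) = 1 := by
    rw [← Units.val_mul, mul_inv_cancel, Units.val_one]
  have h1 : (x : Matrix ι ι F) = c • ((y : Matrix ι ι F) * (x : Matrix ι ι F) * ((y⁻¹ : GL ι F) : Matrix ι ι F)) := by
    calc (x : Matrix ι ι F) = (x : Matrix ι ι F) * (y : Matrix ι ι F) * ((y⁻¹ : GL ι F) : Matrix ι ι F) := by
          rw [mul_assoc, hiy, mul_one]
      _ = _ := by rw [hc, Matrix.smul_mul]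
  have h2 : Matrix.trace ((y : Matrix ι ι F) * (x : Matrix ι ι F) * ((y⁻¹ : GL ι F) : Matrix ι ι F)) = Matrix.trace (x : Matrix ι ι F) := by
    rw [Matrix.trace_mul_comm, ← mul_assoc, ← Units.val_mul, inv_mul_cancel, Units.val_one, one_mul]
  have h3 := congrArg Matrix.trace h1
  rw [Matrix.trace_smul, h2, smul_eq_mul] at h3
  have hc1 : c = 1 := by
    have h4 : (c - 1) * Matrix.trace (x : Matrix ι ι F) = 0 := by linear_combination -h3
    exact sub_eq_zero.1 ((mul_eq_zero.1 h4).resolve_right ht)
  apply Units.ext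
  rw [Units.val_mul, Units.val_mul, hc, hc1, one_smul]

/-- The dimension is non-zero in the field. -/
theorem card_ne_zero [Nonempty ι] {R : Subgroup (GL ι F)} (hA : ActsAbsolutelyIrreducibly (matrixSet R)) (hSC : ScC R) :
    (Fintype.card ι : F) ≠ 0 := by
  classical
  intro hn
  have htr : ∀ x ∈ R, Matrix.trace (x : Matrix ι ι F) = 0 := by
    intro x hx
    by_cases hxZ : x ∈ scalars ι F
    · obtain ⟨c, hc⟩ := (mem_scalars_iff x).1 hxZ
      rw [hc, Matrix.trace_smul, Matrix.trace_one, hn, smul_zero]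
    · exact trace_eq_zero hA hSC hx hxZ
  have hspan := span_matrixSet_eq_top hA
  have h1 : ∀ X : Matrix ι ι F, ∀ y ∈ R, Matrix.trace (X * (y : Matrix ι ι F)) = 0 := by
    intro X y hy
    have hX : X ∈ Submodule.span F (matrixSet R) := by rw [hspan]; trivial
    induction hX using Submodule.span_induction with
    | mem z hz =>
      obtain ⟨x, hx, rfl⟩ := hz
      simp only
      rw [← Units.val_mul]
      exact htr _ (R.mul_mem hx hy)
    | zero => simp
    | add a b _ _ ha hb => rw [add_mul, Matrix.trace_add, ha, hb, add_zero]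
    | smul c a _ ha => rw [Matrix.smul_mul, Matrix.trace_smul, ha, smul_zero]
  have h2 : ∀ X Y : Matrix ι ι F, Matrix.trace (X * Y) = 0 := by
    intro X Y
    have hY : Y ∈ Submodule.span F (matrixSet R) := by rw [hspan]; trivial
    induction hY using Submodule.span_induction with
    | mem z hz =>
      obtain ⟨y, hy, rfl⟩ := hz
      exact h1 X y hy
    | zero => simp
    | add a b _ _ ha hb => rw [mul_add, Matrix.trace_add, ha, hb, add_zero]
    | smul c a _ ha => rw [Matrix.mul_smul, Matrix.trace_smul, ha, smul_zero]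
  obtain ⟨i⟩ := ‹Nonempty ι›
  have h3 := h2 (Matrix.single i i 1) (Matrix.single i i 1)
  simp [Matrix.trace_single_eq_same] at h3

/-- The centre of an absolutely irreducible group. -/
theorem center_eq [Nonempty ι] {R : Subgroup (GL ι F)} (hA : ActsAbsolutelyIrreducibly (matrixSet R)) :
    Subgroup.center R = (scalars ι F).subgroupOf R := by
  ext x
  rw [Subgroup.mem_center_iff, Subgroup.mem_subgroupOf]
  constructor
  · intro h
    apply mem_scalars_of_comm hA
    intro y hy
    have := h ⟨y, hy⟩
    exact (congrArg Subtype.val this).symm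
  · intro h y
    exact Subtype.ext (by
      have := comm_of_mem_scalars (x := (x : GL ι F)) (y := (y : GL ι F)) h
      exact this.symm)

/-- The order of an absolutely irreducible group with scalar commutators. -/
theorem card_eq [Nonempty ι] [Finite F] {R : Subgroup (GL ι F)} (hA : ActsAbsolutelyIrreducibly (matrixSet R)) (hSC : ScC R) :
    Nat.card R = Nat.card (Subgroup.center R) * (Fintype.card ι) ^ 2 := by
  classical
  haveI : Fintype F := Fintype.ofFinite F
  have hn := card_ne_zero hA hSC
  rw [center_eq hA]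
  set K := (scalars ι F).subgroupOf R with hK
  haveI hKn : K.Normal := by
    refine ⟨fun x hx g => ?_⟩
    rw [hK, Subgroup.mem_subgroupOf] at hx ⊢
    have := (Cfsg.Agent.Lib.Asch.GT.normal_of_central scalars_le_center).conj_mem _ hx g
    simpa using this
  let t : R ⧸ K → Matrix ι ι F := fun q => (((Quotient.out q : R) : GL ι F) : Matrix ι ι F)
  have hmk : ∀ q : R ⧸ K, (QuotientGroup.mk (Quotient.out q : R) : R ⧸ K) = q := fun q => Quotient.out_eq q
  -- independence
  have hli : LinearIndependent F t := by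
    rw [Fintype.linearIndependent_iff]
    intro c hc q₀
    have h1 := congrArg (fun X => Matrix.trace (X * (((Quotient.out q₀ : R) : GL ι F)⁻¹ : GL ι F).1)) hc
    simp only [Finset.sum_mul, Matrix.trace_sum, Matrix.smul_mul, Matrix.trace_smul, zero_mul, Matrix.trace_zero] at h1
    rw [Finset.sum_eq_single q₀] at h1
    · have h2 : t q₀ * (((Quotient.out q₀ : R) : GL ι F)⁻¹ : GL ι F).1 = 1 := by
        simp only [t]
        rw [← Units.val_mul, mul_inv_cancel, Units.val_one]
      rw [h2, Matrix.trace_one, smul_eq_mul] at h1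
      exact (mul_eq_zero.1 h1).resolve_right hn
    · intro q _ hq
      have h3 : ((Quotient.out q : R) : GL ι F) * ((Quotient.out q₀ : R) : GL ι F)⁻¹ ∉ scalars ι F := by
        intro hZ
        apply hq
        have h7 : (QuotientGroup.mk (Quotient.out q : R) : R ⧸ K) = QuotientGroup.mk (Quotient.out q₀ : R) := by
          refine QuotientGroup.eq.2 (Subgroup.mem_subgroupOf.2 ?_)
          have h4 := (scalars ι F).inv_mem hZ
          have h5 := (Cfsg.Agent.Lib.Asch.GT.normal_of_central scalars_le_center).conj_mem _ h4 (((Quotient.out q : R) : GL ι F)⁻¹)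
          simpa [mul_assoc] using h5
        rw [hmk, hmk] at h7
        exact h7
      have h6 := trace_eq_zero hA hSC (R.mul_mem (Quotient.out q : R).2 (R.inv_mem (Quotient.out q₀ : R).2)) h3
      simp only [t]
      rw [← Units.val_mul, h6, smul_zero]
    · simp
  -- spanning
  have hsp : ⊤ ≤ Submodule.span F (Set.range t) := by
    rw [← span_matrixSet_eq_top hA, Submodule.span_le]
    rintro _ ⟨x, hx, rfl⟩
    let x' : R := ⟨x, hx⟩
    have h1 : (QuotientGroup.mk (Quotient.out (QuotientGroup.mk x' : R ⧸ K)) : R ⧸ K) = QuotientGroup.mk x' := hmk _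
    have h1 := Subgroup.mem_subgroupOf.1 (QuotientGroup.eq.1 h1)
    obtain ⟨c, hc⟩ := (mem_scalars_iff _).1 h1
    set y : R := Quotient.out (QuotientGroup.mk x' : R ⧸ K) with hy
    have h2 : (x : Matrix ι ι F) = (c : F) • (((y : R) : GL ι F) : Matrix ι ι F) := by
      have h3 : ((y⁻¹ * x' : R) : GL ι F) = ((y : R) : GL ι F)⁻¹ * x := rfl
      rw [h3] at hc
      have h4 : x = ((y : R) : GL ι F) * (((y : R) : GL ι F)⁻¹ * x) := by simp
      conv_lhs => rw [h4]
      rw [Units.val_mul, hc, Matrix.mul_smul, mul_one]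
    change (x : Matrix ι ι F) ∈ Submodule.span F (Set.range t)
    rw [h2]
    exact Submodule.smul_mem _ _ (Submodule.subset_span ⟨_, rfl⟩)
  let bs : Basis (R ⧸ K) F (Matrix ι ι F) := Basis.mk hli hsp
  have hq : Nat.card (R ⧸ K) = (Fintype.card ι) ^ 2 := by
    have h1 := Module.finrank_eq_card_basis bs
    have h2 : Module.finrank F (Matrix ι ι F) = Fintype.card ι * Fintype.card ι := by
      simp [Module.finrank_matrix]
    rw [Nat.card_eq_fintype_card, ← h1, h2, sq]
  rw [Subgroup.card_eq_card_quotient_mul_card_subgroup K, hq, mul_comm]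

end Cfsg.Agent.Lib.Asch.SC
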