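import Mathlib
import Cfsg.Agent.Lib.Asch.SC

/-!
# The monomial model of an absolutely irreducible group with scalar commutators
-/

set_option autoImplicit false

namespace Cfsg.Agent.Lib.Asch.Mono

open Matrix Module Cfsg Cfsg.Geo Polynomial
open Cfsg.Agent.Lib.Asch.Basic Cfsg.Agent.Lib.Asch.Res Cfsg.Agent.Lib.Asch.SC Cfsg.Agent.Lib.Asch.TD

universe u

variable {ι : Type} [Fintype ι] [DecidableEq ι] {F : Type u} [Field F] [Fintype F]

theorem prod_X_sub_C_univ : ∏ c : F, (X - C c) = (X ^ Fintype.card F - X : F[X]) := by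
  have hq : 1 < Fintype.card F := Fintype.one_lt_card
  have hm : (X ^ Fintype.card F - X : F[X]).Monic := by
    apply Polynomial.monic_X_pow_sub
    simpa using hq
  have hr := FiniteField.roots_X_pow_card_sub_X F
  have h1 := Polynomial.prod_multiset_X_sub_C_of_monic_of_roots_card_eq hm (by
    rw [hr, FiniteField.X_pow_card_sub_X_natDegree_eq F hq]
    simp)
  rw [hr] at h1
  exact h1

omit [Fintype F] in
theorem aeval_mem (a : Matrix ι ι F) (W : Submodule F (ι → F)) (hW : ∀ v ∈ W, a *ᵥ v ∈ W) (f : F[X]) :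
    ∀ v ∈ W, aeval a f *ᵥ v ∈ W := by
  induction f using Polynomial.induction_on' with
  | add p q hp hq =>
    intro v hv
    rw [map_add, Matrix.add_mulVec]
    exact W.add_mem (hp v hv) (hq v hv)
  | monomial k c =>
    intro v hv
    rw [Polynomial.aeval_monomial, Algebra.algebraMap_eq_smul_one, Matrix.smul_mul, one_mul, Matrix.smul_mulVec]
    have h1 : ∀ k : ℕ, ∀ v ∈ W, (a ^ k) *ᵥ v ∈ W := by
      intro k
      induction k with
      | zero =>
        intro v hv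
        simpa using hv
      | succ k ih =>
        intro v hv
        rw [pow_succ, ← Matrix.mulVec_mulVec]
        exact ih _ (hW v hv)
    exact W.smul_mem c (h1 k v hv)

omit [Fintype F] in
theorem exists_eig_aux (a : Matrix ι ι F) (W : Submodule F (ι → F)) (hW : ∀ v ∈ W, a *ᵥ v ∈ W) (s : Finset F) :
    ∀ w ∈ W, w ≠ 0 → aeval a (∏ c ∈ s, (X - C c)) *ᵥ w = 0 → ∃ c : F, ∃ w' ∈ W, w' ≠ 0 ∧ a *ᵥ w' = c • w' := by
  classical
  induction s using Finset.induction_on with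
  | empty =>
    intro w _ hw h
    simp at h
    exact absurd h hw
  | insert c s hc ih =>
    intro w hwW hw h
    rw [Finset.prod_insert hc, map_mul, ← Matrix.mulVec_mulVec] at h
    set u := aeval a (∏ c ∈ s, (X - C c)) *ᵥ w with hu
    by_cases hu0 : u = 0
    · exact ih w hwW hw hu0
    · refine ⟨c, u, aeval_mem a W hW _ w hwW, hu0, ?_⟩
      simp only [map_sub, aeval_X, aeval_C, Matrix.sub_mulVec] at h
      rw [Algebra.algebraMap_eq_smul_one, Matrix.smul_mulVec, Matrix.one_mulVec] at h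
      exact sub_eq_zero.1 h

theorem exists_eig (a : Matrix ι ι F) (W : Submodule F (ι → F)) (hW : ∀ v ∈ W, a *ᵥ v ∈ W)
    (ha : a ^ Fintype.card F = a) (hne : W ≠ ⊥) : ∃ c : F, ∃ w' ∈ W, w' ≠ 0 ∧ a *ᵥ w' = c • w' := by
  classical
  obtain ⟨w, hwW, hw⟩ := Submodule.exists_mem_ne_zero_of_ne_bot hne
  refine exists_eig_aux a W hW Finset.univ w hwW hw ?_
  rw [prod_X_sub_C_univ]
  simp [ha]

/-- The monomial model. -/
theorem exists_monomial [Nonempty ι] {R : Subgroup (GL ι F)} (hA : ActsAbsolutelyIrreducibly (matrixSet R)) (hSC : ScC R)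
    {z : ℕ} (hz : z ∣ Fintype.card F - 1) (hx : ∀ x ∈ R, x ^ z = 1) :
    ∃ P : GL ι F, ∀ x ∈ R, ∀ i, ∃ j, ∃ d : F, d ^ z = 1 ∧
      (x : Matrix ι ι F) *ᵥ ((P : Matrix ι ι F) *ᵥ Pi.single i 1) = d • ((P : Matrix ι ι F) *ᵥ Pi.single j 1) := by
  classical
  have hq1 : 1 ≤ Fintype.card F := Fintype.card_pos
  have hq : ∀ x ∈ R, ((x : Matrix ι ι F)) ^ Fintype.card F = x := by
    intro x hx'
    obtain ⟨t, ht⟩ := hz
    have h1 : x ^ (Fintype.card F - 1) = 1 := by
      rw [ht, pow_mul, hx x hx', one_pow]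
    have h2 : x ^ Fintype.card F = x := by
      have h3 : Fintype.card F = (Fintype.card F - 1) + 1 := by omega
      rw [h3, pow_succ, h1, one_mul]
    have h4 := congrArg (fun g : GL ι F => (g : Matrix ι ι F)) h2
    simpa using h4
  -- a maximal abelian subgroup
  obtain ⟨A, hAmax'⟩ : ∃ A, Maximal (fun A : Subgroup (GL ι F) => A ≤ R ∧ ∀ a ∈ A, ∀ b ∈ A, a * b = b * a) A :=
    Set.Finite.exists_maximal (Set.toFinite {A : Subgroup (GL ι F) | A ≤ R ∧ ∀ a ∈ A, ∀ b ∈ A, a * b = b * a})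
      ⟨⊥, bot_le, fun a ha b hb => by
        rw [Subgroup.mem_bot] at ha hb
        rw [ha, hb]⟩
  obtain ⟨⟨hAR, hAcomm⟩, hAm⟩ := hAmax'
  have hAmax : ∀ x ∈ R, (∀ a ∈ A, x * a = a * x) → x ∈ A := by
    intro x hxR hxA
    let A' := A ⊔ Subgroup.zpowers x
    have h1 : A ≤ Subgroup.centralizer (A : Set (GL ι F)) := fun a ha =>
      Subgroup.mem_centralizer_iff.2 fun b hb => hAcomm b hb a ha
    have h2 : Subgroup.zpowers x ≤ Subgroup.centralizer (A : Set (GL ι F)) := by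
      rw [Subgroup.zpowers_le]
      exact Subgroup.mem_centralizer_iff.2 fun b hb => (hxA b hb).symm
    have h3 : A' ≤ Subgroup.centralizer (A : Set (GL ι F)) := sup_le h1 h2
    have h4 : A ≤ Subgroup.centralizer (A' : Set (GL ι F)) := Subgroup.le_centralizer_iff.1 h3
    have h5 : Subgroup.zpowers x ≤ Subgroup.centralizer (A' : Set (GL ι F)) := by
      apply Subgroup.le_centralizer_iff.1
      refine sup_le (Subgroup.le_centralizer_iff.1 h2) ?_
      exact Subgroup.le_centralizer (Subgroup.zpowers x)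
    have h6 : A' ≤ Subgroup.centralizer (A' : Set (GL ι F)) := sup_le h4 h5
    have hA' : A' ≤ R ∧ ∀ a ∈ A', ∀ b ∈ A', a * b = b * a := by
      refine ⟨sup_le hAR ((Subgroup.zpowers_le).2 hxR), fun a ha b hb => ?_⟩
      exact (Subgroup.mem_centralizer_iff.1 (h6 hb) a ha)
    have h7 := hAm hA' le_sup_left
    exact h7 (Subgroup.mem_sup_right (Subgroup.mem_zpowers x))
  -- a minimal invariant subspace
  haveI hfinS : Finite (Submodule F (ι → F)) :=
    Finite.of_injective (fun U => (U : Set (ι → F))) SetLike.coe_injective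
  obtain ⟨W, hWmin⟩ : ∃ W, Minimal (fun W : Submodule F (ι → F) => W ≠ ⊥ ∧ ∀ a ∈ A, ∀ v ∈ W, (a : Matrix ι ι F) *ᵥ v ∈ W) W :=
    Set.Finite.exists_minimal (Set.toFinite {W : Submodule F (ι → F) | W ≠ ⊥ ∧ ∀ a ∈ A, ∀ v ∈ W, (a : Matrix ι ι F) *ᵥ v ∈ W})
      ⟨⊤, top_ne_bot, fun _ _ _ _ => trivial⟩
  obtain ⟨⟨hWne, hWinv⟩, hWm⟩ := hWmin
  have hWsc : ∀ a ∈ A, ∃ c : F, ∀ w ∈ W, (a : Matrix ι ι F) *ᵥ w = c • w := by
    intro a ha
    obtain ⟨c, w₁, hw₁, hw₁0, hac⟩ := exists_eig (a : Matrix ι ι F) W (hWinv a ha) (hq a (hAR ha)) hWne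
    refine ⟨c, ?_⟩
    let W' : Submodule F (ι → F) := W ⊓ LinearMap.ker ((a : Matrix ι ι F) - c • 1).mulVecLin
    have hW'mem : ∀ v, v ∈ W' ↔ v ∈ W ∧ (a : Matrix ι ι F) *ᵥ v = c • v := by
      intro v
      simp only [W', Submodule.mem_inf, LinearMap.mem_ker, Matrix.mulVecLin_apply, Matrix.sub_mulVec,
        Matrix.smul_mulVec, Matrix.one_mulVec, sub_eq_zero]
    have hW'P : W' ≠ ⊥ ∧ ∀ b ∈ A, ∀ v ∈ W', (b : Matrix ι ι F) *ᵥ v ∈ W' := by
      constructor
      · intro h0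
        have : w₁ ∈ W' := (hW'mem _).2 ⟨hw₁, hac⟩
        rw [h0] at this
        exact hw₁0 (by simpa using this)
      · intro b hb v hv
        obtain ⟨hv1, hv2⟩ := (hW'mem v).1 hv
        refine (hW'mem _).2 ⟨hWinv b hb v hv1, ?_⟩
        rw [Matrix.mulVec_mulVec, ← Units.val_mul, hAcomm a ha b hb, Units.val_mul, ← Matrix.mulVec_mulVec, hv2, Matrix.mulVec_smul]
    have hle := hWm hW'P inf_le_left
    intro w hw
    exact ((hW'mem w).1 (hle hw)).2
  obtain ⟨v₀, hv₀W, hv₀⟩ := Submodule.exists_mem_ne_zero_of_ne_bot hWne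
  have hχ : ∀ a ∈ A, ∃ c : F, c ^ z = 1 ∧ c ≠ 0 ∧ (a : Matrix ι ι F) *ᵥ v₀ = c • v₀ := by
    intro a ha
    obtain ⟨c, hc⟩ := hWsc a ha
    have h1 := hc v₀ hv₀W
    have h2 : ∀ k : ℕ, ((a ^ k : GL ι F) : Matrix ι ι F) *ᵥ v₀ = c ^ k • v₀ := by
      intro k
      induction k with
      | zero => simp
      | succ k ih =>
        rw [pow_succ, Units.val_mul, ← Matrix.mulVec_mulVec, h1, Matrix.mulVec_smul, ih, smul_smul, pow_succ, mul_comm]
    have h3 := h2 z
    rw [hx a (hAR ha)] at h3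
    simp only [Units.val_one, Matrix.one_mulVec] at h3
    have hcz : c ^ z = 1 := by
      have h4 : (c ^ z - 1) • v₀ = 0 := by
        rw [sub_smul, one_smul, ← h3, sub_self]
      exact sub_eq_zero.1 ((smul_eq_zero.1 h4).resolve_right hv₀)
    have hc0 : c ≠ 0 := by
      rintro rfl
      have h5 : (a : Matrix ι ι F) *ᵥ v₀ = 0 := by rw [h1, zero_smul]
      have h6 : ((a⁻¹ : GL ι F) : Matrix ι ι F) *ᵥ ((a : Matrix ι ι F) *ᵥ v₀) = v₀ := by
        rw [Matrix.mulVec_mulVec, ← Units.val_mul, inv_mul_cancel, Units.val_one, Matrix.one_mulVec]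
      rw [h5, Matrix.mulVec_zero] at h6
      exact hv₀ h6.symm
    exact ⟨c, hcz, hc0, h1⟩
  -- the orbit spans
  let s : Set (ι → F) := (fun x : GL ι F => (x : Matrix ι ι F) *ᵥ v₀) '' (R : Set (GL ι F))
  have hspan : Submodule.span F s = ⊤ := by
    rcases (irr_iff _).1 hA.1 (Submodule.span F s) (by
      rintro _ ⟨y, hy, rfl⟩ v hv
      have h1 : Submodule.span F s ≤ (Submodule.span F s).comap (Matrix.toLin' (y : Matrix ι ι F)) := by
        rw [Submodule.span_le]
        rintro _ ⟨x, hx', rfl⟩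
        apply Submodule.subset_span
        refine ⟨y * x, R.mul_mem hy hx', ?_⟩
        simp only [Units.val_mul, Matrix.toLin'_apply, Matrix.mulVec_mulVec]
      have h2 := h1 hv
      simpa only [Submodule.mem_comap, Matrix.toLin'_apply] using h2) with h0 | h1
    · exfalso
      have h2 : v₀ ∈ Submodule.span F s := Submodule.subset_span ⟨1, R.one_mem, by simp⟩
      rw [h0] at h2
      exact hv₀ (by simpa using h2)
    · exact h1
  obtain ⟨b, hbs, hbspan, hbli⟩ := exists_linearIndependent F s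
  have hbtop : ⊤ ≤ Submodule.span F (Set.range ((↑) : b → (ι → F))) := by
    rw [Subtype.range_coe, hbspan, hspan]
  let bs₀ : Basis b F (ι → F) := Basis.mk hbli hbtop
  let eb : ι ≃ b := (Pi.basisFun F ι).indexEquiv bs₀
  let bi : Basis ι F (ι → F) := bs₀.reindex eb.symm
  have hbi : ∀ i, ∃ x ∈ R, (x : Matrix ι ι F) *ᵥ v₀ = bi i := by
    intro i
    have h1 : bi i = ((eb i : b) : ι → F) := by
      simp [bi, bs₀, Basis.mk_apply]
    rw [h1]
    obtain ⟨x, hx', hxe⟩ := hbs (eb i).2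
    exact ⟨x, hx', hxe⟩
  choose xs hxs hxsb using hbi
  obtain ⟨P, hP⟩ := exists_gl_of_equiv (Equiv.refl ι) bi.equivFun.symm
  have hPb : ∀ i, (P : Matrix ι ι F) *ᵥ Pi.single i 1 = bi i := by
    intro i
    have h1 := hP (Pi.single i 1)
    simp only [Equiv.coe_refl, Function.comp_id] at h1
    rw [h1, Basis.equivFun_symm_apply, Finset.sum_eq_single i]
    · simp
    · intro j _ hj
      rw [Pi.single_eq_of_ne hj, zero_smul]
    · simp
  refine ⟨P, fun x hxR i => ?_⟩
  rw [hPb]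
  set y : GL ι F := x * xs i with hy
  have hyR : y ∈ R := R.mul_mem hxR (hxs i)
  set yv : ι → F := (y : Matrix ι ι F) *ᵥ v₀ with hyv
  have hyvx : (x : Matrix ι ι F) *ᵥ bi i = yv := by
    rw [← hxsb i, Matrix.mulVec_mulVec, hyv, hy, Units.val_mul]
  have hyv0 : yv ≠ 0 := by
    intro h0
    have h6 : ((y⁻¹ : GL ι F) : Matrix ι ι F) *ᵥ yv = v₀ := by
      rw [hyv, Matrix.mulVec_mulVec, ← Units.val_mul, inv_mul_cancel, Units.val_one, Matrix.one_mulVec]
    rw [h0, Matrix.mulVec_zero] at h6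
    exact hv₀ h6.symm
  let c : ι → F := bi.equivFun yv
  have hc : ∑ l, c l • bi l = yv := bi.sum_equivFun yv
  obtain ⟨j, hj⟩ : ∃ j, c j ≠ 0 := by
    by_contra hcon
    push Not at hcon
    apply hyv0
    rw [← hc]
    exact Finset.sum_eq_zero fun l _ => by rw [hcon l, zero_smul]
  have hkey : ∀ a ∈ A, ∃ κ : F, κ ≠ 0 ∧ (a : Matrix ι ι F) * (xs j : Matrix ι ι F) = κ • ((xs j : Matrix ι ι F) * (a : Matrix ι ι F)) ∧
      (a : Matrix ι ι F) * (y : Matrix ι ι F) = κ • ((y : Matrix ι ι F) * (a : Matrix ι ι F)) := by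
    intro a ha
    obtain ⟨μ, -, hμ0, hμ⟩ := hχ a ha
    have hexκ : ∀ l, ∃ κ : F, (a : Matrix ι ι F) * (xs l : Matrix ι ι F) = κ • ((xs l : Matrix ι ι F) * (a : Matrix ι ι F)) :=
      fun l => hSC a (hAR ha) (xs l) (hxs l)
    choose κ hκ using hexκ
    obtain ⟨κy, hκy⟩ := hSC a (hAR ha) y hyR
    have hal : ∀ l, (a : Matrix ι ι F) *ᵥ bi l = (κ l * μ) • bi l := by
      intro l
      rw [← hxsb l, Matrix.mulVec_mulVec, hκ l, Matrix.smul_mulVec, ← Matrix.mulVec_mulVec, hμ, Matrix.mulVec_smul, smul_smul]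
    have hay : (a : Matrix ι ι F) *ᵥ yv = (κy * μ) • yv := by
      rw [hyv, Matrix.mulVec_mulVec, hκy, Matrix.smul_mulVec, ← Matrix.mulVec_mulVec, hμ, Matrix.mulVec_smul, smul_smul]
    have h1 : ∑ l, (c l * (κ l * μ)) • bi l = ∑ l, ((κy * μ) * c l) • bi l := by
      have h2 := hay
      conv_lhs at h2 => rw [← hc, Matrix.mulVec_sum]
      rw [← hc, Finset.smul_sum] at h2
      simp only [Matrix.mulVec_smul, hal, smul_smul] at h2
      exact h2
    have h3 := congrArg (fun v => bi.repr v j) h1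
    simp only [Basis.repr_sum_self] at h3
    have h4 : κ j = κy := by
      have h5 : c j * μ * (κ j - κy) = 0 := by linear_combination h3
      exact sub_eq_zero.1 ((mul_eq_zero.1 h5).resolve_left (mul_ne_zero hj hμ0))
    have hκ0 : κy ≠ 0 := by
      rintro h0
      rw [h0, zero_smul] at hκy
      have h5 : IsUnit ((a : Matrix ι ι F) * (y : Matrix ι ι F)) := (a * y).isUnit
      rw [hκy] at h5
      exact not_isUnit_zero h5
    refine ⟨κy, hκ0, ?_, hκy⟩
    rw [← h4]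
    exact hκ j
  -- the quotient element
  let g : GL ι F := (xs j)⁻¹ * y
  have hgR : g ∈ R := R.mul_mem (R.inv_mem (hxs j)) hyR
  have hgA : g ∈ A := by
    refine hAmax g hgR fun a ha => ?_
    obtain ⟨κ, hκ0, h1, h2⟩ := hkey a ha
    apply Units.ext
    set X : Matrix ι ι F := (xs j : Matrix ι ι F) with hX
    set Xi : Matrix ι ι F := (((xs j)⁻¹ : GL ι F) : Matrix ι ι F) with hXi
    have hXiX : Xi * X = 1 := by
      rw [hXi, hX, ← Units.val_mul, inv_mul_cancel, Units.val_one]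
    have hXXi : X * Xi = 1 := by
      rw [hXi, hX, ← Units.val_mul, mul_inv_cancel, Units.val_one]
    have hg : ((g : GL ι F) : Matrix ι ι F) = Xi * (y : Matrix ι ι F) := rfl
    change ((g : GL ι F) : Matrix ι ι F) * (a : Matrix ι ι F) = (a : Matrix ι ι F) * ((g : GL ι F) : Matrix ι ι F)
    rw [hg]
    have h3 : Xi * (a : Matrix ι ι F) = κ • ((a : Matrix ι ι F) * Xi) := by
      calc Xi * (a : Matrix ι ι F) = Xi * ((a : Matrix ι ι F) * X) * Xi := by
            rw [mul_assoc, mul_assoc, hXXi, mul_one]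
        _ = Xi * (κ • (X * (a : Matrix ι ι F))) * Xi := by rw [h1]
        _ = κ • ((Xi * X) * (a : Matrix ι ι F) * Xi) := by
            rw [Matrix.mul_smul, Matrix.smul_mul]; simp only [mul_assoc]
        _ = κ • ((a : Matrix ι ι F) * Xi) := by rw [hXiX, one_mul]
    have h4 : κ • (Xi * (y : Matrix ι ι F) * (a : Matrix ι ι F)) = κ • ((a : Matrix ι ι F) * (Xi * (y : Matrix ι ι F))) := by
      calc κ • (Xi * (y : Matrix ι ι F) * (a : Matrix ι ι F)) = Xi * (κ • ((y : Matrix ι ι F) * (a : Matrix ι ι F))) := by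
            rw [Matrix.mul_smul, mul_assoc]
        _ = Xi * ((a : Matrix ι ι F) * (y : Matrix ι ι F)) := by rw [h2]
        _ = (Xi * (a : Matrix ι ι F)) * (y : Matrix ι ι F) := by rw [mul_assoc]
        _ = κ • ((a : Matrix ι ι F) * (Xi * (y : Matrix ι ι F))) := by
            rw [h3, Matrix.smul_mul, mul_assoc]
    exact smul_right_injective _ hκ0 h4
  obtain ⟨d, hdz, -, hd⟩ := hχ g hgA
  refine ⟨j, d, hdz, ?_⟩
  rw [hPb, hyvx, hyv]
  have h5 : y = xs j * g := by simp [g]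
  rw [h5, Units.val_mul, ← Matrix.mulVec_mulVec, hd, Matrix.mulVec_smul, hxsb]

end Cfsg.Agent.Lib.Asch.Mono
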