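import Mathlib
import Cfsg.Agent.Lib.Asch.Mono
import Cfsg.Agent.Lib.Asch.Forms
import Cfsg.Agent.Lib.Asch.Desc
import Cfsg.Agent.Lib.Asch.FieldSub

/-!
# The field of definition of a group with scalar commutators
-/

set_option autoImplicit false

namespace Cfsg.Agent.Lib.Asch.FStep

open Matrix Module Cfsg Cfsg.Geo
open Cfsg.Agent.Lib.Asch.Basic Cfsg.Agent.Lib.Asch.SC Cfsg.Agent.Lib.Asch.Mono Cfsg.Agent.Lib.Asch.Forms
  Cfsg.Agent.Lib.Asch.FieldSub Cfsg.Agent.Lib.Asch.Desc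

universe u

variable {ι : Type} [Fintype ι] [DecidableEq ι] {F : Type u} [Field F]

/-- The columns of a monomial conjugate. -/
theorem mono_col {P x : GL ι F} {i j : ι} {d : F}
    (h : (x : Matrix ι ι F) *ᵥ ((P : Matrix ι ι F) *ᵥ Pi.single i 1) = d • ((P : Matrix ι ι F) *ᵥ Pi.single j 1)) :
    (((P⁻¹ : GL ι F) : Matrix ι ι F) * (x : Matrix ι ι F) * (P : Matrix ι ι F)) *ᵥ Pi.single i 1 = d • Pi.single j 1 := by
  rw [mul_assoc, ← Matrix.mulVec_mulVec, ← Matrix.mulVec_mulVec, h, Matrix.mulVec_smul, Matrix.mulVec_mulVec,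
    ← Units.val_mul, inv_mul_cancel, Units.val_one, Matrix.one_mulVec]

theorem mono_entry {P x : GL ι F} {i j : ι} {d : F}
    (h : (x : Matrix ι ι F) *ᵥ ((P : Matrix ι ι F) *ᵥ Pi.single i 1) = d • ((P : Matrix ι ι F) *ᵥ Pi.single j 1)) (k : ι) :
    (((P⁻¹ : GL ι F) : Matrix ι ι F) * (x : Matrix ι ι F) * (P : Matrix ι ι F)) k i = if k = j then d else 0 := by
  have h1 := congrFun (mono_col h) k
  rw [Matrix.mulVec_single_one] at h1
  have h2 : (((P⁻¹ : GL ι F) : Matrix ι ι F) * (x : Matrix ι ι F) * (P : Matrix ι ι F)) k i = (d • (Pi.single j 1 : ι → F)) k := h1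
  rw [h2, Pi.smul_apply, Pi.single_apply]
  split_ifs <;> simp

variable [Fintype F]

theorem realisable_of_roots [Nonempty ι] {R : Subgroup (GL ι F)} (hA : ActsAbsolutelyIrreducibly (matrixSet R)) (hSC : ScC R)
    {z : ℕ} (hz : z ∣ Fintype.card F - 1) (hx : ∀ x ∈ R, x ^ z = 1) (F₀ : Subfield F)
    (hF₀ : ∀ d : F, d ^ z = 1 → d ∈ F₀) : RealisableOver F₀ (matrixSet R) := by
  obtain ⟨P, hP⟩ := exists_monomial hA hSC hz hx
  refine ⟨P⁻¹, ?_⟩
  rintro _ ⟨x, hxR, rfl⟩ k i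
  obtain ⟨j, d, hd, h⟩ := hP x hxR i
  rw [inv_inv, mono_entry h k]
  split_ifs
  · exact hF₀ d hd
  · exact F₀.zero_mem

theorem unitary_of_roots [Nonempty ι] {R : Subgroup (GL ι F)} (hA : ActsAbsolutelyIrreducibly (matrixSet R)) (hSC : ScC R)
    {z : ℕ} (hz : z ∣ Fintype.card F - 1) (hx : ∀ x ∈ R, x ^ z = 1) (σ : F ≃+* F) (hne : σ ≠ RingEquiv.refl F)
    (hσ : ∀ a : F, σ (σ a) = a) (hd : ∀ d : F, d ^ z = 1 → d * σ d = 1) :
    ∃ f : (ι → F) → (ι → F) → F, IsUnitaryForm σ f ∧ FixesForm (matrixSet R) f := by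
  obtain ⟨P, hP⟩ := exists_monomial hA hSC hz hx
  set A : Matrix ι ι F := ((P⁻¹ : GL ι F) : Matrix ι ι F) with hAdef
  have hAP : A * (P : Matrix ι ι F) = 1 := by
    rw [hAdef, ← Units.val_mul, inv_mul_cancel, Units.val_one]
  have hPA : (P : Matrix ι ι F) * A = 1 := by
    rw [hAdef, ← Units.val_mul, mul_inv_cancel, Units.val_one]
  let f : (ι → F) → (ι → F) → F := fun u v => (A *ᵥ u) ⬝ᵥ (σ ∘ (A *ᵥ v))
  refine ⟨f, ⟨hne, hσ, ?_, ?_, ?_, ?_⟩, ?_⟩
  · intro x y v
    simp only [f]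
    rw [Matrix.mulVec_add, add_dotProduct]
  · intro c x v
    simp only [f]
    rw [Matrix.mulVec_smul, smul_dotProduct, smul_eq_mul]
  · intro v w
    simp only [f, dotProduct, map_sum, map_mul, Function.comp_apply, hσ]
    exact Finset.sum_congr rfl fun i _ => mul_comm _ _
  · intro v hv
    have hAv : A *ᵥ v ≠ 0 := by
      intro h0
      apply hv
      have := congrArg (fun w => (P : Matrix ι ι F) *ᵥ w) h0
      simpa [Matrix.mulVec_mulVec, hPA] using this
    obtain ⟨l, hl⟩ : ∃ l, (A *ᵥ v) l ≠ 0 := by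
      by_contra hcon
      push Not at hcon
      exact hAv (funext hcon)
    have hAx : A *ᵥ ((P : Matrix ι ι F) *ᵥ Pi.single l 1) = Pi.single l 1 := by
      rw [Matrix.mulVec_mulVec, hAP, Matrix.one_mulVec]
    constructor
    · refine ⟨(P : Matrix ι ι F) *ᵥ Pi.single l 1, ?_⟩
      simp only [f]
      rw [hAx, single_one_dotProduct]
      simpa using hl
    · refine ⟨(P : Matrix ι ι F) *ᵥ Pi.single l 1, ?_⟩
      simp only [f]
      rw [hAx, comp_single, dotProduct_single_one]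
      exact hl
  · rintro _ ⟨x, hxR, rfl⟩ u v
    have h := fun i => hP x hxR i
    choose π d hdz hT using h
    set T : Matrix ι ι F := A * (x : Matrix ι ι F) * (P : Matrix ι ι F) with hTdef
    have hTe : ∀ k i, T k i = if k = π i then d i else 0 := fun k i => mono_entry (hT i) k
    have hd0 : ∀ i, d i ≠ 0 := by
      intro i h0
      have := hd _ (hdz i)
      rw [h0, zero_mul] at this
      exact zero_ne_one this
    have hTu : IsUnit T := by
      have : T = ((P⁻¹ * x * P : GL ι F) : Matrix ι ι F) := by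
        rw [Units.val_mul, Units.val_mul]
      rw [this]
      exact Units.isUnit _
    have hTc : ∀ i, T *ᵥ Pi.single i 1 = d i • Pi.single (π i) 1 := fun i => mono_col (hT i)
    have hπ : Function.Injective π := by
      intro i k hik
      by_contra hne'
      have h1 : T *ᵥ (d k • (Pi.single i 1 : ι → F)) = T *ᵥ (d i • (Pi.single k 1 : ι → F)) := by
        rw [Matrix.mulVec_smul, Matrix.mulVec_smul, hTc, hTc, hik, smul_smul, smul_smul, mul_comm]
      have h2 := Matrix.mulVec_injective_of_isUnit hTu h1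
      have h3 := congrFun h2 i
      simp only [Pi.smul_apply, Pi.single_eq_same, smul_eq_mul, mul_one, Pi.single_apply, if_neg hne', mul_zero] at h3
      exact hd0 k h3
    have hTT : Tᵀ * T.map σ = 1 := by
      ext i k
      rw [Matrix.mul_apply]
      simp only [Matrix.transpose_apply, Matrix.map_apply, hTe]
      rw [Finset.sum_eq_single (π i)]
      · rw [if_pos rfl]
        by_cases hik : i = k
        · subst hik
          rw [if_pos rfl, Matrix.one_apply_eq]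
          exact hd _ (hdz i)
        · rw [if_neg (fun h => hik (hπ h)), map_zero, mul_zero, Matrix.one_apply_ne hik]
      · intro l _ hl
        rw [if_neg hl, zero_mul]
      · intro h
        exact absurd (Finset.mem_univ _) h
    have hAT : ∀ w, A *ᵥ ((x : Matrix ι ι F) *ᵥ w) = T *ᵥ (A *ᵥ w) := by
      intro w
      rw [Matrix.mulVec_mulVec, Matrix.mulVec_mulVec, hTdef, mul_assoc, mul_assoc, hPA, mul_one]
    change (A *ᵥ ((x : Matrix ι ι F) *ᵥ u)) ⬝ᵥ (σ ∘ (A *ᵥ ((x : Matrix ι ι F) *ᵥ v))) = (A *ᵥ u) ⬝ᵥ (σ ∘ (A *ᵥ v))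
    rw [hAT, hAT, comp_mulVec]
    have h5 : (T *ᵥ (A *ᵥ u)) ⬝ᵥ (T.map σ *ᵥ (σ ∘ (A *ᵥ v))) = (A *ᵥ u) ⬝ᵥ ((Tᵀ * T.map σ) *ᵥ (σ ∘ (A *ᵥ v))) := by
      rw [← Matrix.mulVec_mulVec (σ ∘ (A *ᵥ v)) Tᵀ, Matrix.dotProduct_mulVec (A *ᵥ u) Tᵀ, Matrix.vecMul_transpose]
    rw [h5, hTT, Matrix.one_mulVec]

theorem subfield_step {n : ℕ} (hn : 0 < n) (H R : Subgroup (GL (Fin n) F)) (hA : ActsAbsolutelyIrreducibly (matrixSet R)) (hSC : ScC R)
    (hN : ∀ h ∈ H, ∀ x ∈ R, h * x * h⁻¹ ∈ R)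
    {z : ℕ} (hz : z ∣ Fintype.card F - 1) (hx : ∀ x ∈ R, x ^ z = 1)
    {p E : ℕ} [hp : Fact p.Prime] [hc : CharP F p] (hE : Fintype.card F = p ^ E) :
    (∃ M, InLinearClass n F M ∧ H ≤ M) ∨ ∀ d : ℕ, 0 < d → d < E → ¬ z ∣ p ^ d - 1 := by
  haveI : Nonempty (Fin n) := ⟨⟨0, hn⟩⟩
  by_contra hcon
  push Not at hcon
  obtain ⟨hno, d, hd0, hdE, hzd⟩ := hcon
  have hp2 : 2 ≤ p := hp.out.two_le
  have hlt : p ^ d < p ^ E := Nat.pow_lt_pow_right (by omega) hdE
  have hpd : 2 ≤ p ^ d := le_trans hp2 (Nat.le_self_pow (by omega) p)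
  have hne : fixSub (F := F) p d ≠ ⊤ := by
    intro htop
    have h1 : ∀ x : Fˣ, x ^ (p ^ d - 1) = 1 := by
      intro x
      have h2 : (x : F) ∈ fixSub (F := F) p d := by
        rw [htop]
        exact Subfield.mem_top _
      rw [mem_fixSub] at h2
      apply Units.ext
      rw [Units.val_pow_eq_pow_val, Units.val_one]
      have h3 : (x : F) ^ (p ^ d - 1) * x = 1 * x := by
        rw [← pow_succ, Nat.sub_add_cancel (by omega), h2, one_mul]
      exact mul_right_cancel₀ x.ne_zero h3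
    rw [FiniteField.forall_pow_eq_one_iff, hE] at h1
    have := Nat.le_of_dvd (by omega) h1
    omega
  have hreal : RealisableOver (fixSub (F := F) p d) (matrixSet R) := by
    refine realisable_of_roots hA hSC hz hx _ fun a ha => ?_
    rw [mem_fixSub]
    obtain ⟨c, hc'⟩ := hzd
    have h1 : p ^ d = z * c + 1 := by omega
    rw [h1, pow_succ, pow_mul, ha, one_pow, one_mul]
  obtain ⟨M, hM, hHM⟩ := subfield_class hn H R hA hN _ hne hreal
  exact hno M hM hHM

/-- The Frobenius involution of a field of square order. -/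
noncomputable def frob (p f : ℕ) [Fact p.Prime] [CharP F p] : F ≃+* F :=
  RingEquiv.ofBijective (iterateFrobenius F p f)
    ⟨RingHom.injective _, Finite.injective_iff_surjective.1 (RingHom.injective _)⟩

theorem frob_apply (p f : ℕ) [Fact p.Prime] [CharP F p] (a : F) : frob p f a = a ^ p ^ f := by
  change iterateFrobenius F p f a = _
  rw [iterateFrobenius_def]

theorem unitary_step {n : ℕ} (hn : 3 ≤ n) (H R : Subgroup (GL (Fin n) F)) (hA : ActsAbsolutelyIrreducibly (matrixSet R)) (hSC : ScC R)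
    (hN : ∀ h ∈ H, ∀ x ∈ R, h * x * h⁻¹ ∈ R)
    {z : ℕ} (hx : ∀ x ∈ R, x ^ z = 1)
    {p f : ℕ} [hp : Fact p.Prime] [hc : CharP F p] (hE : Fintype.card F = p ^ (2 * f)) (hf : 0 < f) (hzf : z ∣ p ^ f + 1) :
    ∃ M, InLinearClass n F M ∧ H ≤ M := by
  haveI : Nonempty (Fin n) := ⟨⟨0, by omega⟩⟩
  have hp2 : 2 ≤ p := hp.out.two_le
  have hpf : 2 ≤ p ^ f := le_trans hp2 (Nat.le_self_pow (by omega) p)
  have hz : z ∣ Fintype.card F - 1 := by
    rw [hE, mul_comm, pow_mul]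
    have h1 : (p ^ f) ^ 2 - 1 = (p ^ f + 1) * (p ^ f - 1) := by
      obtain ⟨t, ht⟩ : ∃ t, p ^ f = t + 1 := ⟨p ^ f - 1, by omega⟩
      rw [ht]
      simp only [Nat.add_sub_cancel]
      have : (t + 1) ^ 2 = (t + 1 + 1) * t + 1 := by ring
      omega
    rw [h1]
    exact Dvd.dvd.mul_right hzf _
  have hσ : ∀ a : F, frob p f (frob p f a) = a := by
    intro a
    rw [frob_apply, frob_apply, ← pow_mul, ← pow_add, ← two_mul, ← hE, FiniteField.pow_card]
  have hne : frob (F := F) p f ≠ RingEquiv.refl F := by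
    intro h
    have h1 : ∀ x : Fˣ, x ^ (p ^ f - 1) = 1 := by
      intro x
      have h2 : frob p f (x : F) = x := by rw [h]; rfl
      rw [frob_apply] at h2
      apply Units.ext
      rw [Units.val_pow_eq_pow_val, Units.val_one]
      have h3 : (x : F) ^ (p ^ f - 1) * x = 1 * x := by
        rw [← pow_succ, Nat.sub_add_cancel (by omega), h2, one_mul]
      exact mul_right_cancel₀ x.ne_zero h3
    rw [FiniteField.forall_pow_eq_one_iff, hE] at h1
    have := Nat.le_of_dvd (by omega) h1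
    have hlt : p ^ f < p ^ (2 * f) := Nat.pow_lt_pow_right (by omega) (by omega)
    omega
  have hd : ∀ d : F, d ^ z = 1 → d * frob p f d = 1 := by
    intro d hd
    rw [frob_apply, ← pow_succ']
    obtain ⟨c, hc'⟩ := hzf
    rw [hc', pow_mul, hd, one_pow]
  obtain ⟨g, hg, hfix⟩ := unitary_of_roots hA hSC hz hx _ hne hσ hd
  exact no_unit hn hA hN hg hfix

end Cfsg.Agent.Lib.Asch.FStep
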