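import Mathlib
import Cfsg.Agent.Lib.Asch.FStep
import Cfsg.Agent.Lib.Asch.GT
import Cfsg.Agent.Lib.Asch.Cl

/-!
# Groups with scalar commutators: the power map and the groups of symplectic type
-/

set_option autoImplicit false

namespace Cfsg.Agent.Lib.Asch.XS

open Matrix Module Cfsg Cfsg.Geo
open Cfsg.Agent.Lib.Asch.Basic Cfsg.Agent.Lib.Asch.SC Cfsg.Agent.Lib.Asch.Mono Cfsg.Agent.Lib.Asch.Forms
  Cfsg.Agent.Lib.Asch.FieldSub Cfsg.Agent.Lib.Asch.Desc Cfsg.Agent.Lib.Asch.FStep Cfsg.Agent.Lib.Asch.GT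
  Cfsg.Agent.Lib.Asch.Res Cfsg.Agent.Lib.Asch.H1 Cfsg.Agent.Lib.Asch.Cl

universe u

section Abstract

variable {G : Type*} [Group G]

theorem gp_pow_mul {x y z : G} (hzc : ∀ g, z * g = g * z) (h : y * x = z * (x * y)) (k : ℕ) :
    y ^ k * x = z ^ k * (x * y ^ k) := by
  induction k with
  | zero => simp
  | succ k ih =>
    calc y ^ (k + 1) * x = y ^ k * (y * x) := by rw [pow_succ, mul_assoc]
      _ = y ^ k * (z * (x * y)) := by rw [h]
      _ = z * (y ^ k * x) * y := by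
        rw [← mul_assoc (y ^ k) z, ← hzc (y ^ k)]
        simp only [mul_assoc]
      _ = z * (z ^ k * (x * y ^ k)) * y := by rw [ih]
      _ = z ^ (k + 1) * (x * y ^ (k + 1)) := by
        rw [pow_succ' z, pow_succ y]
        simp only [mul_assoc]

theorem gp_mul_pow {x y z : G} (hzc : ∀ g, z * g = g * z) (h : y * x = z * (x * y)) (k : ℕ) :
    (x * y) ^ k = z ^ (k.choose 2) * (x ^ k * y ^ k) := by
  have hzpow : ∀ (m : ℕ) (g : G), z ^ m * g = g * z ^ m := by
    intro m g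
    exact ((Commute.pow_left (show Commute z g from hzc g) m))
  induction k with
  | zero => simp
  | succ k ih =>
    have hc : (k + 1).choose 2 = k.choose 2 + k := by
      rw [Nat.choose_succ_succ' k 1, Nat.choose_one_right, add_comm]
    calc (x * y) ^ (k + 1) = (x * y) ^ k * (x * y) := pow_succ _ _
      _ = z ^ (k.choose 2) * (x ^ k * (y ^ k * x) * y) := by
        rw [ih]
        simp only [mul_assoc]
      _ = z ^ (k.choose 2) * (x ^ k * (z ^ k * (x * y ^ k)) * y) := by rw [gp_pow_mul hzc h]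
      _ = z ^ (k.choose 2) * z ^ k * (x ^ k * (x * y ^ k) * y) := by
        rw [← mul_assoc (x ^ k) (z ^ k), ← hzpow k (x ^ k)]
        simp only [mul_assoc]
      _ = z ^ ((k + 1).choose 2) * (x ^ (k + 1) * y ^ (k + 1)) := by
        rw [hc, pow_add, pow_succ x, pow_succ y]
        simp only [mul_assoc]

theorem gp_comm_pow {x y z : G} (hzc : ∀ g, z * g = g * z) (h : y * x = z * (x * y)) {r : ℕ}
    (hc : ∀ g, x ^ r * g = g * x ^ r) : z ^ r = 1 := by
  -- `y * x ^ r = z ^ r * (x ^ r * y)`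
  have h1 : ∀ k : ℕ, y * x ^ k = z ^ k * (x ^ k * y) := by
    intro k
    induction k with
    | zero => simp
    | succ k ih =>
      have hzpow : ∀ (m : ℕ) (g : G), z ^ m * g = g * z ^ m := by
        intro m g
        exact ((Commute.pow_left (show Commute z g from hzc g) m))
      calc y * x ^ (k + 1) = (y * x ^ k) * x := by rw [pow_succ, mul_assoc]
        _ = z ^ k * (x ^ k * (y * x)) := by
          rw [ih]
          simp only [mul_assoc]
        _ = z ^ k * (x ^ k * (z * (x * y))) := by rw [h]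
        _ = z ^ (k + 1) * (x ^ (k + 1) * y) := by
          rw [← mul_assoc (x ^ k) z, ← hzc (x ^ k), pow_succ z, pow_succ x]
          simp only [mul_assoc]
  have h2 := h1 r
  rw [← hc y] at h2
  have h3 : z ^ r * (x ^ r * y) = 1 * (x ^ r * y) := by
    rw [← h2]
    simp [hc y]
  exact mul_right_cancel h3

/-- An element outside a subgroup has a power of prime exponent in the subgroup. -/
theorem exists_prime_pow_mem [Finite G] (Z : Subgroup G) {y : G} (hy : y ∉ Z) :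
    ∃ r : ℕ, r.Prime ∧ ∃ k : ℕ, y ^ k ∉ Z ∧ (y ^ k) ^ r ∈ Z := by
  classical
  have hex : ∃ k : ℕ, 0 < k ∧ y ^ k ∈ Z := ⟨orderOf y, orderOf_pos y, by rw [pow_orderOf_eq_one]; exact Z.one_mem⟩
  set k := Nat.find hex with hk
  have hk0 : 0 < k := (Nat.find_spec hex).1
  have hkZ : y ^ k ∈ Z := (Nat.find_spec hex).2
  have hk1 : k ≠ 1 := by
    intro h1
    rw [h1, pow_one] at hkZ
    exact hy hkZ
  refine ⟨k.minFac, Nat.minFac_prime hk1, k / k.minFac, ?_, ?_⟩
  · intro hmem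
    have hlt : k / k.minFac < k := Nat.div_lt_self hk0 (Nat.minFac_prime hk1).one_lt
    have hpos : 0 < k / k.minFac := Nat.div_pos (Nat.minFac_le hk0) (Nat.minFac_prime hk1).pos
    exact Nat.find_min hex hlt ⟨hpos, hmem⟩
  · rw [← pow_mul, Nat.div_mul_cancel (Nat.minFac_dvd k)]
    exact hkZ

/-- Elements of `N` whose `r`-th power is in `Z`. -/
def Ur (N Z : Subgroup G) (r : ℕ) (hZc : Z ≤ Subgroup.center G) (hN : ⁅N, N⁆ ≤ Z) : Subgroup G where
  carrier := {x | x ∈ N ∧ x ^ r ∈ Z}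
  mul_mem' := by
    rintro x y ⟨hx, hxr⟩ ⟨hy, hyr⟩
    refine ⟨N.mul_mem hx hy, ?_⟩
    set z := y * x * y⁻¹ * x⁻¹ with hz
    have hzZ : z ∈ Z := hN (Subgroup.commutator_mem_commutator hy hx)
    have hzc : ∀ g, z * g = g * z := fun g => (Subgroup.mem_center_iff.1 (hZc hzZ) g).symm
    have h : y * x = z * (x * y) := by
      rw [hz]
      group
    rw [gp_mul_pow hzc h]
    exact Z.mul_mem (Z.pow_mem hzZ _) (Z.mul_mem hxr hyr)
  one_mem' := ⟨N.one_mem, by rw [one_pow]; exact Z.one_mem⟩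
  inv_mem' := by
    rintro x ⟨hx, hxr⟩
    refine ⟨N.inv_mem hx, ?_⟩
    rw [inv_pow]
    exact Z.inv_mem hxr

theorem mem_Ur {N Z : Subgroup G} {r : ℕ} {hZc : Z ≤ Subgroup.center G} {hN : ⁅N, N⁆ ≤ Z} {x : G} :
    x ∈ Ur N Z r hZc hN ↔ x ∈ N ∧ x ^ r ∈ Z := Iff.rfl

/-- All `r`-th powers lie in the central subgroup. -/
theorem exists_prime_all_pow [Finite G] {H N Z : Subgroup G} (hZc : Z ≤ Subgroup.center G) (hHN : HN H N) (hNZ : ¬ N ≤ Z)
    (hcomm : ⁅N, N⁆ ≤ Z) (hZN : H ⊓ Z ≤ N)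
    (hmin : ∀ N', HN H N' → H ⊓ Z ≤ N' → N' ≤ N → N' ≤ Z ∨ N' = N) :
    ∃ r : ℕ, r.Prime ∧ ∀ x ∈ N, x ^ r ∈ Z := by
  obtain ⟨y, hyN, hyZ⟩ := Set.not_subset.1 hNZ
  obtain ⟨r, hr, k, hk, hkr⟩ := exists_prime_pow_mem Z hyZ
  refine ⟨r, hr, ?_⟩
  have h1 : HN H (Ur N Z r hZc hcomm) := by
    rintro h hh x ⟨hx, hxr⟩
    refine ⟨hHN h hh x hx, ?_⟩
    rw [conj_pow]
    have := (Subgroup.mem_center_iff.1 (hZc hxr) h)
    rw [this]
    simpa [mul_assoc] using hxr
  have h2 : H ⊓ Z ≤ Ur N Z r hZc hcomm := fun x hx => ⟨hZN hx, Z.pow_mem hx.2 _⟩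
  rcases hmin _ h1 h2 (fun x hx => hx.1) with h3 | h3
  · exact absurd (h3 ⟨N.pow_mem hyN _, hkr⟩) hk
  · intro x hx
    rw [← h3] at hx
    exact hx.2

end Abstract

end Cfsg.Agent.Lib.Asch.XS
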