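import Mathlib
import Cfsg.Agent.Lib.Asch.XS

/-!
# Groups with scalar commutators: subgroups of elements with scalar powers, groups of symplectic type
-/

set_option autoImplicit false

namespace Cfsg.Agent.Lib.Asch.XT

open Matrix Module Cfsg Cfsg.Geo
open Cfsg.Agent.Lib.Asch.Basic Cfsg.Agent.Lib.Asch.SC Cfsg.Agent.Lib.Asch.Mono Cfsg.Agent.Lib.Asch.Forms
  Cfsg.Agent.Lib.Asch.FieldSub Cfsg.Agent.Lib.Asch.Desc Cfsg.Agent.Lib.Asch.FStep Cfsg.Agent.Lib.Asch.GT
  Cfsg.Agent.Lib.Asch.Res Cfsg.Agent.Lib.Asch.H1 Cfsg.Agent.Lib.Asch.Cl Cfsg.Agent.Lib.Asch.XS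

universe u

variable {ι : Type} [Fintype ι] [DecidableEq ι] {F : Type u} [Field F]

/-- The scalar matrices. -/
def sc : Fˣ →* GL ι F := Units.map (Matrix.scalar ι : F →+* Matrix ι ι F).toMonoidHom

theorem mem_scalars_sc {g : GL ι F} : g ∈ scalars ι F ↔ ∃ c : Fˣ, sc c = g := Iff.rfl

theorem sc_val (c : Fˣ) : ((sc c : GL ι F) : Matrix ι ι F) = (c : F) • 1 := by
  simp [sc, Matrix.smul_one_eq_diagonal]

theorem sc_mem (c : Fˣ) : (sc c : GL ι F) ∈ scalars ι F := ⟨c, rfl⟩

theorem sc_comm (c : Fˣ) (g : GL ι F) : sc c * g = g * sc c := comm_of_mem_scalars (sc_mem c)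

theorem sc_inj [Nonempty ι] : Function.Injective (sc : Fˣ → GL ι F) := by
  intro a b hab
  obtain ⟨i⟩ := ‹Nonempty ι›
  have h1 := congrArg (fun g : GL ι F => (g : Matrix ι ι F) i i) hab
  simp only [sc_val, Matrix.smul_apply, Matrix.one_apply_eq, smul_eq_mul, mul_one] at h1
  exact Units.ext h1

/-- The elements of `N` whose `r`-th power is a scalar from `μ`. -/
def Rr (N : Subgroup (GL ι F)) (r : ℕ) (μ : Subgroup Fˣ)
    (hmul : ∀ x ∈ N, ∀ y ∈ N, ∃ m ∈ μ, (x * y) ^ r = sc m * (x ^ r * y ^ r)) : Subgroup (GL ι F) where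
  carrier := {x | x ∈ N ∧ ∃ m ∈ μ, x ^ r = sc m}
  mul_mem' := by
    rintro x y ⟨hx, m₁, hm₁, h₁⟩ ⟨hy, m₂, hm₂, h₂⟩
    obtain ⟨m, hm, h⟩ := hmul x hx y hy
    refine ⟨N.mul_mem hx hy, m * (m₁ * m₂), μ.mul_mem hm (μ.mul_mem hm₁ hm₂), ?_⟩
    rw [h, h₁, h₂, map_mul, map_mul]
  one_mem' := ⟨N.one_mem, 1, μ.one_mem, by simp⟩
  inv_mem' := by
    rintro x ⟨hx, m, hm, h⟩
    refine ⟨N.inv_mem hx, m⁻¹, μ.inv_mem hm, ?_⟩
    rw [inv_pow, h, map_inv]

theorem mem_Rr {N : Subgroup (GL ι F)} {r : ℕ} {μ : Subgroup Fˣ}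
    {hmul : ∀ x ∈ N, ∀ y ∈ N, ∃ m ∈ μ, (x * y) ^ r = sc m * (x ^ r * y ^ r)} {x : GL ι F} :
    x ∈ Rr N r μ hmul ↔ x ∈ N ∧ ∃ m ∈ μ, x ^ r = sc m := Iff.rfl

theorem Rr_HN {H N : Subgroup (GL ι F)} {r : ℕ} {μ : Subgroup Fˣ}
    {hmul : ∀ x ∈ N, ∀ y ∈ N, ∃ m ∈ μ, (x * y) ^ r = sc m * (x ^ r * y ^ r)} (hHN : HN H N) :
    HN H (Rr N r μ hmul) := by
  rintro h hh x ⟨hx, m, hm, h₁⟩
  refine ⟨hHN h hh x hx, m, hm, ?_⟩
  rw [conj_pow, h₁, ← sc_comm]
  simp [mul_assoc]

theorem Rr_not_le [Nonempty ι] [Fintype F] {N : Subgroup (GL ι F)} {r : ℕ} {μ : Subgroup Fˣ}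
    {hmul : ∀ x ∈ N, ∀ y ∈ N, ∃ m ∈ μ, (x * y) ^ r = sc m * (x ^ r * y ^ r)}
    (hZ : ∀ x ∈ N, x ^ r ∈ scalars ι F) (hnon : ¬ ∀ x ∈ N, ∀ y ∈ N, x * y = y * x) :
    ¬ Rr N r μ hmul ≤ scalars ι F := by
  intro hle
  apply hnon
  have hex : ∀ x : N, ∃ c : Fˣ, sc c = (x : GL ι F) ^ r := fun x => hZ x x.2
  choose lam hlam using hex
  let f : N →* Fˣ ⧸ μ := MonoidHom.mk' (fun x => (QuotientGroup.mk (lam x) : Fˣ ⧸ μ)) (by
    intro a b
    obtain ⟨m, hm, h⟩ := hmul a a.2 b b.2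
    have h1 : sc (lam (a * b)) = (sc (m * (lam a * lam b)) : GL ι F) := by
      rw [hlam, map_mul, map_mul, hlam, hlam, Subgroup.coe_mul, h]
    have h2 := sc_inj h1
    rw [h2, ← QuotientGroup.mk_mul]
    rw [QuotientGroup.eq]
    have : (m * (lam a * lam b))⁻¹ * (lam a * lam b) = m⁻¹ := by
      rw [mul_comm m, _root_.mul_inv_rev, mul_assoc, inv_mul_cancel, mul_one]
    rw [this]
    exact μ.inv_mem hm)
  haveI : IsCyclic (Fˣ ⧸ μ) := isCyclic_of_surjective (QuotientGroup.mk' μ) (QuotientGroup.mk'_surjective μ)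
  have hker : f.ker ≤ Subgroup.center N := by
    intro x hx
    have h1 : (QuotientGroup.mk (lam x) : Fˣ ⧸ μ) = 1 := hx
    rw [QuotientGroup.eq_one_iff] at h1
    have h2 : (x : GL ι F) ∈ Rr N r μ hmul := ⟨x.2, lam x, h1, (hlam x).symm⟩
    have h3 := hle h2
    rw [Subgroup.mem_center_iff]
    intro y
    exact Subtype.ext (comm_of_mem_scalars (y := (y : GL ι F)) h3).symm
  intro x hx y hy
  have := (f.isMulCommutative_of_isCyclic_of_ker_le_center hker).is_comm.comm (⟨x, hx⟩ : N) (⟨y, hy⟩ : N)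
  exact congrArg Subtype.val this

/-- Scalars of an absolutely irreducible group: subgroups of scalars are cyclic. -/
theorem cyclic_of_scalars [Nonempty ι] {T : Type*} [Group T] [Finite T] (g : T →* GL ι F) (hinj : Function.Injective g)
    (hZ : ∀ t, g t ∈ scalars ι F) : IsCyclic T := by
  classical
  have hZ' : ∀ t, ∃ c : Fˣ, sc c = g t := hZ
  choose lam hlam using hZ'
  have hmul : ∀ a b, lam (a * b) = lam a * lam b := by
    intro a b
    apply sc_inj (ι := ι)
    rw [map_mul, hlam, hlam, hlam, map_mul]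
  let f : T →* F :=
    { toFun := fun t => (lam t : F)
      map_one' := by
        have : lam 1 = 1 := by
          apply sc_inj (ι := ι)
          rw [hlam, map_one, map_one]
        rw [this, Units.val_one]
      map_mul' := fun a b => by rw [hmul, Units.val_mul] }
  refine isCyclic_of_subgroup_isDomain f ?_
  intro a b hab
  apply hinj
  rw [← hlam, ← hlam]
  congr 1
  exact Units.ext hab

theorem le_normalizer {H R : Subgroup (GL ι F)} (hN : HN H R) : H ≤ subgroupNormalizer R := by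
  intro h hh
  rw [subgroupNormalizer, Subgroup.mem_normalizer_iff]
  intro x
  constructor
  · exact hN h hh x
  · intro hx
    have := hN h⁻¹ (H.inv_mem hh) _ hx
    simpa [mul_assoc] using this

theorem absIrr_mono {R R' : Subgroup (GL ι F)} (hle : R ≤ R') (hA : ActsAbsolutelyIrreducibly (matrixSet R)) :
    ActsAbsolutelyIrreducibly (matrixSet R') := by
  refine ⟨fun W hW => hA.1 W fun s hs => hW s ?_, fun M hM => hA.2 M fun s hs => hM s ?_⟩
  · obtain ⟨x, hx, rfl⟩ := hs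
    exact ⟨x, hle hx, rfl⟩
  · obtain ⟨x, hx, rfl⟩ := hs
    exact ⟨x, hle hx, rfl⟩

/-- A group of scalars does not act irreducibly in dimension two at least. -/
theorem not_le_scalars {n : ℕ} (hn : 2 ≤ n) {R : Subgroup (GL (Fin n) F)} (hA : ActsAbsolutelyIrreducibly (matrixSet R)) :
    ¬ R ≤ scalars (Fin n) F := by
  intro hle
  let i₀ : Fin n := ⟨0, by omega⟩
  let i₁ : Fin n := ⟨1, by omega⟩
  let e : Fin n → F := Pi.single i₀ 1
  have he : e ≠ 0 := by
    intro h
    have := congrFun h i₀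
    simp [e] at this
  let W : Submodule F (Fin n → F) := Submodule.span F {e}
  have hW := hA.1 W (by
    rintro _ ⟨x, hx, rfl⟩
    obtain ⟨c, hc⟩ := (mem_scalars_iff x).1 (hle hx)
    rintro _ ⟨v, hv, rfl⟩
    change (Matrix.toLin' (x : Matrix (Fin n) (Fin n) F)) v ∈ W
    rw [Matrix.toLin'_apply, hc, Matrix.smul_mulVec, Matrix.one_mulVec]
    exact W.smul_mem _ hv)
  rcases hW with hW | hW
  · exact he (by simpa [W] using hW)
  · have h1 : Module.finrank F W = 1 := finrank_span_singleton he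
    rw [hW, finrank_top, Module.finrank_fintype_fun_eq_card, Fintype.card_fin] at h1
    omega

theorem exists_noncomm {n : ℕ} (hn : 2 ≤ n) {R : Subgroup (GL (Fin n) F)} (hA : ActsAbsolutelyIrreducibly (matrixSet R)) :
    ¬ ∀ x ∈ R, ∀ y ∈ R, x * y = y * x := by
  intro h
  haveI : Nonempty (Fin n) := ⟨⟨0, by omega⟩⟩
  exact not_le_scalars hn hA fun x hx => mem_scalars_of_comm hA (h x hx)

/-- Characteristic abelian subgroups are cyclic. -/
theorem cyclic_of_char {n : ℕ} [Fintype F] (hn : 3 ≤ n) {H R : Subgroup (GL (Fin n) F)} (hNo : ∀ M, InLinearClass n F M → ¬ H ≤ M)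
    (hR : HN H R) (A : Subgroup R) (hA : A.Characteristic) (hAc : IsMulCommutative A) : IsCyclic A := by
  haveI : Nonempty (Fin n) := ⟨⟨0, by omega⟩⟩
  set A' : Subgroup (GL (Fin n) F) := A.map R.subtype with hA'
  have hAHN : HN H A' := by
    rintro h hh _ ⟨a, ha, rfl⟩
    let φ : R ≃* R :=
      { toFun := fun x => ⟨h * x * h⁻¹, hR h hh x x.2⟩
        invFun := fun x => ⟨h⁻¹ * x * h, by simpa using hR h⁻¹ (H.inv_mem hh) x x.2⟩
        left_inv := fun x => by
          apply Subtype.ext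
          simp [mul_assoc]
        right_inv := fun x => by
          apply Subtype.ext
          simp [mul_assoc]
        map_mul' := fun x y => by
          apply Subtype.ext
          simp [mul_assoc] }
    have h1 := hA.fixed φ
    have h2 : φ a ∈ A := by
      have : a ∈ A.comap φ.toMonoidHom := by
        rw [h1]
        exact ha
      exact this
    exact ⟨φ a, h2, rfl⟩
  have hle : A' ≤ scalars (Fin n) F := by
    rcases normal_dichotomy hn H hNo A' hAHN with h | h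
    · exact h
    · intro x hx
      apply mem_scalars_of_comm h
      rintro y ⟨b, hb, rfl⟩
      obtain ⟨a, ha, rfl⟩ := hx
      have := hAc.is_comm.comm (⟨a, ha⟩ : A) ⟨b, hb⟩
      exact congrArg (fun t : A => (t : R).1) this
  exact cyclic_of_scalars (R.subtype.comp A.subtype)
    (Subtype.val_injective.comp Subtype.val_injective) fun t => hle ⟨t, t.2, rfl⟩

/-- The centre of an absolutely irreducible group, when it has an element of order `z` and exponent dividing `z`. -/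
theorem card_center_of [Nonempty ι] [Finite F] {R : Subgroup (GL ι F)} (hA : ActsAbsolutelyIrreducibly (matrixSet R)) {z : ℕ}
    (hz : ∀ x ∈ R, x ^ z = 1) {g : GL ι F} (hg : g ∈ R) (hgZ : g ∈ scalars ι F) (hord : orderOf g = z) :
    Nat.card (Subgroup.center R) = z := by
  haveI : Finite (GL ι F) := inferInstance
  have hC : ∀ t : Subgroup.center R, ((t : R) : GL ι F) ∈ scalars ι F := by
    have h2 : ∀ x : R, x ∈ Subgroup.center R → (x : GL ι F) ∈ scalars ι F := by
      intro x hx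
      rw [center_eq hA, Subgroup.mem_subgroupOf] at hx
      exact hx
    exact fun t => h2 t t.2
  haveI : IsCyclic (Subgroup.center R) := cyclic_of_scalars (R.subtype.comp (Subgroup.center R).subtype)
    (Subtype.val_injective.comp Subtype.val_injective) hC
  apply Nat.dvd_antisymm
  · rw [← IsCyclic.exponent_eq_card]
    apply Monoid.exponent_dvd_of_forall_pow_eq_one
    intro t
    apply Subtype.ext
    apply Subtype.ext
    simpa using hz _ (t : R).2
  · have hg' : (⟨⟨g, hg⟩, by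
        rw [center_eq hA, Subgroup.mem_subgroupOf]
        exact hgZ⟩ : Subgroup.center R) ∈ (⊤ : Subgroup (Subgroup.center R)) := Subgroup.mem_top _
    rw [← hord]
    have := orderOf_dvd_natCard (⟨⟨g, hg⟩, by
        rw [center_eq hA, Subgroup.mem_subgroupOf]
        exact hgZ⟩ : Subgroup.center R)
    rwa [Subgroup.orderOf_mk, Subgroup.orderOf_mk] at this

/-- The order of the group from the order of its centre. -/
theorem card_of_center [Nonempty ι] [Finite F] {R : Subgroup (GL ι F)} (hA : ActsAbsolutelyIrreducibly (matrixSet R)) (hSC : ScC R)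
    {r : ℕ} (hr : r.Prime) (hp : IsPGroup r R) {a : ℕ} (hc : Nat.card (Subgroup.center R) = r ^ a) :
    ∃ m, Fintype.card ι = r ^ m ∧ Nat.card R = r ^ (a + 2 * m) := by
  haveI : Fact r.Prime := ⟨hr⟩
  obtain ⟨k, hk⟩ := IsPGroup.iff_card.1 hp
  have h1 := card_eq hA hSC
  rw [hk, hc] at h1
  have h2 : Fintype.card ι ∣ r ^ k := by
    rw [h1, pow_two]
    exact Dvd.dvd.mul_left (Dvd.intro _ rfl) _
  obtain ⟨m, -, hm⟩ := (Nat.dvd_prime_pow hr).1 h2
  refine ⟨m, hm, ?_⟩
  rw [hk, h1, hm, pow_add]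
  ring

end Cfsg.Agent.Lib.Asch.XT
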