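import Mathlib
import Cfsg.Agent.Lib.Asch.XT

/-!
# Groups of symplectic type acting absolutely irreducibly
-/

set_option autoImplicit false

namespace Cfsg.Agent.Lib.Asch.XO

open Matrix Module Cfsg Cfsg.Geo
open Cfsg.Agent.Lib.Asch.Basic Cfsg.Agent.Lib.Asch.SC Cfsg.Agent.Lib.Asch.Mono Cfsg.Agent.Lib.Asch.Forms
  Cfsg.Agent.Lib.Asch.FieldSub Cfsg.Agent.Lib.Asch.Desc Cfsg.Agent.Lib.Asch.FStep Cfsg.Agent.Lib.Asch.GT
  Cfsg.Agent.Lib.Asch.Res Cfsg.Agent.Lib.Asch.H1 Cfsg.Agent.Lib.Asch.Cl Cfsg.Agent.Lib.Asch.XS Cfsg.Agent.Lib.Asch.XT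

universe u

variable {F : Type u} [Field F] {n : ℕ}

theorem exists_comm_elt (hn : 2 ≤ n) {R : Subgroup (GL (Fin n) F)} (hA : ActsAbsolutelyIrreducibly (matrixSet R)) (hSC : ScC R) :
    ∃ x ∈ R, ∃ y ∈ R, ∃ c : Fˣ, c ≠ 1 ∧ sc c ∈ R ∧ y * x = sc c * (x * y) := by
  haveI : Nonempty (Fin n) := ⟨⟨0, by omega⟩⟩
  have h := exists_noncomm hn hA
  push Not at h
  obtain ⟨y, hy, x, hx, hne⟩ := h
  obtain ⟨c, hc⟩ := hSC y hy x hx
  have hc0 : c ≠ 0 := by
    rintro rfl
    have h5 : IsUnit ((y : Matrix (Fin n) (Fin n) F) * (x : Matrix (Fin n) (Fin n) F)) := (y * x).isUnit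
    rw [hc, zero_smul] at h5
    exact not_isUnit_zero h5
  have h1 : y * x = sc (Units.mk0 c hc0) * (x * y) := by
    apply Units.ext
    rw [Units.val_mul, Units.val_mul, Units.val_mul, sc_val, hc, Matrix.smul_mul, one_mul]
    rfl
  refine ⟨x, hx, y, hy, Units.mk0 c hc0, ?_, ?_, h1⟩
  · intro h
    rw [h, map_one, one_mul] at h1
    exact hne h1
  · have : sc (Units.mk0 c hc0) = y * x * y⁻¹ * x⁻¹ := by
      rw [h1]
      have hc' := sc_comm (ι := Fin n) (Units.mk0 c hc0)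
      group
    rw [this]
    exact R.mul_mem (R.mul_mem (R.mul_mem hy hx) (R.inv_mem hy)) (R.inv_mem hx)

variable [Fintype F]

theorem odd_case (hn : 3 ≤ n) {H R : Subgroup (GL (Fin n) F)} (hNo : ∀ M, InLinearClass n F M → ¬ H ≤ M) (hR : HN H R)
    (hA : ActsAbsolutelyIrreducibly (matrixSet R)) (hSC : ScC R) {r : ℕ} (hr : r.Prime) (hodd : Odd r) (hx : ∀ x ∈ R, x ^ r = 1) :
    ∃ M, InLinearClass n F M ∧ H ≤ M := by
  classical
  haveI : Nonempty (Fin n) := ⟨⟨0, by omega⟩⟩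
  obtain ⟨-, -, -, -, c, hc1, hcR, -⟩ := exists_comm_elt (by omega) hA hSC
  have hg1 : (sc c : GL (Fin n) F) ≠ 1 := by
    intro h
    exact hc1 (sc_inj (ι := Fin n) (by rw [h, map_one]))
  haveI : Fact r.Prime := ⟨hr⟩
  have hord : orderOf (sc c : GL (Fin n) F) = r := orderOf_eq_prime (hx _ hcR) hg1
  have hcen : Nat.card (Subgroup.center R) = r := card_center_of hA hx hcR (sc_mem c) hord
  have hoc : orderOf c = r := by
    rw [← hord]
    exact (orderOf_injective sc sc_inj c).symm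
  have hrq : r ∣ Fintype.card F - 1 := by
    rw [← hoc, ← Fintype.card_units]
    exact orderOf_dvd_card
  obtain ⟨p, hpc⟩ := CharP.exists F
  obtain ⟨E, hpp, hE⟩ := FiniteField.card F p
  haveI : Fact p.Prime := ⟨hpp⟩
  rcases subfield_step (by omega) H R hA hSC hR hrq hx hE with h | hmin
  · exact h
  have hoddE : Odd (E : ℕ) := by
    by_contra hcon
    rw [Nat.not_odd_iff_even] at hcon
    obtain ⟨f, hf⟩ := hcon
    have hf0 : 0 < f := by
      have := E.pos
      omega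
    have hE2 : Fintype.card F = p ^ (2 * f) := by rw [hE, hf, two_mul]
    have hfac : p ^ (2 * f) - 1 = (p ^ f + 1) * (p ^ f - 1) := by
      have hpf : 1 ≤ p ^ f := Nat.one_le_pow _ _ hpp.pos
      obtain ⟨t, ht⟩ : ∃ t, p ^ f = t + 1 := ⟨p ^ f - 1, by omega⟩
      rw [mul_comm 2 f, pow_mul, ht]
      simp only [Nat.add_sub_cancel]
      have : (t + 1) ^ 2 = (t + 1 + 1) * t + 1 := by ring
      omega
    rw [hE2, hfac] at hrq
    rcases (Nat.Prime.dvd_mul hr).1 hrq with h1 | h1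
    · obtain ⟨M, hM, hHM⟩ := unitary_step hn H R hA hSC hR hx hE2 hf0 h1
      exact hNo M hM hHM
    · exact hmin f hf0 (by omega) h1
  have hP : IsPGroup r R := fun x => ⟨1, by
    rw [pow_one]
    exact Subtype.ext (hx x x.2)⟩
  obtain ⟨m, hm, hcard⟩ := card_of_center hA hSC hr hP (a := 1) (by rw [hcen, pow_one])
  have hm1 : 1 ≤ m := by
    rcases Nat.eq_zero_or_pos m with h0 | h0
    · rw [h0, pow_zero, Fintype.card_fin] at hm
      omega
    · exact h0
  have hexp : Monoid.exponent R = r * Nat.gcd 2 r := by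
    have hg : Nat.gcd 2 r = 1 := (Nat.coprime_two_left.2 hodd)
    rw [hg, mul_one]
    apply Nat.dvd_antisymm
    · apply Monoid.exponent_dvd_of_forall_pow_eq_one
      intro t
      exact Subtype.ext (by simpa using hx t t.2)
    · have := Monoid.order_dvd_exponent (⟨sc c, hcR⟩ : R)
      rwa [Subgroup.orderOf_mk, hord] at this
  have hrp : r ≠ p := by
    rintro rfl
    rw [hE] at hrq
    have h1 : r ∣ r ^ (E : ℕ) := dvd_pow_self r E.ne_zero
    have h2 : 1 ≤ r ^ (E : ℕ) := Nat.one_le_pow _ _ hr.pos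
    have h3 := (Nat.dvd_sub h1 hrq)
    rw [Nat.sub_sub_self h2] at h3
    exact hr.one_lt.ne' (Nat.dvd_one.1 h3)
  have hdata : IsLinearSymplecticTypeData r R := by
    refine ⟨⟨hr, hP, fun A hA' hAc => cyclic_of_char hn hNo hR A hA' hAc, hexp⟩, hA, p, E, hrp,
      ⟨hpp, hpc, hE, ?_, ?_⟩, Or.inl ⟨hodd, hoddE, hcen, m, hm1, ?_⟩⟩
    · rw [hcen, ← hE]
      exact hrq
    · rw [hcen]
      exact hmin
    · rw [hcard]
  exact ⟨_, cl_symplType hdata, le_normalizer hR⟩

theorem four_case (hn : 3 ≤ n) {H R : Subgroup (GL (Fin n) F)} (hNo : ∀ M, InLinearClass n F M → ¬ H ≤ M) (hR : HN H R)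
    (hA : ActsAbsolutelyIrreducibly (matrixSet R)) (hSC : ScC R) (hx : ∀ x ∈ R, x ^ 4 = 1) {i : Fˣ} (hi : (i : F) ^ 2 = -1)
    (hiR : sc i ∈ R) (h2 : (2 : F) ≠ 0) :
    ∃ M, InLinearClass n F M ∧ H ≤ M := by
  classical
  haveI : Nonempty (Fin n) := ⟨⟨0, by omega⟩⟩
  haveI : Fact (Nat.Prime 2) := ⟨Nat.prime_two⟩
  have hi2 : i ^ 2 ≠ 1 := by
    intro h
    have h3 : (i : F) ^ 2 = 1 := by
      have := congrArg (Units.val) h
      simpa using this
    rw [hi] at h3
    apply h2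
    linear_combination -h3
  have hi4 : i ^ 4 = 1 := by
    apply Units.ext
    rw [Units.val_pow_eq_pow_val, Units.val_one]
    calc (i : F) ^ 4 = ((i : F) ^ 2) ^ 2 := by ring
      _ = 1 := by rw [hi]; ring
  have hoc : orderOf i = 4 := orderOf_eq_prime_pow (p := 2) (n := 1) (by simpa using hi2) (by simpa using hi4)
  have hord : orderOf (sc i : GL (Fin n) F) = 4 := by
    rw [← hoc]
    exact orderOf_injective sc sc_inj i
  have hcen : Nat.card (Subgroup.center R) = 4 := card_center_of hA hx hiR (sc_mem i) hord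
  have hrq : 4 ∣ Fintype.card F - 1 := by
    rw [← hoc, ← Fintype.card_units]
    exact orderOf_dvd_card
  obtain ⟨p, hpc⟩ := CharP.exists F
  obtain ⟨E, hpp, hE⟩ := FiniteField.card F p
  haveI : Fact p.Prime := ⟨hpp⟩
  have hp2 : p ≠ 2 := by
    rintro rfl
    apply h2
    exact_mod_cast CharP.cast_eq_zero F 2
  have hpodd : Odd p := hpp.odd_of_ne_two hp2
  rcases subfield_step (by omega) H R hA hSC hR hrq hx hE with h | hmin
  · exact h
  have h4p2 : 4 ∣ p ^ 2 - 1 := by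
    obtain ⟨k, rfl⟩ := hpodd
    have : (2 * k + 1) ^ 2 - 1 = 4 * (k * (k + 1)) := by
      have : (2 * k + 1) ^ 2 = 4 * (k * (k + 1)) + 1 := by ring
      omega
    rw [this]
    exact Dvd.intro _ rfl
  have hE2 : (E : ℕ) ≤ 2 := by
    by_contra hcon
    exact hmin 2 (by norm_num) (by omega) h4p2
  have hE0 := E.pos
  have hE1 : (E : ℕ) = 1 := by
    by_contra hne
    have hE3 : (E : ℕ) = 2 := by omega
    have h41 : ¬ 4 ∣ p ^ 1 - 1 := hmin 1 (by norm_num) (by omega)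
    rw [pow_one] at h41
    have h4 : 4 ∣ p ^ 1 + 1 := by
      rw [pow_one]
      obtain ⟨k, rfl⟩ := hpodd
      omega
    obtain ⟨M, hM, hHM⟩ := unitary_step (f := 1) hn H R hA hSC hR hx (p := p) (by rw [hE, hE3]) (by norm_num) h4
    exact hNo M hM hHM
  have hP : IsPGroup 2 R := fun x => ⟨2, by
    exact Subtype.ext (by simpa using hx x x.2)⟩
  obtain ⟨m, hm, hcard⟩ := card_of_center hA hSC Nat.prime_two hP (a := 2) (by rw [hcen]; rfl)
  have hn4 : 4 ≤ Fintype.card (Fin n) := by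
    rw [hm]
    rw [Fintype.card_fin] at hm
    match m, hm with
    | 0, hm => simp at hm; omega
    | 1, hm => simp at hm; omega
    | (k + 2), hm =>
      calc 4 = 2 ^ 2 := by norm_num
        _ ≤ 2 ^ (k + 2) := Nat.pow_le_pow_right (by norm_num) (by omega)
  have hexp : Monoid.exponent R = 2 * Nat.gcd 2 2 := by
    rw [Nat.gcd_self]
    apply Nat.dvd_antisymm
    · apply Monoid.exponent_dvd_of_forall_pow_eq_one
      intro t
      exact Subtype.ext (by simpa using hx t t.2)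
    · have := Monoid.order_dvd_exponent (⟨sc i, hiR⟩ : R)
      rwa [Subgroup.orderOf_mk, hord] at this
  have hdata : IsLinearSymplecticTypeData 2 R := by
    refine ⟨⟨Nat.prime_two, hP, fun A hA' hAc => cyclic_of_char hn hNo hR A hA' hAc, hexp⟩, hA, p, E, hp2.symm,
      ⟨hpp, hpc, hE, ?_, ?_⟩, Or.inr (Or.inl ⟨rfl, hE1, hcen, hn4, m, hcard⟩)⟩
    · rw [hcen, ← hE]
      exact hrq
    · rw [hcen]
      exact hmin
  exact ⟨_, cl_symplType hdata, le_normalizer hR⟩

end Cfsg.Agent.Lib.Asch.XO
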