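import Mathlib
import Cfsg.Agent.Lib.Asch.XO

/-!
# Invariant forms of absolutely irreducible groups with scalar commutators
-/

set_option autoImplicit false

namespace Cfsg.Agent.Lib.Asch.XI

open Matrix Module Cfsg Cfsg.Geo
open Cfsg.Agent.Lib.Asch.Basic Cfsg.Agent.Lib.Asch.SC Cfsg.Agent.Lib.Asch.Mono Cfsg.Agent.Lib.Asch.Forms
  Cfsg.Agent.Lib.Asch.FieldSub Cfsg.Agent.Lib.Asch.Desc Cfsg.Agent.Lib.Asch.FStep Cfsg.Agent.Lib.Asch.GT
  Cfsg.Agent.Lib.Asch.Res Cfsg.Agent.Lib.Asch.H1 Cfsg.Agent.Lib.Asch.Cl Cfsg.Agent.Lib.Asch.XS Cfsg.Agent.Lib.Asch.XT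
  Cfsg.Agent.Lib.Asch.XO

universe u

variable {ι : Type} [Fintype ι] [DecidableEq ι] {F : Type u} [Field F]

/-- An invariant nondegenerate bilinear form gives a form preserved by the group. -/
theorem exists_form_class {n : ℕ} [Fintype F] (hn : 3 ≤ n) {H R : Subgroup (GL (Fin n) F)} (hR : HN H R)
    (hA : ActsAbsolutelyIrreducibly (matrixSet R)) (h2 : (2 : F) ≠ 0) {B : Matrix (Fin n) (Fin n) F} (hB : IsUnit B)
    (hinv : ∀ y ∈ R, (y : Matrix (Fin n) (Fin n) F)ᵀ * B * (y : Matrix (Fin n) (Fin n) F) = B) :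
    ∃ M, InLinearClass n F M ∧ H ≤ M := by
  classical
  haveI : Nonempty (Fin n) := ⟨⟨0, by omega⟩⟩
  let f : (Fin n → F) → (Fin n → F) → F := fun u v => u ⬝ᵥ (B *ᵥ v)
  have hS : Sesq (RingEquiv.refl F) f := by
    refine ⟨fun x y v => ?_, fun c x v => ?_, fun v x y => ?_, fun c v x => ?_⟩
    · simp only [f, add_dotProduct]
    · simp only [f, smul_dotProduct, smul_eq_mul]
    · simp only [f, Matrix.mulVec_add, dotProduct_add]
    · simp only [f, Matrix.mulVec_smul, dotProduct_smul, smul_eq_mul, RingEquiv.refl_apply]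
  have hG : Sesq (RingEquiv.refl F) (fun u v => f v u) := by
    refine ⟨fun x y v => ?_, fun c x v => ?_, fun v x y => ?_, fun c v x => ?_⟩
    · exact hS.add_right _ _ _
    · exact hS.smul_right _ _ _
    · exact hS.add_left _ _ _
    · exact hS.smul_left _ _ _
  have hBT : IsUnit Bᵀ := (Matrix.isUnit_transpose _).2 hB
  have hnd : IsNondegenerateForm f := by
    intro v hv
    have h1 : B *ᵥ v ≠ 0 := by
      intro h0
      apply hv
      apply Matrix.mulVec_injective_of_isUnit hB
      rw [h0, Matrix.mulVec_zero]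
    have h3 : Bᵀ *ᵥ v ≠ 0 := by
      intro h0
      apply hv
      apply Matrix.mulVec_injective_of_isUnit hBT
      rw [h0, Matrix.mulVec_zero]
    constructor
    · obtain ⟨l, hl⟩ : ∃ l, (B *ᵥ v) l ≠ 0 := by
        by_contra hcon
        push Not at hcon
        exact h1 (funext hcon)
      refine ⟨Pi.single l 1, ?_⟩
      simp only [f]
      rw [single_one_dotProduct]
      exact hl
    · obtain ⟨l, hl⟩ : ∃ l, (Bᵀ *ᵥ v) l ≠ 0 := by
        by_contra hcon
        push Not at hcon
        exact h3 (funext hcon)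
      refine ⟨Pi.single l 1, ?_⟩
      simp only [f]
      rw [Matrix.dotProduct_mulVec, ← Matrix.mulVec_transpose, dotProduct_single_one]
      exact hl
  have hfix : FixesForm (matrixSet R) f := by
    rintro _ ⟨y, hy, rfl⟩ u v
    simp only [f]
    have h3 := hinv y hy
    conv_rhs => rw [← h3]
    rw [← Matrix.mulVec_mulVec, ← Matrix.mulVec_mulVec, Matrix.dotProduct_mulVec u, Matrix.vecMul_transpose]
  have hfixG : FixesForm (matrixSet R) (fun u v => f v u) := fun s hs u v => hfix s hs v u
  obtain ⟨c, hc⟩ := forms_proportional hS hG hnd hA hfix hfixG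
  -- `c ^ 2 = 1`
  have hc2 : c ^ 2 = 1 := by
    let i₀ : Fin n := ⟨0, by omega⟩
    have he : (Pi.single i₀ 1 : Fin n → F) ≠ 0 := by
      intro h
      have := congrFun h i₀
      simp at this
    obtain ⟨⟨u, hu⟩, -⟩ := hnd _ he
    set v : Fin n → F := Pi.single i₀ 1
    have h3 := hc u v
    have h4 := hc v u
    have h5 : f u v = c ^ 2 * f u v := by
      change f v u = c * f u v at h3
      change f u v = c * f v u at h4
      calc f u v = c * f v u := h4
        _ = c * (c * f u v) := by rw [h3]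
        _ = c ^ 2 * f u v := by ring
    have h6 : (c ^ 2 - 1) * f u v = 0 := by linear_combination -h5
    rcases mul_eq_zero.1 h6 with h7 | h7
    · linear_combination h7
    · exact absurd h7 hu
  have hc3 : (c - 1) * (c + 1) = 0 := by linear_combination hc2
  rcases mul_eq_zero.1 hc3 with h3 | h3
  · -- symmetric
    have hc1 : c = 1 := by linear_combination h3
    have hsym : ∀ u v, f v u = f u v := by
      intro u v
      have := hc u v
      rw [hc1, one_mul] at this
      exact this
    let Q : (Fin n → F) → F := fun v => f v v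
    have hpol : ∀ u v, QuadraticMap.polar Q u v = 2 * f u v := by
      intro u v
      simp only [QuadraticMap.polar, Q]
      rw [hS.add_left, hS.add_right, hS.add_right, hsym u v]
      ring
    have hQ : IsNondegenerateQuadraticForm Q := by
      refine ⟨fun a v => ?_, ⟨fun x y v => ?_, fun a x v => ?_, fun v x y => ?_, fun a v x => ?_⟩, fun v hv => ?_⟩
      · simp only [Q]
        rw [hS.smul_left, hS.smul_right]
        simp only [RingEquiv.refl_apply]
        ring
      · rw [hpol, hpol, hpol, hS.add_left]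
        ring
      · rw [hpol, hpol, hS.smul_left]
        ring
      · rw [hpol, hpol, hpol, hS.add_right]
        ring
      · rw [hpol, hpol, hS.smul_right]
        simp only [RingEquiv.refl_apply]
        ring
      · obtain ⟨⟨x, hx⟩, ⟨y, hy⟩⟩ := hnd v hv
        refine ⟨⟨x, ?_⟩, ⟨y, ?_⟩⟩
        · rw [hpol]
          exact mul_ne_zero h2 hx
        · rw [hpol]
          exact mul_ne_zero h2 hy
    exact no_quad hn hA hR hQ (fun s hs v => hfix s hs v v)
  · -- alternating
    have hc1 : c = -1 := by linear_combination h3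
    have hskew : ∀ u v, f v u = - f u v := by
      intro u v
      have := hc u v
      rw [hc1] at this
      simpa using this
    have hf : IsSymplecticForm f := by
      refine ⟨⟨hS.add_left, hS.smul_left, hS.add_right, fun a v x => hS.smul_right a v x⟩, fun v w => hskew w v, fun v => ?_, hnd⟩
      have h4 := hskew v v
      have h5 : 2 * f v v = 0 := by linear_combination h4
      exact (mul_eq_zero.1 h5).resolve_left h2
    exact no_symp hn hA hR hf hfix

/-- The averaged form. -/
theorem exists_inv_form [Nonempty ι] {R : Subgroup (GL ι F)} [Fintype R] (hA : ActsAbsolutelyIrreducibly (matrixSet R)) {κ : F}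
    (hκ : κ ≠ 0) (hT : ∑ x : R, Matrix.trace ((x : GL ι F) : Matrix ι ι F) • (((x : GL ι F) : Matrix ι ι F)) = κ • (1 : Matrix ι ι F)) :
    ∃ B : Matrix ι ι F, IsUnit B ∧ ∀ y ∈ R, (y : Matrix ι ι F)ᵀ * B * (y : Matrix ι ι F) = B := by
  classical
  obtain ⟨i⟩ := ‹Nonempty ι›
  have h1 := congrFun (congrFun hT i) i
  simp only [Matrix.sum_apply, Matrix.smul_apply, Matrix.one_apply_eq, smul_eq_mul, mul_one, Matrix.trace, Matrix.diag] at h1
  simp only [Finset.sum_mul] at h1
  rw [Finset.sum_comm] at h1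
  obtain ⟨k, -, hk⟩ : ∃ k ∈ Finset.univ, ∑ x : R, ((x : GL ι F) : Matrix ι ι F) k k * ((x : GL ι F) : Matrix ι ι F) i i ≠ 0 := by
    apply Finset.exists_ne_zero_of_sum_ne_zero
    rw [h1]
    exact hκ
  let M : Matrix ι ι F := Matrix.single k i 1
  let B : Matrix ι ι F := ∑ x : R, ((x : GL ι F) : Matrix ι ι F)ᵀ * M * ((x : GL ι F) : Matrix ι ι F)
  have hBe : ∀ (X : Matrix ι ι F) a b, (Xᵀ * M * X) a b = X k a * X i b := by
    intro X a b
    rw [Matrix.mul_apply]
    simp only [Matrix.mul_apply, M, Matrix.single_apply, Matrix.transpose_apply]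
    rw [Finset.sum_eq_single i]
    · rw [Finset.sum_eq_single k]
      · simp
      · intro l _ hl
        simp [hl.symm]
      · simp
    · intro l _ hl
      simp [Ne.symm hl]
    · simp
  have hB0 : B ≠ 0 := by
    intro h0
    apply hk
    have := congrFun (congrFun h0 k) i
    simp only [B, Matrix.sum_apply, hBe] at this
    exact this
  have hinv : ∀ y ∈ R, (y : Matrix ι ι F)ᵀ * B * (y : Matrix ι ι F) = B := by
    intro y hy
    simp only [B, Finset.mul_sum, Finset.sum_mul]
    refine Fintype.sum_equiv (Equiv.mulRight (⟨y, hy⟩ : R)) _ _ fun x => ?_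
    simp only [Equiv.coe_mulRight, Subgroup.coe_mul, Units.val_mul, Matrix.transpose_mul]
    simp only [mul_assoc]
  refine ⟨B, ?_, hinv⟩
  -- the radical
  let W : Submodule F (ι → F) := LinearMap.ker (Matrix.toLin' B)
  have hW := hA.1 W (by
    rintro _ ⟨y, hy, rfl⟩
    rintro _ ⟨v, hv, rfl⟩
    change Matrix.toLin' B _ = 0
    have hv' : B *ᵥ v = 0 := by simpa [W] using hv
    have h3 : (y : Matrix ι ι F)ᵀ *ᵥ (B *ᵥ ((y : Matrix ι ι F) *ᵥ v)) = 0 := by
      rw [Matrix.mulVec_mulVec, Matrix.mulVec_mulVec, hinv y hy, hv']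
    have hu : IsUnit (y : Matrix ι ι F)ᵀ := (Matrix.isUnit_transpose _).2 y.isUnit
    have h4 := Matrix.mulVec_injective_of_isUnit hu (h3.trans (Matrix.mulVec_zero _).symm)
    simpa using h4)
  rcases hW with hW | hW
  · apply (Matrix.mulVec_injective_iff_isUnit).1
    intro a b hab
    have h3 : a - b ∈ W := by
      change Matrix.toLin' B _ = 0
      rw [Matrix.toLin'_apply, Matrix.mulVec_sub, hab, sub_self]
    rw [hW, Submodule.mem_bot] at h3
    exact sub_eq_zero.1 h3
  · exfalso
    apply hB0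
    have h3 : Matrix.toLin' B = 0 := LinearMap.ker_eq_top.1 hW
    simpa using h3

end Cfsg.Agent.Lib.Asch.XI
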