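import Mathlib
import Cfsg.Agent.Lib.Asch.XI
import Cfsg.Agent.Lib.Asch.Ten

/-!
# Subgroups of the general linear group: the geometric classes and the residual class
-/

set_option autoImplicit false

namespace Cfsg.Agent.Lib.Asch.Main

open Matrix Module Cfsg Cfsg.Geo
open Cfsg.Agent.Lib.Asch.Basic Cfsg.Agent.Lib.Asch.SC Cfsg.Agent.Lib.Asch.Mono Cfsg.Agent.Lib.Asch.Forms
  Cfsg.Agent.Lib.Asch.FieldSub Cfsg.Agent.Lib.Asch.Desc Cfsg.Agent.Lib.Asch.FStep Cfsg.Agent.Lib.Asch.GT
  Cfsg.Agent.Lib.Asch.Res Cfsg.Agent.Lib.Asch.H1 Cfsg.Agent.Lib.Asch.Cl Cfsg.Agent.Lib.Asch.XS Cfsg.Agent.Lib.Asch.XT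
  Cfsg.Agent.Lib.Asch.XO Cfsg.Agent.Lib.Asch.XI Cfsg.Agent.Lib.Asch.Ten

universe u

variable {ι : Type} [Fintype ι] [DecidableEq ι] {F : Type u} [Field F]

/-- Adjoining the scalars of order dividing four. -/
def Rf (R : Subgroup (GL ι F)) : Subgroup (GL ι F) where
  carrier := {g | ∃ x ∈ R, ∃ c : Fˣ, c ^ 4 = 1 ∧ g = x * sc c}
  mul_mem' := by
    rintro _ _ ⟨x, hx, c, hc, rfl⟩ ⟨y, hy, d, hd, rfl⟩
    refine ⟨x * y, R.mul_mem hx hy, c * d, by rw [mul_pow, hc, hd, one_mul], ?_⟩
    rw [map_mul]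
    have := sc_comm c y
    calc x * sc c * (y * sc d) = x * (sc c * y) * sc d := by simp only [mul_assoc]
      _ = x * y * (sc c * sc d) := by rw [this]; simp only [mul_assoc]
  one_mem' := ⟨1, R.one_mem, 1, one_pow _, by simp⟩
  inv_mem' := by
    rintro _ ⟨x, hx, c, hc, rfl⟩
    refine ⟨x⁻¹, R.inv_mem hx, c⁻¹, by rw [inv_pow, hc, inv_one], ?_⟩
    rw [_root_.mul_inv_rev, map_inv]
    have := sc_comm c⁻¹ x⁻¹
    rwa [map_inv] at this

theorem Rf_HN {H R : Subgroup (GL ι F)} (hR : HN H R) : HN H (Rf R) := by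
  rintro h hh _ ⟨x, hx, c, hc, rfl⟩
  refine ⟨h * x * h⁻¹, hR h hh x hx, c, hc, ?_⟩
  have := sc_comm c h⁻¹
  simp only [mul_assoc]
  rw [this]

theorem le_Rf (R : Subgroup (GL ι F)) : R ≤ Rf R := fun x hx => ⟨x, hx, 1, one_pow _, by simp⟩

theorem Rf_ScC {R : Subgroup (GL ι F)} (hSC : ScC R) : ScC (Rf R) := by
  rintro _ ⟨x, hx, c, -, rfl⟩ _ ⟨y, hy, d, -, rfl⟩
  obtain ⟨κ, hκ⟩ := hSC x hx y hy
  refine ⟨κ, ?_⟩
  simp only [Units.val_mul, sc_val, Matrix.mul_smul, Matrix.smul_mul, mul_one, smul_smul, hκ]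
  congr 1
  ring

variable [Fintype F]

theorem two_case {n : ℕ} (hn : 3 ≤ n) {H R : Subgroup (GL (Fin n) F)} (hNo : ∀ M, InLinearClass n F M → ¬ H ≤ M) (hR : HN H R)
    (hA : ActsAbsolutelyIrreducibly (matrixSet R)) (hSC : ScC R) (h2 : ∀ x ∈ R, ∃ m : Fˣ, m ^ 2 = 1 ∧ x ^ 2 = sc m) :
    ∃ M, InLinearClass n F M ∧ H ≤ M := by
  classical
  haveI : Nonempty (Fin n) := ⟨⟨0, by omega⟩⟩
  obtain ⟨x, hx, y, hy, c, hc1, hcR, hyx⟩ := exists_comm_elt (by omega) hA hSC
  obtain ⟨m, hm, hxm⟩ := h2 x hx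
  have hx2c : ∀ g, x ^ 2 * g = g * x ^ 2 := by
    intro g
    rw [hxm]
    exact sc_comm m g
  have hc2 : (sc c : GL (Fin n) F) ^ 2 = 1 := gp_comm_pow (sc_comm c) hyx hx2c
  have hcc : c ^ 2 = 1 := sc_inj (ι := Fin n) (by rw [map_pow, hc2, map_one])
  have hcF : (c : F) ^ 2 = 1 := by
    have := congrArg Units.val hcc
    simpa using this
  have hc1F : (c : F) ≠ 1 := fun h => hc1 (Units.ext h)
  have hcn : (c : F) = -1 := by
    have h3 : ((c : F) - 1) * ((c : F) + 1) = 0 := by linear_combination hcF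
    rcases mul_eq_zero.1 h3 with h4 | h4
    · exact absurd (sub_eq_zero.1 h4) hc1F
    · linear_combination h4
  have hne : (-1 : F) ≠ 1 := by
    rw [← hcn]
    exact hc1F
  have h2F : (2 : F) ≠ 0 := by
    intro h
    apply hne
    linear_combination -h
  by_cases hi : ∃ i : F, i ^ 2 = -1
  · obtain ⟨i, hi⟩ := hi
    have hi0 : i ≠ 0 := by
      rintro rfl
      rw [zero_pow (by norm_num)] at hi
      exact one_ne_zero (α := F) (by linear_combination hi)
    have hi4 : (Units.mk0 i hi0) ^ 4 = 1 := by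
      apply Units.ext
      rw [Units.val_pow_eq_pow_val, Units.val_mk0, Units.val_one]
      calc i ^ 4 = (i ^ 2) ^ 2 := by ring
        _ = 1 := by rw [hi]; ring
    have hx4 : ∀ g ∈ Rf R, g ^ 4 = 1 := by
      rintro _ ⟨a, ha, d, hd, rfl⟩
      obtain ⟨m', hm', ham⟩ := h2 a ha
      have hcomm : Commute a (sc d) := (sc_comm d a).symm
      rw [hcomm.mul_pow, ← map_pow, hd, map_one, mul_one]
      calc a ^ 4 = (a ^ 2) ^ 2 := by rw [← pow_mul]
        _ = 1 := by rw [ham, ← map_pow, hm', map_one]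
    exact four_case hn hNo (Rf_HN hR) (absIrr_mono (le_Rf R) hA) (Rf_ScC hSC) hx4 (i := Units.mk0 i hi0) hi
      ⟨1, R.one_mem, _, hi4, by simp⟩ h2F
  · haveI : Fintype R := Fintype.ofFinite R
    let e₁ : R := 1
    let e₂ : R := ⟨sc c, hcR⟩
    have hne12 : e₁ ≠ e₂ := by
      intro h
      have h3 : (1 : GL (Fin n) F) = sc c := congrArg Subtype.val h
      apply hc1
      apply sc_inj (ι := Fin n)
      rw [← h3, map_one]
    have hsum : ∑ t : R, Matrix.trace ((t : GL (Fin n) F) : Matrix (Fin n) (Fin n) F) • (((t : GL (Fin n) F) : Matrix (Fin n) (Fin n) F)) =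
        (2 * (Fintype.card (Fin n) : F)) • (1 : Matrix (Fin n) (Fin n) F) := by
      rw [← Finset.sum_subset (Finset.subset_univ ({e₁, e₂} : Finset R))]
      · rw [Finset.sum_pair hne12]
        have h1 : ((e₁ : R) : GL (Fin n) F) = 1 := rfl
        have h3 : ((e₂ : R) : GL (Fin n) F) = sc c := rfl
        rw [h1, h3, sc_val, Units.val_one, Matrix.trace_smul, Matrix.trace_one, hcn]
        simp only [smul_eq_mul, smul_smul]
        rw [← add_smul]
        congr 1
        ring
      · intro t _ ht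
        have htZ : (t : GL (Fin n) F) ∉ scalars (Fin n) F := by
          intro htZ0
          obtain ⟨a, ha⟩ := mem_scalars_sc.1 htZ0
          apply ht
          obtain ⟨m', hm', htm⟩ := h2 t t.2
          rw [← ha, ← map_pow] at htm
          have h3 := sc_inj (ι := Fin n) htm
          have h4 : (a : F) ^ 4 = 1 := by
            have h5 := congrArg (fun w : Fˣ => w ^ 2) h3
            simp only [hm'] at h5
            have h6 := congrArg Units.val h5
            simp only [Units.val_pow_eq_pow_val, Units.val_one] at h6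
            calc (a : F) ^ 4 = ((a : F) ^ 2) ^ 2 := by ring
              _ = 1 := h6
          have h5 : ((a : F) ^ 2 - 1) * ((a : F) ^ 2 + 1) = 0 := by linear_combination h4
          rcases mul_eq_zero.1 h5 with h6 | h6
          · have h7 : ((a : F) - 1) * ((a : F) + 1) = 0 := by linear_combination h6
            rw [Finset.mem_insert, Finset.mem_singleton]
            rcases mul_eq_zero.1 h7 with h8 | h8
            · left
              apply Subtype.ext
              change (t : GL (Fin n) F) = 1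
              rw [← ha]
              have : a = 1 := Units.ext (by rw [Units.val_one]; linear_combination h8)
              rw [this, map_one]
            · right
              apply Subtype.ext
              change (t : GL (Fin n) F) = sc c
              rw [← ha]
              have : a = c := Units.ext (by rw [hcn]; linear_combination h8)
              rw [this]
          · exact absurd ⟨a, by linear_combination h6⟩ hi
        rw [trace_eq_zero hA hSC t.2 htZ, zero_smul]
    have hκ : (2 * (Fintype.card (Fin n) : F)) ≠ 0 := mul_ne_zero h2F (card_ne_zero hA hSC)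
    obtain ⟨B, hB, hinv⟩ := exists_inv_form hA hκ hsum
    exact exists_form_class hn hR hA h2F hB hinv

/-- The extraspecial case. -/
theorem extraspecial_case {n : ℕ} (hn : 3 ≤ n) (H N : Subgroup (GL (Fin n) F)) (hNo : ∀ M, InLinearClass n F M → ¬ H ≤ M)
    (hHN : HN H N) (hNZ : ¬ N ≤ scalars (Fin n) F) (hcomm : ⁅N, N⁆ ≤ scalars (Fin n) F) (hZN : H ⊓ scalars (Fin n) F ≤ N)
    (hmin : ∀ N', HN H N' → H ⊓ scalars (Fin n) F ≤ N' → N' ≤ N → N' ≤ scalars (Fin n) F ∨ N' = N) : False := by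
  classical
  haveI : Nonempty (Fin n) := ⟨⟨0, by omega⟩⟩
  have hA := (normal_dichotomy hn H hNo N hHN).resolve_left hNZ
  have hcomm' : ∀ x ∈ N, ∀ y ∈ N, ∃ c : Fˣ, y * x = sc c * (x * y) := by
    intro x hx y hy
    obtain ⟨c, hc⟩ := mem_scalars_sc.1 (show y * x * y⁻¹ * x⁻¹ ∈ scalars (Fin n) F from hcomm (Subgroup.commutator_mem_commutator hy hx))
    refine ⟨c, ?_⟩
    rw [hc]
    group
  have hSC : ScC N := by
    intro x hx y hy
    obtain ⟨c, hc⟩ := hcomm' y hy x hx
    refine ⟨c, ?_⟩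
    have := congrArg Units.val hc
    rw [Units.val_mul, Units.val_mul, Units.val_mul, sc_val, Matrix.smul_mul, one_mul] at this
    exact this
  obtain ⟨r, hr, hZr⟩ := exists_prime_all_pow scalars_le_center hHN hNZ hcomm hZN hmin
  have hcd : ∀ x ∈ N, ∀ y ∈ N, ∃ c : Fˣ, c ^ r = 1 ∧ y * x = sc c * (x * y) := by
    intro x hx y hy
    obtain ⟨c, hc⟩ := hcomm' x hx y hy
    refine ⟨c, ?_, hc⟩
    have hcen : ∀ g, x ^ r * g = g * x ^ r := fun g => comm_of_mem_scalars (hZr x hx)
    have := gp_comm_pow (sc_comm c) hc hcen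
    exact sc_inj (ι := Fin n) (by rw [map_pow, this, map_one])
  have hnon := exists_noncomm (by omega) hA
  rcases hr.eq_two_or_odd' with rfl | hodd
  · have hmul : ∀ x ∈ N, ∀ y ∈ N, ∃ m ∈ (powMonoidHom 2 : Fˣ →* Fˣ).ker, (x * y) ^ 2 = sc m * (x ^ 2 * y ^ 2) := by
      intro x hx y hy
      obtain ⟨c, hc2, hc⟩ := hcd x hx y hy
      refine ⟨c, hc2, ?_⟩
      have := gp_mul_pow (sc_comm c) hc 2
      simpa using this
    have hRnot := Rr_not_le (μ := (powMonoidHom 2 : Fˣ →* Fˣ).ker) (hmul := hmul) hZr hnon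
    have hRHN : HN H (Rr N 2 (powMonoidHom 2 : Fˣ →* Fˣ).ker hmul) := Rr_HN hHN
    have hRA := (normal_dichotomy hn H hNo _ hRHN).resolve_left hRnot
    have hRSC : ScC (Rr N 2 (powMonoidHom 2 : Fˣ →* Fˣ).ker hmul) := hSC.mono fun x hx => hx.1
    obtain ⟨M, hM, hHM⟩ := two_case hn hNo hRHN hRA hRSC (by
      rintro x ⟨-, m, hm, h⟩
      exact ⟨m, hm, h⟩)
    exact hNo M hM hHM
  · have hmul : ∀ x ∈ N, ∀ y ∈ N, ∃ m ∈ (⊥ : Subgroup Fˣ), (x * y) ^ r = sc m * (x ^ r * y ^ r) := by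
      intro x hx y hy
      obtain ⟨c, hc2, hc⟩ := hcd x hx y hy
      refine ⟨1, Subgroup.one_mem _, ?_⟩
      have h1 := gp_mul_pow (sc_comm c) hc r
      have h3 : r ∣ r.choose 2 := hr.dvd_choose_self (by norm_num) (by
        have := hr.two_le
        rcases Nat.lt_or_ge 2 r with h | h
        · exact h
        · have : r = 2 := by omega
          subst this
          exact absurd hodd (by decide))
      obtain ⟨t, ht⟩ := h3
      rw [ht, pow_mul, ← map_pow, hc2, map_one, one_pow] at h1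
      rw [h1, map_one]
    have hRnot := Rr_not_le (μ := ⊥) (hmul := hmul) hZr hnon
    have hRHN : HN H (Rr N r ⊥ hmul) := Rr_HN hHN
    have hRA := (normal_dichotomy hn H hNo _ hRHN).resolve_left hRnot
    have hRSC : ScC (Rr N r ⊥ hmul) := hSC.mono fun x hx => hx.1
    obtain ⟨M, hM, hHM⟩ := odd_case hn hNo hRHN hRA hRSC hr hodd (by
      rintro x ⟨-, m, hm, h⟩
      rw [h, (Subgroup.mem_bot.1 hm), map_one])
    exact hNo M hM hHM

/-- The theorem of Aschbacher for the linear groups. -/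
theorem aschbacher_linear {n : ℕ} (hn : 3 ≤ n) (H : Subgroup (GL (Fin n) F)) :
    (∃ M, InLinearClass n F M ∧ H ≤ M) ∨ InLinearResidualClass H := by
  classical
  by_cases hex : ∃ M, InLinearClass n F M ∧ H ≤ M
  · exact Or.inl hex
  right
  have hNo : ∀ M, InLinearClass n F M → ¬ H ≤ M := fun M hM hHM => hex ⟨M, hM, hHM⟩
  haveI : Nonempty (Fin n) := ⟨⟨0, by omega⟩⟩
  have hHZ : ¬ H ≤ scalars (Fin n) F := by
    intro hle
    let i₀ : Fin n := ⟨0, by omega⟩
    let e : Fin n → F := Pi.single i₀ 1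
    have he : e ≠ 0 := by
      intro h
      have := congrFun h i₀
      simp [e] at this
    let W : Submodule F (Fin n → F) := Submodule.span F {e}
    have hW0 : W ≠ ⊥ := by
      intro h
      exact he (by simpa [W] using h)
    have hW1 : W ≠ ⊤ := by
      intro h
      have h1 : Module.finrank F W = 1 := finrank_span_singleton he
      rw [h, finrank_top, Module.finrank_fintype_fun_eq_card, Fintype.card_fin] at h1
      omega
    exact hNo _ (cl_sub W hW0 hW1) (hle.trans (Cfsg.Agent.Lib.Geo.Basic.scalars_le_subspaceStabilizer W))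
  rcases trichotomy scalars_le_center hHZ with
    ⟨N, hNH, hNn, hNZ, hab, hZN, hmin⟩ | ⟨M, hMH, hMn, hMZ, hMp, hs⟩ | ⟨M, T, hMH, hMn, hMZ, hMp, hTM, hTn, hTZ, hTp, hF, hG, hne⟩
  · exact (extraspecial_case hn H N hNo hNn hNZ hab hZN hmin).elim
  · exact residual_of_simple hn H hNo M hMH hMn hMZ hMp hs
  · exact (tensor_case hn H hNo M T hMn hMZ hTn hTZ hF hG hne).elim

end Cfsg.Agent.Lib.Asch.Main
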