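import Mathlib
import Cfsg.Agent.Lib.Asch.Main
import Cfsg.Agent.Lib.Geo.Parabolic
import Cfsg.Agent.Lib.Geo.SLSub
import Cfsg.Agent.Lib.NotMax.Tensor
import Cfsg.Agent.Lib.NotMax.SetStab
import Cfsg.Agent.Lib.SLC2.BlockD

/-!
# The special linear group lies in no member of the geometric classes
-/

set_option autoImplicit false

namespace Cfsg.Agent.Lib.Asch.MaxSL

open Matrix Module Cfsg Cfsg.Geo Cfsg.Agent.Lib.Geo.Basic Cfsg.Agent.Lib.NotMax.SetStab
open Cfsg.Agent.Lib.Asch.Basic Cfsg.Agent.Lib.Asch.SC Cfsg.Agent.Lib.Asch.Mono Cfsg.Agent.Lib.Asch.GT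
  Cfsg.Agent.Lib.Asch.Cl Cfsg.Agent.Lib.Asch.XT Cfsg.Agent.Lib.Asch.Main

universe u

theorem eq_inf_of_le {G : Type*} [Group G] {SL H M : Subgroup G} (hH : IsMaximalIn SL H) (h : H ≤ M) (hSL : ¬ SL ≤ M) :
    H = M ⊓ SL := by
  obtain ⟨hlt, hmax⟩ := hH
  rcases hmax (M ⊓ SL) (le_inf h hlt.le) inf_le_right with h1 | h1
  · exact h1.symm
  · exact absurd (h1 ▸ inf_le_left : SL ≤ M) hSL

variable {ι : Type} [Fintype ι] [DecidableEq ι] {F : Type u} [Field F]

theorem sl_not_le_stab {W : Submodule F (ι → F)} (hW0 : W ≠ ⊥) (hW1 : W ≠ ⊤) :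
    ¬ specialLinear ι F ≤ subspaceStabilizer W := by
  intro h
  obtain ⟨u, φ, hφ, hn⟩ := Cfsg.Agent.Lib.Geo.Parabolic.exists_transv_not_mem_subspaceStabilizer W hW0 hW1
  exact hn (h (transv_mem_specialLinear u φ hφ))

/-- Functional taking prescribed values on a pair. -/
theorem exists_functional {u w : ι → F} (h : w ∉ Submodule.span F {u}) :
    ∃ φ : ι → F, φ ⬝ᵥ u = 0 ∧ φ ⬝ᵥ w = 1 := by
  obtain ⟨φ, h1, h2⟩ := exists_dotProduct_eq_one_of_notMem (Submodule.span F {u}) w h
  exact ⟨φ, h1 u (Submodule.mem_span_singleton_self u), h2⟩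

theorem sl_not_le_decomp {t m : ℕ} {D : Fin t → Submodule F (ι → F)} (hD : IsMDecomposition m D) :
    ¬ specialLinear ι F ≤ decompositionStabilizer D := by
  intro hle
  have ht := hD.two_le
  let i₀ : Fin t := ⟨0, by omega⟩
  let i₁ : Fin t := ⟨1, by omega⟩
  have hne : i₀ ≠ i₁ := by simp [i₀, i₁, Fin.ext_iff]
  have hnb : ∀ i, D i ≠ ⊥ := by
    intro i h
    have := hD.finrank_eq i
    rw [h] at this
    simp at this
    have := hD.pos
    omega
  obtain ⟨w, hw, hw0⟩ := Submodule.exists_mem_ne_zero_of_ne_bot (hnb i₀)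
  obtain ⟨u, hu, hu0⟩ := Submodule.exists_mem_ne_zero_of_ne_bot (hnb i₁)
  have hdisj : ∀ {a b : Fin t} {x : ι → F}, a ≠ b → x ∈ D a → x ∈ D b → x = 0 := by
    intro a b x hab hxa hxb
    have h1 := hD.indep.pairwiseDisjoint hab
    exact (Submodule.disjoint_def.1 h1) x hxa hxb
  have hwu : w ∉ Submodule.span F {u} := by
    intro hmem
    obtain ⟨c, hc⟩ := Submodule.mem_span_singleton.mp hmem
    exact hw0 (hdisj hne hw (by rw [← hc]; exact (D i₁).smul_mem _ hu))
  obtain ⟨φ, hφu, hφw⟩ := exists_functional hwu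
  obtain ⟨σ, hσ⟩ := hle (transv_mem_specialLinear u φ hφu)
  have h1 : ((transv u φ hφu : GL ι F) : Matrix ι ι F) *ᵥ w ∈ D (σ i₀) := by
    rw [← hσ i₀]
    exact ⟨w, hw, rfl⟩
  rw [transv_mulVec, hφw, one_smul] at h1
  by_cases h0 : σ i₀ = i₀
  · rw [h0] at h1
    have : u ∈ D i₀ := by
      have := (D i₀).sub_mem h1 hw
      simpa using this
    exact hu0 (hdisj hne this hu)
  by_cases h2 : σ i₀ = i₁
  · rw [h2] at h1
    have : w ∈ D i₁ := by
      have := (D i₁).sub_mem h1 hu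
      simpa using this
    exact hw0 (hdisj hne hw this)
  · -- a third member
    have h3 : w + u ∈ ⨆ k : Fin t, ⨆ (_ : k ≠ σ i₀), D k := by
      refine Submodule.add_mem _ ?_ ?_
      · exact Submodule.mem_iSup_of_mem i₀ (Submodule.mem_iSup_of_mem (Ne.symm h0) hw)
      · exact Submodule.mem_iSup_of_mem i₁ (Submodule.mem_iSup_of_mem (Ne.symm h2) hu)
    have h4 := (Submodule.disjoint_def.1 (hD.indep (σ i₀))) _ h1 h3
    have h5 : u = -w := by
      rw [eq_neg_iff_add_eq_zero, add_comm]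
      exact h4
    apply hu0
    apply hdisj hne (x := u) _ hu
    rw [h5]
    exact (D i₀).neg_mem hw

theorem finrank_span_pair_le (a b : ι → F) : finrank F (Submodule.span F ({a, b} : Set (ι → F))) ≤ 2 := by
  classical
  have h := finrank_span_finset_le_card (R := F) ({a, b} : Finset (ι → F))
  rw [Finset.coe_pair] at h
  exact h.trans Finset.card_le_two

theorem sl_not_le_sim (hn : 3 ≤ Fintype.card ι) {f : (ι → F) → (ι → F) → F} (hadd : ∀ x y v, f (x + y) v = f x v + f y v)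
    (hsmul : ∀ (c : F) x v, f (c • x) v = c * f x v) (hnd : IsNondegenerateForm f) :
    ¬ specialLinear ι F ≤ similarityGroup f := by
  intro hle
  classical
  obtain ⟨i₀⟩ : Nonempty ι := by
    rw [← Fintype.card_pos_iff]
    omega
  let v : ι → F := Pi.single i₀ 1
  have hv : v ≠ 0 := by
    intro h
    have := congrFun h i₀
    simp [v] at this
  obtain ⟨⟨u, hu⟩, -⟩ := hnd v hv
  let L : (ι → F) →ₗ[F] F :=
    { toFun := fun x => f x v
      map_add' := fun x y => hadd x y v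
      map_smul' := fun c x => by simpa using hsmul c x v }
  let S : Submodule F (ι → F) := Submodule.span F {u, v}
  have hS : finrank F S ≤ 2 := finrank_span_pair_le u v
  have hker : finrank F (LinearMap.ker L) + 1 = Fintype.card ι := by
    have h1 := LinearMap.finrank_range_add_finrank_ker L
    have h2 : LinearMap.range L = ⊤ := by
      apply LinearMap.range_eq_top.2
      intro c
      refine ⟨(c * (f u v)⁻¹) • u, ?_⟩
      change f _ v = c
      rw [hsmul, mul_assoc, inv_mul_cancel₀ hu, mul_one]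
    rw [h2, finrank_top, finrank_self, Module.finrank_fintype_fun_eq_card] at h1
    omega
  obtain ⟨x, hxL, hxS⟩ : ∃ x, f x v = 0 ∧ x ∉ S := by
    by_contra hcon
    push Not at hcon
    have hle2 : LinearMap.ker L ≤ S := fun x hx => hcon x hx
    have hlt : LinearMap.ker L < S := by
      refine lt_of_le_of_ne hle2 fun h => ?_
      have : u ∈ LinearMap.ker L := by
        rw [h]
        exact Submodule.subset_span (by simp)
      exact hu this
    have := Submodule.finrank_lt_finrank_of_lt hlt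
    omega
  obtain ⟨φ, hφ1, hφ2⟩ := exists_dotProduct_eq_one_of_notMem S x hxS
  have hφu : φ ⬝ᵥ u = 0 := hφ1 u (Submodule.subset_span (by simp))
  have hφv : φ ⬝ᵥ v = 0 := hφ1 v (Submodule.subset_span (by simp))
  obtain ⟨c, hc⟩ := hle (transv_mem_specialLinear u φ hφu)
  have h3 := hc x v
  rw [transv_mulVec, transv_mulVec, hφ2, hφv, one_smul, zero_smul, add_zero, hadd, hxL, zero_add, mul_zero] at h3
  exact hu h3

theorem sl_not_le_quadSim (hn : 3 ≤ Fintype.card ι) {Q : (ι → F) → F} (hQ : IsNondegenerateQuadraticForm Q) :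
    ¬ specialLinear ι F ≤ quadSimilarityGroup Q := by
  intro hle
  refine sl_not_le_sim hn hQ.polar_bilinear.add_left hQ.polar_bilinear.smul_left hQ.nondegenerate (fun g hg => ?_)
  obtain ⟨c, hc⟩ := hle hg
  refine ⟨c, fun u v => ?_⟩
  simp only [QuadraticMap.polar]
  rw [← Matrix.mulVec_add, hc, hc, hc]
  ring

/-- A non-scalar matrix moves the line of some vector. -/
theorem exists_moved {k : Matrix ι ι F} (hk : ∀ c : F, k ≠ c • 1) :
    ∃ v : ι → F, v ≠ 0 ∧ k *ᵥ v ∉ Submodule.span F {v} := by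
  by_contra hcon
  push Not at hcon
  obtain ⟨a, ha⟩ := LinearMap.exists_eq_smul_id_of_forall_notLinearIndependent (f := Matrix.toLin' k) (fun v => by
    by_cases hv : v = 0
    · rw [hv]
      intro h
      exact h.ne_zero (i := 0) (by simp)
    · have h1 := hcon v hv
      obtain ⟨c, hc⟩ := Submodule.mem_span_singleton.mp h1
      intro h
      have := LinearIndependent.pair_iff.mp h (-c) 1 (by
        simp only [Matrix.toLin'_apply, ← hc]
        simp)
      simpa using this.2)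
  apply hk a
  ext i j
  have h1 := congrFun (LinearMap.congr_fun ha (Pi.single j 1)) i
  simp only [Matrix.toLin'_apply, Matrix.mulVec_single_one, LinearMap.smul_apply, LinearMap.id_apply, Pi.smul_apply,
    Matrix.col_apply, smul_eq_mul] at h1
  simp only [Matrix.smul_apply, Matrix.one_apply, smul_eq_mul]
  rw [h1]
  simp [Pi.single_apply]

theorem sl_not_le_field (hn : 3 ≤ Fintype.card ι) {r : ℕ} (hr : 2 ≤ r) {K : Subalgebra F (Matrix ι ι F)} (hK : IsFieldSubalgebra r K) :
    ¬ specialLinear ι F ≤ subalgebraNormalizer K := by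
  intro hle
  haveI : Nonempty ι := by
    rw [← Fintype.card_pos_iff]
    omega
  -- a non-scalar element
  obtain ⟨k, hkK, hk⟩ : ∃ k ∈ K, ∀ c : F, k ≠ c • 1 := by
    by_contra hcon
    push Not at hcon
    have h1 : K ≤ Algebra.adjoin F ∅ := by
      intro k hk
      obtain ⟨c, hc⟩ := hcon k hk
      rw [hc, Algebra.adjoin_empty]
      exact Subalgebra.smul_mem _ (Subalgebra.one_mem _) _
    rw [Algebra.adjoin_empty] at h1
    have h2 : K = ⊥ := le_bot_iff.1 h1
    have h3 := hK.finrank_eq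
    rw [h2, Subalgebra.finrank_bot] at h3
    omega
  obtain ⟨v, hv0, hv⟩ := exists_moved hk
  -- a third vector
  let S : Submodule F (ι → F) := Submodule.span F {v, k *ᵥ v}
  have hS : finrank F S ≤ 2 := finrank_span_pair_le v (k *ᵥ v)
  obtain ⟨u, hu⟩ : ∃ u, u ∉ S := by
    by_contra hcon
    push Not at hcon
    have : S = ⊤ := eq_top_iff.mpr fun x _ => hcon x
    rw [this, finrank_top, Module.finrank_fintype_fun_eq_card] at hS
    omega
  obtain ⟨φ, hφ1, hφ2⟩ := exists_dotProduct_eq_one_of_notMem S u hu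
  have hφv : φ ⬝ᵥ v = 0 := hφ1 v (Submodule.subset_span (by simp))
  have hφkv : φ ⬝ᵥ (k *ᵥ v) = 0 := hφ1 _ (Submodule.subset_span (by simp))
  let g := transv v φ hφv
  have hgN := hle (transv_mem_specialLinear v φ hφv)
  have hgk : (g : Matrix ι ι F) * k * ((g⁻¹ : GL ι F) : Matrix ι ι F) ∈ K := (hgN k).1 hkK
  set k' := (g : Matrix ι ι F) * k * ((g⁻¹ : GL ι F) : Matrix ι ι F) with hk'
  have hgv : (g : Matrix ι ι F) *ᵥ v = v := by
    rw [transv_mulVec, hφv, zero_smul, add_zero]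
  have hgiv : ((g⁻¹ : GL ι F) : Matrix ι ι F) *ᵥ v = v := by
    conv_lhs => rw [← hgv]
    rw [Matrix.mulVec_mulVec, ← Units.val_mul, inv_mul_cancel, Units.val_one, Matrix.one_mulVec]
  have h1 : k' *ᵥ v = k *ᵥ v := by
    rw [hk', ← Matrix.mulVec_mulVec, hgiv, ← Matrix.mulVec_mulVec, transv_mulVec, hφkv, zero_smul, add_zero]
  have h2 : k' = k := by
    by_contra hne
    have hsub : k' - k ∈ K := K.sub_mem hgk hkK
    obtain ⟨y, hyK, hy⟩ := hK.inv _ hsub (sub_ne_zero.2 hne)
    have hyc : y * (k' - k) = 1 := by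
      rw [hK.comm y hyK _ hsub]
      exact hy
    apply hv0
    have h3 : (k' - k) *ᵥ v = 0 := by
      rw [Matrix.sub_mulVec, h1, sub_self]
    have h4 := congrArg (fun w => y *ᵥ w) h3
    simp only [Matrix.mulVec_mulVec, hyc, Matrix.one_mulVec, Matrix.mulVec_zero] at h4
    exact h4
  have h3 : (g : Matrix ι ι F) * k = k * (g : Matrix ι ι F) := by
    calc (g : Matrix ι ι F) * k = k' * (g : Matrix ι ι F) := by
          rw [hk', mul_assoc, ← Units.val_mul, inv_mul_cancel, Units.val_one, mul_one]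
      _ = k * (g : Matrix ι ι F) := by rw [h2]
  have h4 : (g : Matrix ι ι F) *ᵥ (k *ᵥ u) = k *ᵥ ((g : Matrix ι ι F) *ᵥ u) := by
    rw [Matrix.mulVec_mulVec, Matrix.mulVec_mulVec, h3]
  rw [transv_mulVec, transv_mulVec, hφ2, one_smul, Matrix.mulVec_add] at h4
  have h5 : (φ ⬝ᵥ (k *ᵥ u)) • v = k *ᵥ v := by
    exact add_left_cancel h4
  apply hv
  rw [← h5]
  exact Submodule.smul_mem _ _ (Submodule.mem_span_singleton_self v)

section Tensor
open Cfsg.Agent.Lib.NotMax.Tensor

/-- Two basis tensors do not sum to a pure tensor. -/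
theorem not_pure_sum {k l : ℕ} (i₀ i₁ : Fin k) (j₀ j₁ : Fin l) (hi : i₀ ≠ i₁) (hj : j₀ ≠ j₁) (x : Fin k → F) (y : Fin l → F)
    (h : pureT (Pi.single i₀ 1) (Pi.single j₀ 1) + pureT (Pi.single i₁ 1) (Pi.single j₁ 1) = (pureT x y : Fin k × Fin l → F)) : False := by
  have h1 := congrFun h (i₀, j₀)
  have h2 := congrFun h (i₁, j₁)
  have h3 := congrFun h (i₀, j₁)
  simp [pureT, Pi.single_apply, hi, hi.symm, hj, hj.symm] at h1 h2 h3
  rcases h3 with h3 | h3
  · rw [h3] at h1
    simp at h1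
  · rw [h3] at h2
    simp at h2

theorem sl_not_le_tensor {k l : ℕ} (hk : 2 ≤ k) (hl : 2 ≤ l) (e : ι ≃ Fin k × Fin l) (P : GL ι F) :
    ¬ specialLinear ι F ≤ tensorProductSubgroup k l e P := by
  intro hle
  let i₀ : Fin k := ⟨0, by omega⟩
  let i₁ : Fin k := ⟨1, by omega⟩
  let j₀ : Fin l := ⟨0, by omega⟩
  let j₁ : Fin l := ⟨1, by omega⟩
  have hi : i₀ ≠ i₁ := by simp [i₀, i₁, Fin.ext_iff]
  have hj : j₀ ≠ j₁ := by simp [j₀, j₁, Fin.ext_iff]
  set w := TT e P (Pi.single i₀ 1) (Pi.single j₀ 1) with hw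
  set u := TT e P (Pi.single i₁ 1) (Pi.single j₁ 1) with hu
  have hwu : w ∉ Submodule.span F {u} := by
    intro hmem
    obtain ⟨c, hc⟩ := Submodule.mem_span_singleton.mp hmem
    have h1 : TT e P (c • Pi.single i₁ 1) (Pi.single j₁ 1) = w := by
      rw [TT_smul_left, ← hu, hc]
    have h2 := TT_inj e P h1
    have h3 := congrFun h2 (i₀, j₀)
    simp [pureT, Pi.single_apply, hi, hi.symm, hj, hj.symm] at h3
  obtain ⟨φ, hφu, hφw⟩ := exists_functional hwu
  obtain ⟨a, b, hab⟩ := mem_tensor e P (hle (transv_mem_specialLinear u φ hφu))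
  have h1 := hab (Pi.single i₀ 1) (Pi.single j₀ 1)
  rw [← hw, transv_mulVec, hφw, one_smul, hw, hu] at h1
  unfold TT at h1
  rw [← Matrix.mulVec_add] at h1
  have h2 := Matrix.mulVec_injective_of_isUnit P.isUnit h1
  have h3 : pureT (Pi.single i₀ 1) (Pi.single j₀ 1) + pureT (Pi.single i₁ 1) (Pi.single j₁ 1) =
      pureT ((a : Matrix _ _ F) *ᵥ Pi.single i₀ 1) ((b : Matrix _ _ F) *ᵥ Pi.single j₀ 1) := by
    funext c
    have := congrFun h2 (e.symm c)
    simpa using this
  exact not_pure_sum i₀ i₁ j₀ j₁ hi hj _ _ h3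

end Tensor

end Cfsg.Agent.Lib.Asch.MaxSL
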