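import Mathlib
import Cfsg.Agent.Lib.Asch.MaxSL

/-!
# The special linear group and the tensor wreath subgroups and normalisers of groups of prime power order
-/

set_option autoImplicit false

namespace Cfsg.Agent.Lib.Asch.MaxSW

open Matrix Module Cfsg Cfsg.Geo Cfsg.Agent.Lib.Geo.Basic Cfsg.Agent.Lib.NotMax.SetStab
open Cfsg.Agent.Lib.Asch.Basic Cfsg.Agent.Lib.Asch.SC Cfsg.Agent.Lib.Asch.Mono Cfsg.Agent.Lib.Asch.GT
  Cfsg.Agent.Lib.Asch.Cl Cfsg.Agent.Lib.Asch.XT Cfsg.Agent.Lib.Asch.Main Cfsg.Agent.Lib.Asch.MaxSL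

universe u

variable {ι : Type} [Fintype ι] [DecidableEq ι] {F : Type u} [Field F]

section Wreath

variable {m t : ℕ}

/-- Pure tensors of the tensor power. -/
def PT (m t : ℕ) (F : Type u) [Field F] : Set ((Fin t → Fin m) → F) :=
  {v | ∃ xs : Fin t → Fin m → F, ∀ a, v a = ∏ i, xs i (a i)}

theorem pure_mem_PT {g : GL (Fin t → Fin m) F} (hg : IsPureTensor m t g) {v : (Fin t → Fin m) → F} (hv : v ∈ PT m t F) :
    (g : Matrix _ _ F) *ᵥ v ∈ PT m t F := by
  obtain ⟨gs, hgs⟩ := hg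
  obtain ⟨xs, hxs⟩ := hv
  refine ⟨fun i b => ∑ c, (gs i : Matrix _ _ F) b c * xs i c, fun a => ?_⟩
  simp only [Matrix.mulVec, dotProduct, hgs, hxs]
  rw [Finset.prod_univ_sum]
  rw [Fintype.piFinset_univ]
  refine Finset.sum_congr rfl fun y _ => ?_
  rw [Finset.prod_mul_distrib]

theorem perm_mem_PT {g : GL (Fin t → Fin m) F} (hg : IsFactorPermutation m t g) {v : (Fin t → Fin m) → F} (hv : v ∈ PT m t F) :
    (g : Matrix _ _ F) *ᵥ v ∈ PT m t F := by
  classical
  obtain ⟨σ, hσ⟩ := hg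
  obtain ⟨xs, hxs⟩ := hv
  refine ⟨fun i => xs (σ.symm i), fun a => ?_⟩
  simp only [Matrix.mulVec, dotProduct, hσ]
  rw [Finset.sum_eq_single (a ∘ σ)]
  · rw [if_pos rfl, one_mul, hxs]
    exact (Equiv.prod_comp σ (fun i => xs (σ.symm i) (a i))).symm ▸ by simp
  · intro b _ hb
    rw [if_neg hb, zero_mul]
  · simp

theorem std_le_setStab [Finite F] : tensorWreathStandard m t F ≤ setStab (PT m t F) := by
  rw [tensorWreathStandard, Subgroup.closure_le]
  rintro g (hg | hg)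
  · exact fun v hv => pure_mem_PT hg hv
  · exact fun v hv => perm_mem_PT hg hv

/-- Basis pure tensors. -/
def pE (c : Fin m) : (Fin t → Fin m) → F := fun a => ∏ i, if a i = c then 1 else 0

theorem pE_mem (c : Fin m) : (pE c : (Fin t → Fin m) → F) ∈ PT m t F :=
  ⟨fun _ b => if b = c then 1 else 0, fun _ => rfl⟩

theorem pE_const (c : Fin m) : (pE c : (Fin t → Fin m) → F) (fun _ => c) = 1 := by
  simp [pE]

theorem pE_ne {c : Fin m} {a : Fin t → Fin m} {i : Fin t} (h : a i ≠ c) : (pE c : (Fin t → Fin m) → F) a = 0 := by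
  simp only [pE]
  exact Finset.prod_eq_zero (Finset.mem_univ i) (if_neg h)

theorem not_PT_sum (ht : 2 ≤ t) (c d : Fin m) (hcd : c ≠ d) : (pE c + pE d : (Fin t → Fin m) → F) ∉ PT m t F := by
  rintro ⟨xs, hxs⟩
  let i₀ : Fin t := ⟨0, by omega⟩
  let i₁ : Fin t := ⟨1, by omega⟩
  have hi : i₀ ≠ i₁ := by simp [i₀, i₁, Fin.ext_iff]
  have h1 := hxs (fun _ => c)
  have h2 := hxs (fun _ => d)
  rw [Pi.add_apply, pE_const, pE_ne (i := i₀) hcd, add_zero] at h1
  rw [Pi.add_apply, pE_const, pE_ne (i := i₀) hcd.symm, zero_add] at h2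
  have hne1 : ∀ i, xs i c ≠ 0 := fun i h => by
    rw [Finset.prod_eq_zero (Finset.mem_univ i) h] at h1
    exact one_ne_zero h1
  have hne2 : ∀ i, xs i d ≠ 0 := fun i h => by
    rw [Finset.prod_eq_zero (Finset.mem_univ i) h] at h2
    exact one_ne_zero h2
  let a : Fin t → Fin m := fun i => if i = i₀ then c else d
  have ha0 : a i₀ = c := by simp [a]
  have ha1 : a i₁ = d := by simp [a, hi.symm]
  have h3 := hxs a
  rw [Pi.add_apply, pE_ne (c := c) (a := a) (i := i₁) (by rw [ha1]; exact hcd.symm),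
    pE_ne (c := d) (a := a) (i := i₀) (by rw [ha0]; exact hcd), add_zero] at h3
  have h4 : ∏ i, xs i (a i) ≠ 0 := by
    rw [Finset.prod_ne_zero_iff]
    intro i _
    by_cases h : i = i₀
    · rw [h, ha0]
      exact hne1 _
    · have : a i = d := by simp [a, h]
      rw [this]
      exact hne2 _
  exact h4 h3.symm

theorem sl_not_le_wreath [Finite F] (hm : 2 ≤ m) (ht : 2 ≤ t) (e : ι ≃ (Fin t → Fin m)) (P : GL ι F) :
    ¬ specialLinear ι F ≤ tensorWreathSubgroup m t e P := by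
  intro hle
  let c : Fin m := ⟨0, by omega⟩
  let d : Fin m := ⟨1, by omega⟩
  have hcd : c ≠ d := by simp [c, d, Fin.ext_iff]
  let w : ι → F := (P : Matrix ι ι F) *ᵥ ((pE c : (Fin t → Fin m) → F) ∘ e)
  let u : ι → F := (P : Matrix ι ι F) *ᵥ ((pE d : (Fin t → Fin m) → F) ∘ e)
  have hwu : w ∉ Submodule.span F {u} := by
    intro hmem
    obtain ⟨a, ha⟩ := Submodule.mem_span_singleton.mp hmem
    have h1 : (P : Matrix ι ι F) *ᵥ (a • ((pE d : (Fin t → Fin m) → F) ∘ e)) = (P : Matrix ι ι F) *ᵥ ((pE c : (Fin t → Fin m) → F) ∘ e) := by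
      rw [Matrix.mulVec_smul]
      exact ha
    have h2 := Matrix.mulVec_injective_of_isUnit P.isUnit h1
    have h3 := congrFun h2 (e.symm (fun _ => c))
    simp only [Pi.smul_apply, Function.comp_apply, Equiv.apply_symm_apply, pE_const, smul_eq_mul] at h3
    have i₀ : Fin t := ⟨0, by omega⟩
    rw [pE_ne (i := i₀) hcd, mul_zero] at h3
    exact zero_ne_one h3
  obtain ⟨φ, hφu, hφw⟩ := exists_functional hwu
  obtain ⟨g, hg, hgP⟩ := (mem_tensorWreathSubgroup_iff e P _).1 (hle (transv_mem_specialLinear u φ hφu))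
  have h1 : ((transv u φ hφu : GL ι F) : Matrix ι ι F) *ᵥ w = w + u := by
    rw [transv_mulVec, hφw, one_smul]
  have h2 : ((transv u φ hφu : GL ι F) : Matrix ι ι F) *ᵥ w =
      (P : Matrix ι ι F) *ᵥ (((g : Matrix (Fin t → Fin m) (Fin t → Fin m) F) *ᵥ pE c) ∘ e) := by
    simp only [w]
    have hcomp : ((pE c : (Fin t → Fin m) → F) ∘ e) ∘ e.symm = pE c := by
      funext a
      simp
    rw [Matrix.mulVec_mulVec, hgP, ← Matrix.mulVec_mulVec, Matrix.submatrix_mulVec_equiv, hcomp]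
  rw [h1] at h2
  have h3 : (P : Matrix ι ι F) *ᵥ (((pE c + pE d : (Fin t → Fin m) → F)) ∘ e) = (P : Matrix ι ι F) *ᵥ (((g : Matrix (Fin t → Fin m) (Fin t → Fin m) F) *ᵥ pE c) ∘ e) := by
    rw [← h2]
    simp only [w, u]
    rw [← Matrix.mulVec_add]
    rfl
  have h4 := Matrix.mulVec_injective_of_isUnit P.isUnit h3
  have h5 : (pE c + pE d : (Fin t → Fin m) → F) = (g : Matrix (Fin t → Fin m) (Fin t → Fin m) F) *ᵥ pE c := by
    funext a
    have := congrFun h4 (e.symm a)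
    simpa using this
  apply not_PT_sum (F := F) ht c d hcd
  rw [h5]
  exact std_le_setStab hg _ (pE_mem c)

end Wreath

end Cfsg.Agent.Lib.Asch.MaxSW
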