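import Mathlib
import Cfsg.Agent.Lib.Asch.MaxSW

/-!
# Irreducible groups of prime power order: the dimension is a power of the prime
-/

set_option autoImplicit false

namespace Cfsg.Agent.Lib.Asch.IrrDim

open Matrix Module Cfsg Cfsg.Geo Cfsg.Agent.Lib.Geo.Basic
open Cfsg.Agent.Lib.Asch.Basic Cfsg.Agent.Lib.Asch.SC Cfsg.Agent.Lib.Asch.Mono Cfsg.Agent.Lib.Asch.GT
  Cfsg.Agent.Lib.Asch.Cl Cfsg.Agent.Lib.Asch.XT Cfsg.Agent.Lib.Asch.Main Cfsg.Agent.Lib.Asch.MaxSL

universe u

variable {ι : Type} [Fintype ι] [DecidableEq ι] {F : Type u} [Field F] [Fintype F]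

/-- The eigenspace inside a subspace. -/
def EE (x : Matrix ι ι F) (W : Submodule F (ι → F)) (μ : F) : Submodule F (ι → F) where
  carrier := {w | w ∈ W ∧ x *ᵥ w = μ • w}
  add_mem' := by
    rintro a b ⟨ha, ha'⟩ ⟨hb, hb'⟩
    exact ⟨W.add_mem ha hb, by rw [Matrix.mulVec_add, ha', hb', smul_add]⟩
  zero_mem' := ⟨W.zero_mem, by simp⟩
  smul_mem' := by
    rintro c a ⟨ha, ha'⟩
    exact ⟨W.smul_mem c ha, by rw [Matrix.mulVec_smul, ha', smul_comm]⟩

omit [Fintype F] in
theorem mem_EE {x : Matrix ι ι F} {W : Submodule F (ι → F)} {μ : F} {w : ι → F} :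
    w ∈ EE x W μ ↔ w ∈ W ∧ x *ᵥ w = μ • w := Iff.rfl

omit [Fintype F] in
theorem EE_indep (x : Matrix ι ι F) (W : Submodule F (ι → F)) {T : Type*} (f : T → F) (hf : Function.Injective f) :
    iSupIndep fun t => EE x W (f t) := by
  have h1 := Module.End.eigenspaces_iSupIndep (Matrix.toLin' x)
  have h2 := h1.comp hf
  refine h2.mono fun t => ?_
  rintro w ⟨-, hw⟩
  rw [Function.comp_apply, Module.End.mem_eigenspace_iff, Matrix.toLin'_apply]
  exact hw

/-- Finrank of independent sums. -/
theorem finrank_iSup_of_indep {T : Type*} [Fintype T] (E : T → Submodule F (ι → F)) (hE : iSupIndep E) :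
    finrank F (⨆ t, E t : Submodule F (ι → F)) = ∑ t, finrank F (E t) := by
  classical
  have h1 := hE.dfinsupp_lsum_injective
  have h2 := LinearMap.finrank_range_of_inj h1
  rw [Submodule.iSup_eq_range_dfinsupp_lsum, h2]
  exact Module.finrank_directSum (R := F) (M := fun t => E t)

theorem irr_dim {r : ℕ} (hr : r.Prime) : ∀ (N : ℕ) (S : Subgroup (GL ι F)) (W : Submodule F (ι → F)), Nat.card S ≤ N → W ≠ ⊥ →
    (∀ s ∈ S, ∀ w ∈ W, (s : Matrix ι ι F) *ᵥ w ∈ W) →
    (∀ U : Submodule F (ι → F), U ≤ W → U ≠ ⊥ → (∀ s ∈ S, ∀ u ∈ U, (s : Matrix ι ι F) *ᵥ u ∈ U) → U = W) →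
    IsPGroup r S → (∀ x ∈ S, (x : Matrix ι ι F) ^ Fintype.card F = x) → ∃ a, finrank F W = r ^ a := by
  classical
  haveI : Fact r.Prime := ⟨hr⟩
  intro N
  induction N with
  | zero =>
    intro S W h
    have : 0 < Nat.card S := Nat.card_pos
    omega
  | succ N ih =>
    intro S W hcard hW0 hinv hirr hpg hq
    -- the elements acting as scalars
    let C : Subgroup S :=
      { carrier := {s | ∃ c : F, ∀ w ∈ W, ((s : GL ι F) : Matrix ι ι F) *ᵥ w = c • w}
        mul_mem' := by
          rintro a b ⟨c, hc⟩ ⟨d, hd⟩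
          refine ⟨c * d, fun w hw => ?_⟩
          rw [Subgroup.coe_mul, Units.val_mul, ← Matrix.mulVec_mulVec, hd w hw, Matrix.mulVec_smul, hc w hw, smul_smul, mul_comm]
        one_mem' := ⟨1, fun w _ => by simp⟩
        inv_mem' := by
          rintro a ⟨c, hc⟩
          obtain ⟨w₀, hw₀, hw₀0⟩ := Submodule.exists_mem_ne_zero_of_ne_bot hW0
          refine ⟨c⁻¹, fun w hw => ?_⟩
          have hc0 : c ≠ 0 := by
            rintro rfl
            have h1 := hc w₀ hw₀
            rw [zero_smul] at h1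
            exact hw₀0 (Matrix.mulVec_injective_of_isUnit (a : GL ι F).isUnit (h1.trans (Matrix.mulVec_zero _).symm))
          have h1 := hc w hw
          have h2 : ((((a⁻¹ : S) : GL ι F)) : Matrix ι ι F) *ᵥ (((a : GL ι F) : Matrix ι ι F) *ᵥ w) = w := by
            rw [Matrix.mulVec_mulVec, ← Units.val_mul, ← Subgroup.coe_mul, inv_mul_cancel]
            simp
          rw [h1, Matrix.mulVec_smul] at h2
          rw [← h2, smul_smul, inv_mul_cancel₀ hc0, one_smul, h2] }
    have hCmem : ∀ s : S, s ∈ C ↔ ∃ c : F, ∀ w ∈ W, ((s : GL ι F) : Matrix ι ι F) *ᵥ w = c • w := fun s => Iff.rfl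
    haveI hCn : C.Normal := by
      refine ⟨fun a ha g => ?_⟩
      obtain ⟨c, hc⟩ := (hCmem a).1 ha
      refine (hCmem _).2 ⟨c, fun w hw => ?_⟩
      have h1 : (((g⁻¹ : S) : GL ι F) : Matrix ι ι F) *ᵥ w ∈ W := hinv _ (g⁻¹).2 w hw
      rw [Subgroup.coe_mul, Subgroup.coe_mul, Units.val_mul, Units.val_mul, ← Matrix.mulVec_mulVec, ← Matrix.mulVec_mulVec,
        hc _ h1, Matrix.mulVec_smul, Matrix.mulVec_mulVec, ← Units.val_mul, ← Subgroup.coe_mul, mul_inv_cancel]
      simp
    obtain ⟨w₀, hw₀, hw₀0⟩ := Submodule.exists_mem_ne_zero_of_ne_bot hW0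
    by_cases hCtop : C = ⊤
    · -- all elements act as scalars
      have hU := hirr (Submodule.span F {w₀}) ((Submodule.span_singleton_le_iff_mem _ _).2 hw₀)
        (by simpa using hw₀0) (by
          intro s hs u hu
          obtain ⟨d, rfl⟩ := Submodule.mem_span_singleton.mp hu
          have hsC : (⟨s, hs⟩ : S) ∈ C := by rw [hCtop]; exact Subgroup.mem_top _
          obtain ⟨c, hc⟩ := (hCmem _).1 hsC
          have h1 : (s : Matrix ι ι F) *ᵥ w₀ = c • w₀ := hc w₀ hw₀
          rw [Matrix.mulVec_smul, h1, smul_comm]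
          exact Submodule.smul_mem _ _ (Submodule.smul_mem _ _ (Submodule.mem_span_singleton_self w₀)))
      refine ⟨0, ?_⟩
      rw [← hU, pow_zero]
      exact finrank_span_singleton hw₀0
    -- the quotient
    haveI hfinS : Finite S := inferInstance
    haveI : Nontrivial (S ⧸ C) := by
      rw [QuotientGroup.nontrivial_iff]
      exact hCtop
    have hpgQ : IsPGroup r (S ⧸ C) := hpg.to_quotient C
    haveI hcenQ := hpgQ.center_nontrivial
    obtain ⟨z, hz⟩ := exists_ne (1 : Subgroup.center (S ⧸ C))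
    obtain ⟨x₀, hx₀⟩ := QuotientGroup.mk_surjective (z : S ⧸ C)
    have hx₀C : x₀ ∉ C := by
      intro h
      apply hz
      apply Subtype.ext
      rw [← hx₀, Subgroup.coe_one]
      exact (QuotientGroup.eq_one_iff _).2 h
    set x : GL ι F := (x₀ : GL ι F) with hx
    have hxS : x ∈ S := x₀.2
    have hc' : ∀ s : S, ∃ c : F, ∀ w ∈ W, (x : Matrix ι ι F) *ᵥ (((s : GL ι F) : Matrix ι ι F) *ᵥ w) =
        c • (((s : GL ι F) : Matrix ι ι F) *ᵥ ((x : Matrix ι ι F) *ᵥ w)) := by
      intro s
      have h1 : ((s : S) : S ⧸ C) * (x₀ : S ⧸ C) = (x₀ : S ⧸ C) * ((s : S) : S ⧸ C) := by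
        rw [hx₀]
        exact (Subgroup.mem_center_iff.1 z.2 _)
      rw [← QuotientGroup.mk_mul, ← QuotientGroup.mk_mul, QuotientGroup.eq] at h1
      obtain ⟨c, hc⟩ := (hCmem _).1 h1
      refine ⟨c, fun w hw => ?_⟩
      have h2 := hc w hw
      have h3 := congrArg (fun v => (((s * x₀ : S) : GL ι F) : Matrix ι ι F) *ᵥ v) h2
      simp only [Matrix.mulVec_mulVec, ← Units.val_mul, ← Subgroup.coe_mul, mul_inv_cancel_left, Matrix.mulVec_smul] at h3
      simp only [Subgroup.coe_mul, Units.val_mul] at h3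
      simp only [Matrix.mulVec_mulVec]
      exact h3
    choose c hc using hc'
    have hxW : ∀ w ∈ W, (x : Matrix ι ι F) *ᵥ w ∈ W := fun w hw => hinv x hxS w hw
    obtain ⟨lam, w₁, hw₁, hw₁0, hw₁e⟩ := exists_eig (x : Matrix ι ι F) W hxW (hq x hxS) hW0
    have hne : ∀ (g : GL ι F) {v : ι → F}, v ≠ 0 → (g : Matrix ι ι F) *ᵥ v ≠ 0 := by
      intro g v hv h0
      exact hv (Matrix.mulVec_injective_of_isUnit g.isUnit (h0.trans (Matrix.mulVec_zero _).symm))
    have hlam0 : lam ≠ 0 := by
      rintro rfl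
      rw [zero_smul] at hw₁e
      exact hne x hw₁0 hw₁e
    have hc0 : ∀ s, c s ≠ 0 := by
      intro s h0
      have h1 := hc s w₁ hw₁
      rw [h0, zero_smul] at h1
      exact hne x (hne s hw₁0) h1
    have huniq : ∀ (s : S) (d : F), (∀ w ∈ W, (x : Matrix ι ι F) *ᵥ (((s : GL ι F) : Matrix ι ι F) *ᵥ w) =
        d • (((s : GL ι F) : Matrix ι ι F) *ᵥ ((x : Matrix ι ι F) *ᵥ w))) → d = c s := by
      intro s d hd
      have h1 := hd w₁ hw₁
      rw [hc s w₁ hw₁] at h1
      have h2 := hne s (hne x hw₁0)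
      have h3 : (d - c s) • (((s : GL ι F) : Matrix ι ι F) *ᵥ ((x : Matrix ι ι F) *ᵥ w₁)) = 0 := by
        rw [sub_smul, ← h1, sub_self]
      rcases smul_eq_zero.1 h3 with h4 | h4
      · exact sub_eq_zero.1 h4
      · exact absurd h4 h2
    have hcmul : ∀ a b : S, c (a * b) = c a * c b := by
      intro a b
      symm
      apply huniq
      intro w hw
      simp only [Subgroup.coe_mul, Units.val_mul]
      rw [← Matrix.mulVec_mulVec, ← Matrix.mulVec_mulVec, hc a _ (hinv b b.2 w hw), hc b w hw, Matrix.mulVec_smul, smul_smul]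
    let χ : S →* Fˣ := MonoidHom.mk' (fun s => Units.mk0 (c s) (hc0 s)) (fun a b => Units.ext (by
      simp only [Units.val_mk0, Units.val_mul]
      exact hcmul a b))
    have hχ : ∀ s, ((χ s : Fˣ) : F) = c s := fun s => rfl
    let T := χ.range
    haveI : Fintype T := Fintype.ofFinite T
    let f : T → F := fun t => ((t : Fˣ) : F) * lam
    have hf : Function.Injective f := by
      intro a b hab
      have h1 : ((a : Fˣ) : F) = ((b : Fˣ) : F) := mul_right_cancel₀ hlam0 hab
      exact Subtype.ext (Units.ext h1)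
    let E : T → Submodule F (ι → F) := fun t => EE (x : Matrix ι ι F) W (f t)
    have hE : iSupIndep E := EE_indep (x : Matrix ι ι F) W f hf
    have hsE : ∀ (s : S) (μ : F), ∀ w ∈ EE (x : Matrix ι ι F) W μ, ((s : GL ι F) : Matrix ι ι F) *ᵥ w ∈ EE (x : Matrix ι ι F) W (c s * μ) := by
      rintro s μ w ⟨hw, hwe⟩
      refine ⟨hinv _ s.2 w hw, ?_⟩
      rw [hc s w hw, hwe, Matrix.mulVec_smul, smul_smul]
    have hsE' : ∀ (s : S) (t : T), (E t).map (Matrix.toLin' ((s : GL ι F) : Matrix ι ι F)) ≤ E (⟨χ s * (t : Fˣ), Subgroup.mul_mem _ ⟨s, rfl⟩ t.2⟩ : T) := by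
      rintro s t _ ⟨w, hw, rfl⟩
      have h1 := hsE s _ w hw
      have h2 : c s * f t = f ⟨χ s * (t : Fˣ), Subgroup.mul_mem _ ⟨s, rfl⟩ t.2⟩ := by
        simp only [f, Units.val_mul, hχ, mul_assoc]
      rw [h2] at h1
      exact h1
    have hEW : ∀ t, E t ≤ W := fun t w hw => hw.1
    let one' : T := 1
    have hE1 : E one' = EE (x : Matrix ι ι F) W lam := by
      simp only [E, f, one']
      simp
    have hw₁E : w₁ ∈ E one' := by
      rw [hE1]
      exact ⟨hw₁, hw₁e⟩
    -- the sum is everything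
    have hJ : (⨆ t, E t) = W := by
      apply hirr _ (iSup_le hEW)
      · intro h
        have : w₁ ∈ (⨆ t, E t) := Submodule.mem_iSup_of_mem one' hw₁E
        rw [h, Submodule.mem_bot] at this
        exact hw₁0 this
      · intro s hs u hu
        have h1 : (⨆ t, E t).map (Matrix.toLin' (s : Matrix ι ι F)) ≤ ⨆ t, E t := by
          rw [Submodule.map_iSup]
          exact iSup_le fun t => (hsE' ⟨s, hs⟩ t).trans (le_iSup E _)
        exact h1 ⟨u, hu, rfl⟩
    have hdim : ∀ t, finrank F (E t) = finrank F (E one') := by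
      rintro ⟨_, s, rfl⟩
      have h1 : (E one').map (Matrix.toLin' ((s : GL ι F) : Matrix ι ι F)) = E ⟨χ s, s, rfl⟩ := by
        apply le_antisymm
        · have := hsE' s one'
          simpa [one'] using this
        · intro v hv
          refine ⟨((s⁻¹ : S) : GL ι F) *ᵥ v, ?_, ?_⟩
          · rw [hE1]
            have h2 := hsE s⁻¹ _ v hv
            have h3 : c s⁻¹ * f ⟨χ s, s, rfl⟩ = lam := by
              have h4 : c s⁻¹ * c s = 1 := by
                rw [← hcmul, inv_mul_cancel, ← hχ, map_one]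
                rfl
              simp only [f, hχ]
              rw [← mul_assoc, h4, one_mul]
            rw [h3] at h2
            exact h2
          · rw [Matrix.toLin'_apply, Matrix.mulVec_mulVec, ← Units.val_mul, ← Subgroup.coe_mul, mul_inv_cancel]
            simp
      rw [← h1, Cfsg.Agent.Lib.Geo.Basic.finrank_map_toLin']
    have hsum : finrank F W = Fintype.card T * finrank F (E one') := by
      rw [← hJ, finrank_iSup_of_indep E hE, Finset.sum_congr rfl fun t _ => hdim t, Finset.sum_const, Finset.card_univ, smul_eq_mul]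
    have hTp : IsPGroup r T := IsPGroup.of_surjective hpg χ.rangeRestrict χ.rangeRestrict_surjective
    obtain ⟨b, hb⟩ := IsPGroup.iff_card.1 hTp
    -- the stabiliser
    let S₀ : Subgroup (GL ι F) := χ.ker.map S.subtype
    have hS₀ : ∀ g ∈ S₀, ∃ s : S, (s : GL ι F) = g ∧ c s = 1 := by
      rintro _ ⟨s, hs, rfl⟩
      refine ⟨s, rfl, ?_⟩
      have h1 : χ s = 1 := hs
      have h2 := congrArg Units.val h1
      simpa [hχ] using h2
    have hχne : χ.ker ≠ ⊤ := by
      intro htop
      have hcs : ∀ s, c s = 1 := by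
        intro s
        have h1 : χ s = 1 := by
          have : s ∈ χ.ker := by rw [htop]; exact Subgroup.mem_top _
          exact this
        have h2 := congrArg Units.val h1
        simpa [hχ] using h2
      have hU := hirr (EE (x : Matrix ι ι F) W lam) (fun w hw => hw.1) (by
          intro h
          have : w₁ ∈ EE (x : Matrix ι ι F) W lam := ⟨hw₁, hw₁e⟩
          rw [h, Submodule.mem_bot] at this
          exact hw₁0 this) (by
          intro s hs u hu
          have := hsE ⟨s, hs⟩ lam u hu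
          rwa [hcs, one_mul] at this)
      apply hx₀C
      refine (hCmem x₀).2 ⟨lam, fun w hw => ?_⟩
      rw [← hU] at hw
      exact hw.2
    have hcardS₀ : Nat.card S₀ ≤ N := by
      have h1 : Nat.card S₀ = Nat.card χ.ker := Nat.card_congr (χ.ker.equivMapOfInjective S.subtype S.subtype_injective).symm.toEquiv
      have h2 := Subgroup.card_mul_index χ.ker
      have h3 : χ.ker.index ≠ 1 := fun h => hχne (Subgroup.index_eq_one.1 h)
      have h4 : χ.ker.index ≠ 0 := Subgroup.index_ne_zero_of_finite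
      have h5 : 0 < Nat.card χ.ker := Nat.card_pos
      have h6 : Nat.card χ.ker * 2 ≤ Nat.card S := by
        rw [← h2]
        exact Nat.mul_le_mul_left _ (by omega)
      omega
    have hpgS₀ : IsPGroup r S₀ := by
      intro g
      have hgS : (g : GL ι F) ∈ S := by
        obtain ⟨s, -, hs⟩ := g.2
        rw [← hs]
        exact s.2
      obtain ⟨k, hk⟩ := hpg ⟨g, hgS⟩
      exact ⟨k, Subtype.ext (by
        have := congrArg Subtype.val hk
        simpa using this)⟩
    have hq₀ : ∀ g ∈ S₀, (g : Matrix ι ι F) ^ Fintype.card F = g := by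
      rintro _ ⟨s, -, rfl⟩
      exact hq s s.2
    obtain ⟨a, ha⟩ := ih S₀ (EE (x : Matrix ι ι F) W lam) hcardS₀ (by
        intro h
        have : w₁ ∈ EE (x : Matrix ι ι F) W lam := ⟨hw₁, hw₁e⟩
        rw [h, Submodule.mem_bot] at this
        exact hw₁0 this) (by
        intro g hg w hw
        obtain ⟨s, rfl, hs1⟩ := hS₀ g hg
        have := hsE s lam w hw
        rwa [hs1, one_mul] at this) (by
        -- irreducibility
        intro U hUE hU0 hUinv
        apply le_antisymm hUE
        intro v hv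
        let U' : Submodule F (ι → F) := ⨆ s : S, U.map (Matrix.toLin' ((s : GL ι F) : Matrix ι ι F))
        have hU'W : U' = W := by
          apply hirr
          · refine iSup_le fun s => ?_
            rintro _ ⟨u, hu, rfl⟩
            exact hinv _ s.2 _ (hUE hu).1
          · intro h
            obtain ⟨u, hu, hu0⟩ := Submodule.exists_mem_ne_zero_of_ne_bot hU0
            have h1 : u ∈ U' := by
              refine Submodule.mem_iSup_of_mem (1 : S) ⟨u, hu, ?_⟩
              simp
            rw [h, Submodule.mem_bot] at h1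
            exact hu0 h1
          · intro s hs u hu
            have h1 : U'.map (Matrix.toLin' (s : Matrix ι ι F)) ≤ U' := by
              rw [Submodule.map_iSup]
              refine iSup_le fun s' => ?_
              rintro _ ⟨_, ⟨u', hu', rfl⟩, rfl⟩
              refine Submodule.mem_iSup_of_mem ((⟨s, hs⟩ : S) * s') ⟨u', hu', ?_⟩
              simp [Matrix.toLin'_apply, Matrix.mulVec_mulVec, Units.val_mul]
            exact h1 ⟨u, hu, rfl⟩
        let B : Submodule F (ι → F) := ⨆ t : T, ⨆ (_ : t ≠ one'), E t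
        have hU'le : U' ≤ U ⊔ B := by
          refine iSup_le fun s => ?_
          rintro _ ⟨u, hu, rfl⟩
          by_cases hs : c s = 1
          · refine Submodule.mem_sup_left ?_
            have hsS₀ : (s : GL ι F) ∈ S₀ := by
              refine ⟨s, ?_, rfl⟩
              apply Units.ext
              exact hs
            exact hUinv _ hsS₀ u hu
          · refine Submodule.mem_sup_right ?_
            have hmem : ((s : GL ι F) : Matrix ι ι F) *ᵥ u ∈ E ⟨χ s, s, rfl⟩ := by
              have := hsE s lam u (hUE hu)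
              exact this
            refine Submodule.mem_iSup_of_mem (⟨χ s, s, rfl⟩ : T) (Submodule.mem_iSup_of_mem ?_ hmem)
            intro h
            apply hs
            have h1 := congrArg (fun t : T => ((t : Fˣ) : F)) h
            simpa [one', hχ] using h1
        have hvW : v ∈ U' := by
          rw [hU'W]
          exact hv.1
        obtain ⟨u, hu, b, hb, hub⟩ := Submodule.mem_sup.1 (hU'le hvW)
        have hbE : b ∈ E one' := by
          rw [hE1]
          have : b = v - u := by rw [← hub]; abel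
          rw [this]
          exact Submodule.sub_mem _ hv (hUE hu)
        have hb0 := (Submodule.disjoint_def.1 (hE one')) b hbE hb
        rw [← hub, hb0, add_zero]
        exact hu) hpgS₀ hq₀
    exact ⟨b + a, by rw [hsum, ← Nat.card_eq_fintype_card, hb, pow_add, hE1, ha]⟩

/-- An absolutely irreducible group of prime power order. -/
theorem dim_of_absIrr {r : ℕ} (hr : r.Prime) {R : Subgroup (GL ι F)} (hA : ActsIrreducibly (matrixSet R)) [Nonempty ι]
    (hp : IsPGroup r R) (hq : ∀ x ∈ R, (x : Matrix ι ι F) ^ Fintype.card F = x) : ∃ a, Fintype.card ι = r ^ a := by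
  obtain ⟨a, ha⟩ := irr_dim hr _ R ⊤ le_rfl (by simp) (fun _ _ _ _ => Submodule.mem_top) (by
    intro U _ hU0 hU
    have := hA U (by
      rintro _ ⟨s, hs, rfl⟩ _ ⟨u, hu, rfl⟩
      exact hU s hs u hu)
    rcases this with h | h
    · exact absurd h hU0
    · exact h) hp hq
  refine ⟨a, ?_⟩
  rw [← ha, finrank_top, Module.finrank_fintype_fun_eq_card]

/-- Semisimplicity of an element with `a ^ q = a`. -/
theorem ss_of_pow {a : Matrix ι ι F} (ha : a ^ Fintype.card F = a) {lam : F} {w : ι → F}
    (h : a *ᵥ (a *ᵥ w - lam • w) = lam • (a *ᵥ w - lam • w)) : a *ᵥ w = lam • w := by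
  set y := a *ᵥ w - lam • w with hy
  have hw : a *ᵥ w = lam • w + y := by rw [hy]; abel
  have hpow : ∀ k : ℕ, (a ^ (k + 1)) *ᵥ w = lam ^ (k + 1) • w + ((k + 1 : ℕ) : F) • lam ^ k • y := by
    intro k
    induction k with
    | zero => simp [hw]
    | succ k ih =>
      rw [pow_succ', ← Matrix.mulVec_mulVec, ih, Matrix.mulVec_add, Matrix.mulVec_smul, Matrix.mulVec_smul, Matrix.mulVec_smul, hw, h]
      push_cast
      module
  have hq1 : 1 ≤ Fintype.card F := Fintype.card_pos
  have h1 := hpow (Fintype.card F - 1)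
  rw [Nat.sub_add_cancel hq1, ha, FiniteField.pow_card] at h1
  have h2 : ((Fintype.card F : ℕ) : F) = 0 := by
    obtain ⟨p, hp⟩ := CharP.exists F
    obtain ⟨E, hpp, hE⟩ := FiniteField.card F p
    rw [hE]
    push_cast
    rw [CharP.cast_eq_zero F p, zero_pow E.ne_zero]
  rw [h2, zero_smul, add_zero] at h1
  exact h1

end Cfsg.Agent.Lib.Asch.IrrDim
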