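import Mathlib
import Cfsg.Agent.Lib.Asch.IrrDim

/-!
# The special linear group and normalisers of groups of prime power order; the list of maximal subgroups
-/

set_option autoImplicit false

namespace Cfsg.Agent.Lib.Asch.MaxSN

open Matrix Module Cfsg Cfsg.Geo Cfsg.Agent.Lib.Geo.Basic
open Cfsg.Agent.Lib.Asch.Basic Cfsg.Agent.Lib.Asch.SC Cfsg.Agent.Lib.Asch.Mono Cfsg.Agent.Lib.Asch.GT
  Cfsg.Agent.Lib.Asch.Cl Cfsg.Agent.Lib.Asch.XT Cfsg.Agent.Lib.Asch.Main Cfsg.Agent.Lib.Asch.MaxSL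
  Cfsg.Agent.Lib.Asch.MaxSW Cfsg.Agent.Lib.Asch.IrrDim

universe u

variable {ι : Type} [Fintype ι] [DecidableEq ι] {F : Type u} [Field F] [Fintype F]

/-- Powers of transvections. -/
theorem transv_pow_apply (u φ : ι → F) (h : φ ⬝ᵥ u = 0) (k : ℕ) (v : ι → F) :
    (((transv u φ h) ^ k : GL ι F) : Matrix ι ι F) *ᵥ v = v + ((k : F) * (φ ⬝ᵥ v)) • u := by
  induction k with
  | zero => simp
  | succ k ih =>
    rw [pow_succ', Units.val_mul, ← Matrix.mulVec_mulVec, ih, transv_mulVec, dotProduct_add, dotProduct_smul, h, smul_zero, add_zero]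
    push_cast
    module

/-- An element of a group of order prime to the characteristic that is a non-trivial transvection. -/
theorem transv_not_mem {R : Subgroup (GL ι F)} {r p : ℕ} (hr : r.Prime) (hpp : p.Prime) (hc : CharP F p) (hrp : r ≠ p) (hp : IsPGroup r R)
    {u φ : ι → F} {h : φ ⬝ᵥ u = 0} (hm : transv u φ h ∈ R) : transv u φ h = 1 := by
  have h1 : (transv u φ h) ^ p = 1 := by
    apply Units.ext
    apply Matrix.mulVec_injective
    funext w
    rw [transv_pow_apply]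
    simp [CharP.cast_eq_zero F p]
  obtain ⟨k, hk⟩ := hp ⟨_, hm⟩
  have h2 : (transv u φ h) ^ (r ^ k) = 1 := by
    have := congrArg Subtype.val hk
    simpa using this
  have hcop : Nat.Coprime (r ^ k) p := Nat.Coprime.pow_left _ ((Nat.coprime_primes hr hpp).2 hrp)
  have h3 := Nat.dvd_gcd (orderOf_dvd_of_pow_eq_one h2) (orderOf_dvd_of_pow_eq_one h1)
  rw [hcop.gcd_eq_one, Nat.dvd_one, orderOf_eq_one_iff] at h3
  exact h3

theorem sl_not_le_norm [Nonempty ι] (hn : 2 ≤ Fintype.card ι) {R : Subgroup (GL ι F)} {r p : ℕ} (hr : r.Prime) (hpp : p.Prime) (hc : CharP F p)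
    (hrp : r ≠ p) (hp : IsPGroup r R) (hq : ∀ x ∈ R, (x : Matrix ι ι F) ^ Fintype.card F = x)
    (hZ : ¬ R ≤ scalars ι F) :
    ¬ specialLinear ι F ≤ subgroupNormalizer R := by
  intro hle
  obtain ⟨x, hxR, hxZ⟩ := Set.not_subset.1 hZ
  -- an eigenfunctional
  have hqT : ((x : Matrix ι ι F)ᵀ) ^ Fintype.card F = (x : Matrix ι ι F)ᵀ := by
    rw [← Matrix.transpose_pow, hq x hxR]
  obtain ⟨c, φ, -, hφ0, hφe⟩ := exists_eig (x : Matrix ι ι F)ᵀ ⊤ (fun _ _ => Submodule.mem_top) hqT (by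
    intro h
    obtain ⟨i⟩ := ‹Nonempty ι›
    have : (Pi.single i 1 : ι → F) ∈ (⊥ : Submodule F (ι → F)) := by
      rw [← h]
      exact Submodule.mem_top
    rw [Submodule.mem_bot] at this
    have h1 := congrFun this i
    simp at h1)
  have hφx : ∀ w, φ ⬝ᵥ ((x : Matrix ι ι F) *ᵥ w) = c * (φ ⬝ᵥ w) := by
    intro w
    rw [Matrix.dotProduct_mulVec, ← Matrix.mulVec_transpose, hφe, smul_dotProduct, smul_eq_mul]
  have hc0 : c ≠ 0 := by
    rintro rfl
    apply hφ0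
    have hu : IsUnit (x : Matrix ι ι F)ᵀ := (Matrix.isUnit_transpose _).2 x.isUnit
    apply Matrix.mulVec_injective_of_isUnit hu
    rw [hφe, zero_smul, Matrix.mulVec_zero]
  -- eigenvectors in the kernel
  let W : Submodule F (ι → F) :=
    { carrier := {w | φ ⬝ᵥ w = 0}
      add_mem' := fun {a b} ha hb => by
        change φ ⬝ᵥ (a + b) = 0
        rw [dotProduct_add, show φ ⬝ᵥ a = 0 from ha, show φ ⬝ᵥ b = 0 from hb, add_zero]
      zero_mem' := by
        change φ ⬝ᵥ 0 = 0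
        simp
      smul_mem' := fun d a ha => by
        change φ ⬝ᵥ (d • a) = 0
        rw [dotProduct_smul, show φ ⬝ᵥ a = 0 from ha, smul_zero] }
  have hxq := hq x hxR
  have hμ : ∀ u ∈ W, u ≠ 0 → ∀ μ : F, (x : Matrix ι ι F) *ᵥ u = μ • u → μ = c := by
    intro u hu hu0 μ hμ
    by_contra hne
    have hφu : φ ⬝ᵥ u = 0 := hu
    let g := transv u φ hφu
    have hφu' : φ ⬝ᵥ ((μ * c⁻¹) • u) = 0 := by rw [dotProduct_smul, hφu, smul_zero]
    let t' := transv ((μ * c⁻¹) • u) φ hφu'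
    have hφu'' : φ ⬝ᵥ ((μ * c⁻¹ - 1) • u) = 0 := by rw [dotProduct_smul, hφu, smul_zero]
    let t := transv ((μ * c⁻¹ - 1) • u) φ hφu''
    have h1 : x * g = t' * x := by
      apply Units.ext
      apply Matrix.mulVec_injective
      funext w
      rw [Units.val_mul, Units.val_mul, ← Matrix.mulVec_mulVec, ← Matrix.mulVec_mulVec, transv_mulVec, transv_mulVec, hφx,
        Matrix.mulVec_add, Matrix.mulVec_smul, hμ, smul_smul, smul_smul]
      congr 2
      field_simp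
    have h2 : t * g = t' := by
      apply Units.ext
      apply Matrix.mulVec_injective
      funext w
      rw [Units.val_mul, ← Matrix.mulVec_mulVec, transv_mulVec, transv_mulVec, transv_mulVec, dotProduct_add, dotProduct_smul, hφu, smul_zero, add_zero]
      module
    have h3 : t = x * (g * x⁻¹ * g⁻¹) := by
      have h4 : t' = x * g * x⁻¹ := by rw [h1]; group
      have h5 : t = t' * g⁻¹ := by rw [← h2]; group
      rw [h5, h4]
      group
    have hgN : g ∈ subgroupNormalizer R := hle (transv_mem_specialLinear u φ hφu)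
    have h4 : g * x⁻¹ * g⁻¹ ∈ R := (Subgroup.mem_normalizer_iff.1 hgN _).1 (R.inv_mem hxR)
    have htR : t ∈ R := by
      rw [h3]
      exact R.mul_mem hxR h4
    have h5 := transv_not_mem hr hpp hc hrp hp htR
    obtain ⟨i, hi⟩ : ∃ i, φ i ≠ 0 := by
      by_contra hcon
      push Not at hcon
      exact hφ0 (funext hcon)
    have h6 := congrArg (fun a : GL ι F => (a : Matrix ι ι F) *ᵥ (Pi.single i 1)) h5
    simp only [Units.val_one, Matrix.one_mulVec] at h6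
    change ((transv ((μ * c⁻¹ - 1) • u) φ hφu'' : GL ι F) : Matrix ι ι F) *ᵥ _ = _ at h6
    rw [transv_mulVec, dotProduct_single_one] at h6
    have h7 : (φ i) • (μ * c⁻¹ - 1) • u = 0 := by simpa using h6
    rcases smul_eq_zero.1 h7 with h8 | h8
    · exact hi h8
    · rcases smul_eq_zero.1 h8 with h9 | h9
      · apply hne
        have h10 : μ * c⁻¹ = 1 := sub_eq_zero.1 h9
        field_simp at h10
        exact h10
      · exact hu0 h9
  -- `x` is scalar on the kernel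
  have hW : ∀ w ∈ W, (x : Matrix ι ι F) *ᵥ w = c • w := by
    let A : Matrix ι ι F := (x : Matrix ι ι F) - c • 1
    have hA : ∀ v, A *ᵥ v = (x : Matrix ι ι F) *ᵥ v - c • v := by
      intro v
      simp [A, Matrix.sub_mulVec, Matrix.smul_mulVec]
    have hW' : W.map (Matrix.toLin' A) = ⊥ := by
      by_contra hne
      obtain ⟨μ, u, hu, hu0, hue⟩ := exists_eig (x : Matrix ι ι F) (W.map (Matrix.toLin' A)) (by
        rintro _ ⟨w, hw, rfl⟩
        refine ⟨(x : Matrix ι ι F) *ᵥ w, ?_, ?_⟩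
        · change φ ⬝ᵥ ((x : Matrix ι ι F) *ᵥ w) = 0
          rw [hφx, show φ ⬝ᵥ w = 0 from hw, mul_zero]
        · simp only [Matrix.toLin'_apply, hA, Matrix.mulVec_sub, Matrix.mulVec_smul]) hxq hne
      obtain ⟨w, hw, rfl⟩ := hu
      rw [Matrix.toLin'_apply] at hu0 hue
      have huW : A *ᵥ w ∈ W := by
        change φ ⬝ᵥ (A *ᵥ w) = 0
        rw [hA, dotProduct_sub, hφx, dotProduct_smul, smul_eq_mul, sub_self]
      have hμc := hμ _ huW hu0 μ hue
      rw [hμc, hA] at hue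
      have := ss_of_pow hxq hue
      apply hu0
      rw [hA, this, sub_self]
    intro w hw
    have h1 : Matrix.toLin' A w ∈ W.map (Matrix.toLin' A) := ⟨w, hw, rfl⟩
    rw [hW', Submodule.mem_bot, Matrix.toLin'_apply, hA] at h1
    exact sub_eq_zero.1 h1
  have hall : ∀ v, (x : Matrix ι ι F) *ᵥ v = c • v := by
    intro v
    apply ss_of_pow hxq
    apply hW
    change φ ⬝ᵥ ((x : Matrix ι ι F) *ᵥ v - c • v) = 0
    rw [dotProduct_sub, hφx, dotProduct_smul, smul_eq_mul, sub_self]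
  apply hxZ
  rw [SetLike.mem_coe, mem_scalars_iff]
  refine ⟨Units.mk0 c hc0, ?_⟩
  apply Matrix.mulVec_injective
  funext v
  rw [hall v, Units.val_mk0, Matrix.smul_mulVec, Matrix.one_mulVec]

theorem pow_q_of {x : GL ι F} {z : ℕ} (hz : z ∣ Fintype.card F - 1) (hx : x ^ z = 1) :
    (x : Matrix ι ι F) ^ Fintype.card F = x := by
  have hq1 : 1 ≤ Fintype.card F := Fintype.card_pos
  obtain ⟨c, hc⟩ := hz
  have h1 : Fintype.card F = z * c + 1 := by omega
  have h2 : x ^ Fintype.card F = x := by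
    rw [h1, pow_succ, pow_mul, hx, one_pow, one_mul]
  have h3 := congrArg Units.val h2
  simpa using h3

variable {n : ℕ}

/-- What the definition of class six gives. -/
theorem data_facts (hn : 3 ≤ n) {r : ℕ} {R : Subgroup (GL (Fin n) F)} (hd : IsLinearSymplecticTypeData r R) :
    r.Prime ∧ (∃ a, n = r ^ a) ∧ ¬ specialLinear (Fin n) F ≤ subgroupNormalizer R ∧
    ∃ p e : ℕ, p.Prime ∧ CharP F p ∧ r ≠ p ∧ Fintype.card F = p ^ e ∧
      ((Odd r ∧ Odd e ∧ r ∣ p ^ e - 1 ∧ ∀ d, 0 < d → d < e → ¬ r ∣ p ^ d - 1) ∨ (r = 2 ∧ e = 1 ∧ 4 ∣ p - 1)) := by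
  classical
  haveI : Nonempty (Fin n) := ⟨⟨0, by omega⟩⟩
  obtain ⟨⟨hr, hpg, -, hexp⟩, hA, p, e, hrp, ⟨hpp, hc, hE, hz, hmin⟩, alts⟩ := hd
  have hexp1 : ∀ x ∈ R, x ^ (r * Nat.gcd 2 r) = 1 := by
    intro x hx
    rw [← hexp]
    have := Monoid.pow_exponent_eq_one (⟨x, hx⟩ : R)
    have h2 := congrArg Subtype.val this
    simpa using h2
  have hZ := not_le_scalars (n := n) (by omega) hA
  rcases alts with ⟨hodd, hodde, hcen, -⟩ | ⟨rfl, he, hcen, -⟩ | ⟨-, -, h2, -⟩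
  · have hg : Nat.gcd 2 r = 1 := Nat.coprime_two_left.2 hodd
    rw [hg, mul_one] at hexp1
    rw [hcen] at hz hmin
    have hzq : r ∣ Fintype.card F - 1 := by rw [hE]; exact hz
    have hq : ∀ x ∈ R, (x : Matrix (Fin n) (Fin n) F) ^ Fintype.card F = x := fun x hx => pow_q_of hzq (hexp1 x hx)
    obtain ⟨a, ha⟩ := dim_of_absIrr hr hA.1 hpg hq
    rw [Fintype.card_fin] at ha
    exact ⟨hr, ⟨a, ha⟩, sl_not_le_norm (by simp; omega) hr hpp hc hrp hpg hq hZ, p, e, hpp, hc, hrp, hE, Or.inl ⟨hodd, hodde, hz, hmin⟩⟩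
  · rw [hcen] at hz
    have hzq : 4 ∣ Fintype.card F - 1 := by rw [hE]; exact hz
    have hq : ∀ x ∈ R, (x : Matrix (Fin n) (Fin n) F) ^ Fintype.card F = x := fun x hx => pow_q_of hzq (hexp1 x hx)
    obtain ⟨a, ha⟩ := dim_of_absIrr hr hA.1 hpg hq
    rw [Fintype.card_fin] at ha
    refine ⟨hr, ⟨a, ha⟩, sl_not_le_norm (by simp; omega) hr hpp hc hrp hpg hq hZ, p, e, hpp, hc, hrp, hE, Or.inr ⟨rfl, he, ?_⟩⟩
    rw [he, pow_one] at hz
    exact hz
  · rw [Fintype.card_fin] at h2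
    omega

/-- The dimension of a field over its base field divides the dimension of the space. -/
theorem field_dvd [Nonempty ι] {r : ℕ} {K : Subalgebra F (Matrix ι ι F)} (hK : IsFieldSubalgebra r K) : r ∣ Fintype.card ι := by
  classical
  have hfield : IsField K := by
    refine ⟨⟨0, 1, zero_ne_one⟩, ?_, ?_⟩
    · intro x y
      exact Subtype.ext (hK.comm x.1 x.2 y.1 y.2)
    · intro x hx
      obtain ⟨y, hy, hxy⟩ := hK.inv x.1 x.2 (fun h => hx (Subtype.ext h))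
      exact ⟨⟨y, hy⟩, Subtype.ext hxy⟩
  letI mK : Module K (ι → F) :=
    { smul := fun c v => (c : Matrix ι ι F) *ᵥ v
      one_smul := fun v => Matrix.one_mulVec v
      mul_smul := fun a b v => (Matrix.mulVec_mulVec v _ _).symm
      smul_zero := fun a => Matrix.mulVec_zero _
      smul_add := fun a x y => Matrix.mulVec_add _ x y
      add_smul := fun a b v => Matrix.add_mulVec _ _ v
      zero_smul := fun v => Matrix.zero_mulVec v }
  haveI tK : IsScalarTower F K (ι → F) := ⟨fun a k v => Matrix.smul_mulVec a (k : Matrix ι ι F) v⟩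
  haveI fr : Module.Free K (ι → F) := @Module.Free.of_divisionRing K (ι → F) hfield.toField.toDivisionRing _ mK
  have h := @Module.finrank_mul_finrank F K (ι → F) _ _ _ _ mK _ tK _ _ _ fr
  rw [hK.finrank_eq, Module.finrank_fintype_fun_eq_card] at h
  exact ⟨_, h.symm⟩

/-- Every maximal subgroup of the special linear group, from the theorem of Aschbacher. -/
theorem max_cases (hn : 3 ≤ n) {H : Subgroup (GL (Fin n) F)} (hH : IsMaximalIn (specialLinear (Fin n) F) H) :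
    (∃ W : Submodule F (Fin n → F), W ≠ ⊥ ∧ W ≠ ⊤ ∧ H = subspaceStabilizer W ⊓ specialLinear (Fin n) F) ∨
    (∃ (t m : ℕ) (D : Fin t → Submodule F (Fin n → F)), IsMDecomposition m D ∧ t * m = n ∧
      H = decompositionStabilizer D ⊓ specialLinear (Fin n) F) ∨
    (∃ (r : ℕ) (K : Subalgebra F (Matrix (Fin n) (Fin n) F)), r.Prime ∧ r ∣ n ∧ IsFieldSubalgebra r K ∧
      H = subalgebraNormalizer K ⊓ specialLinear (Fin n) F) ∨
    (∃ (n₁ n₂ : ℕ) (e : Fin n ≃ Fin n₁ × Fin n₂) (P : GL (Fin n) F), 2 ≤ n₁ ∧ n₁ < n₂ ∧ n₁ * n₂ = n ∧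
      H = tensorProductSubgroup n₁ n₂ e P ⊓ specialLinear (Fin n) F) ∨
    (∃ (F₀ : Subfield F) (r : ℕ) (P : GL (Fin n) F), r.Prime ∧ Fintype.card F = Nat.card F₀ ^ r ∧
      H = subfieldSubgroup F₀ P ⊓ specialLinear (Fin n) F) ∨
    (∃ (r : ℕ) (R : Subgroup (GL (Fin n) F)), IsLinearSymplecticTypeData r R ∧ r.Prime ∧ (∃ a, n = r ^ a) ∧
      (∃ p e : ℕ, p.Prime ∧ CharP F p ∧ r ≠ p ∧ Fintype.card F = p ^ e ∧
        ((Odd r ∧ Odd e ∧ r ∣ p ^ e - 1 ∧ ∀ d, 0 < d → d < e → ¬ r ∣ p ^ d - 1) ∨ (r = 2 ∧ e = 1 ∧ 4 ∣ p - 1))) ∧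
      H = subgroupNormalizer R ⊓ specialLinear (Fin n) F) ∨
    (∃ (m t : ℕ) (e : Fin n ≃ (Fin t → Fin m)) (P : GL (Fin n) F), 3 ≤ m ∧ 2 ≤ t ∧ m ^ t = n ∧
      H = tensorWreathSubgroup m t e P ⊓ specialLinear (Fin n) F) ∨
    (∃ f : (Fin n → F) → (Fin n → F) → F, IsSymplecticForm f ∧ Even n ∧ 4 ≤ n ∧
      H = similarityGroup f ⊓ specialLinear (Fin n) F) ∨
    (∃ (σ : F ≃+* F) (f : (Fin n → F) → (Fin n → F) → F), IsUnitaryForm σ f ∧
      H = similarityGroup f ⊓ specialLinear (Fin n) F) ∨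
    (∃ Q : (Fin n → F) → F, IsNondegenerateQuadraticForm Q ∧ Odd (Fintype.card F) ∧
      H = quadSimilarityGroup Q ⊓ specialLinear (Fin n) F) ∨
    InLinearResidualClass H := by
  classical
  haveI : Nonempty (Fin n) := ⟨⟨0, by omega⟩⟩
  have hcard : 3 ≤ Fintype.card (Fin n) := by simpa using hn
  rcases aschbacher_linear hn H with ⟨M, hM, hHM⟩ | hres
  swap
  · exact Or.inr (Or.inr (Or.inr (Or.inr (Or.inr (Or.inr (Or.inr (Or.inr (Or.inr (Or.inr hres)))))))))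
  rcases hM with ⟨W, h0, h1, rfl⟩ | ⟨W, U, h0, hlt, -, rfl⟩ | ⟨W, U, h0, -, hsup, hdim, rfl⟩ |
    ⟨t, m, D, hD, rfl⟩ | ⟨r, K, hr, hK, rfl⟩ | ⟨n₁, n₂, e, P, h2, hlt, rfl⟩ | ⟨F₀, r, P, hr, hc, rfl⟩ |
    ⟨r, R, hd, rfl⟩ | ⟨m, t, e, P, hm, ht, rfl⟩ | ⟨f, hf, hev, h4, rfl⟩ | ⟨σ, f, hf, h3, rfl⟩ | ⟨Q, hQ, hodd, h3, rfl⟩
  · exact Or.inl ⟨W, h0, h1, eq_inf_of_le hH hHM (sl_not_le_stab h0 h1)⟩
  · have h1 : W ≠ ⊤ := fun h => by
      rw [h] at hlt
      exact not_top_lt hlt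
    exact Or.inl ⟨W, h0, h1, eq_inf_of_le hH (hHM.trans inf_le_left) (sl_not_le_stab h0 h1)⟩
  · have h1 : W ≠ ⊤ := fun h => by
      rw [h, finrank_top] at hdim
      have := Submodule.finrank_le U
      omega
    exact Or.inl ⟨W, h0, h1, eq_inf_of_le hH (hHM.trans inf_le_left) (sl_not_le_stab h0 h1)⟩
  · refine Or.inr (Or.inl ⟨t, m, D, hD, ?_, eq_inf_of_le hH hHM (sl_not_le_decomp hD)⟩)
    obtain ⟨e, -, -⟩ := Cfsg.Agent.Lib.SLC2.BlockD.exists_frame D hD
    have := Fintype.card_congr e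
    simpa using this.symm
  · have hdvd := field_dvd hK
    rw [Fintype.card_fin] at hdvd
    exact Or.inr (Or.inr (Or.inl ⟨r, K, hr, hdvd, hK, eq_inf_of_le hH hHM (sl_not_le_field hcard hr.two_le hK)⟩))
  · have h3 := Fintype.card_congr e
    simp only [Fintype.card_fin, Fintype.card_prod] at h3
    exact Or.inr (Or.inr (Or.inr (Or.inl ⟨n₁, n₂, e, P, h2, hlt, h3.symm,
      eq_inf_of_le hH hHM (sl_not_le_tensor h2 (by omega) e P)⟩)))
  · have hmax := Cfsg.Agent.Lib.Geo.SLSub.isMaximalIn hcard hr hc P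
    refine Or.inr (Or.inr (Or.inr (Or.inr (Or.inl ⟨F₀, r, P, hr, hc, eq_inf_of_le hH hHM fun h => ?_⟩))))
    exact absurd (le_inf h le_rfl) (not_le_of_gt hmax.1)
  · obtain ⟨hr, ha, hnot, hrest⟩ := data_facts hn hd
    exact Or.inr (Or.inr (Or.inr (Or.inr (Or.inr (Or.inl ⟨r, R, hd, hr, ha, hrest, eq_inf_of_le hH hHM hnot⟩)))))
  · have h3 := Fintype.card_congr e
    simp only [Fintype.card_fin, Fintype.card_fun] at h3
    exact Or.inr (Or.inr (Or.inr (Or.inr (Or.inr (Or.inr (Or.inl ⟨m, t, e, P, hm, ht, h3.symm,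
      eq_inf_of_le hH hHM (sl_not_le_wreath (by omega) ht e P)⟩))))))
  · exact Or.inr (Or.inr (Or.inr (Or.inr (Or.inr (Or.inr (Or.inr (Or.inl ⟨f, hf, hev, h4,
      eq_inf_of_le hH hHM (sl_not_le_sim hcard hf.bilinear.add_left hf.bilinear.smul_left hf.nondegenerate)⟩)))))))
  · exact Or.inr (Or.inr (Or.inr (Or.inr (Or.inr (Or.inr (Or.inr (Or.inr (Or.inl ⟨σ, f, hf,
      eq_inf_of_le hH hHM (sl_not_le_sim hcard hf.add_left hf.smul_left hf.nondegenerate)⟩))))))))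
  · exact Or.inr (Or.inr (Or.inr (Or.inr (Or.inr (Or.inr (Or.inr (Or.inr (Or.inr (Or.inl ⟨Q, hQ, hodd,
      eq_inf_of_le hH hHM (sl_not_le_quadSim hcard hQ)⟩)))))))))

end Cfsg.Agent.Lib.Asch.MaxSN
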