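import Mathlib
import Cfsg.Agent.Lib.Asch.MaxSN
import Cfsg.Agent.Lib.NotMax.TensorTwo

/-!
# Decompositions and tensor decompositions over small fields
-/

set_option autoImplicit false

namespace Cfsg.Agent.Lib.Asch.Exc

open Matrix Module Cfsg Cfsg.Geo Cfsg.Agent.Lib.Geo.Basic
open Cfsg.Agent.Lib.Asch.Basic Cfsg.Agent.Lib.Asch.SC Cfsg.Agent.Lib.Asch.Mono Cfsg.Agent.Lib.Asch.GT
  Cfsg.Agent.Lib.Asch.Cl Cfsg.Agent.Lib.Asch.XT Cfsg.Agent.Lib.Asch.Main Cfsg.Agent.Lib.Asch.MaxSL
  Cfsg.Agent.Lib.Asch.MaxSW Cfsg.Agent.Lib.Asch.IrrDim Cfsg.Agent.Lib.Asch.MaxSN Cfsg.Agent.Lib.Asch.FStep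

universe u

variable {ι : Type} [Fintype ι] [DecidableEq ι] {F : Type u} [Field F]

section Forms

variable {T : Type} [Fintype T] [DecidableEq T]

/-- A unitary form from coordinates. -/
theorem unitary_of_equiv (E : (ι → F) ≃ₗ[F] (T → F)) (σ : F ≃+* F) (hne : σ ≠ RingEquiv.refl F) (hσ : ∀ a : F, σ (σ a) = a) :
    IsUnitaryForm σ (fun x y => ∑ i, E x i * σ (E y i)) := by
  refine ⟨hne, hσ, fun x y v => ?_, fun c x v => ?_, fun v w => ?_, fun v hv => ?_⟩
  · simp only [map_add, Pi.add_apply, add_mul, Finset.sum_add_distrib]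
  · simp only [map_smul, Pi.smul_apply, smul_eq_mul, Finset.mul_sum, mul_assoc]
  · simp only [map_sum, map_mul, hσ]
    exact Finset.sum_congr rfl fun i _ => mul_comm _ _
  · have h1 : E v ≠ 0 := by
      intro h
      exact hv (E.map_eq_zero_iff.1 h)
    obtain ⟨l, hl⟩ : ∃ l, E v l ≠ 0 := by
      by_contra hcon
      push Not at hcon
      exact h1 (funext hcon)
    have hs : ∀ i, E (E.symm (Pi.single l 1)) i = if i = l then 1 else 0 := by
      intro i
      rw [LinearEquiv.apply_symm_apply, Pi.single_apply]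
    constructor
    · refine ⟨E.symm (Pi.single l 1), ?_⟩
      rw [Finset.sum_eq_single l]
      · rw [hs, if_pos rfl, one_mul]
        simpa using hl
      · intro i _ hi
        rw [hs, if_neg hi, zero_mul]
      · simp
    · refine ⟨E.symm (Pi.single l 1), ?_⟩
      rw [Finset.sum_eq_single l]
      · rw [hs, if_pos rfl, map_one, mul_one]
        exact hl
      · intro i _ hi
        rw [hs, if_neg hi, map_zero, mul_zero]
      · simp

/-- A quadratic form from coordinates. -/
theorem quad_of_equiv (E : (ι → F) ≃ₗ[F] (T → F)) (h2 : (2 : F) ≠ 0) :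
    IsNondegenerateQuadraticForm (fun x => ∑ i, (E x i) ^ 2) := by
  have hpol : ∀ u v, QuadraticMap.polar (fun x => ∑ i, (E x i) ^ 2) u v = 2 * ∑ i, E u i * E v i := by
    intro u v
    simp only [QuadraticMap.polar, map_add, Pi.add_apply, Finset.mul_sum, ← Finset.sum_sub_distrib]
    exact Finset.sum_congr rfl fun i _ => by ring
  refine ⟨fun c v => ?_, ⟨fun x y v => ?_, fun c x v => ?_, fun v x y => ?_, fun c v x => ?_⟩, fun v hv => ?_⟩
  · simp only [map_smul, Pi.smul_apply, smul_eq_mul, Finset.mul_sum, mul_pow]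
  · rw [hpol, hpol, hpol]
    simp only [map_add, Pi.add_apply, add_mul, Finset.sum_add_distrib, mul_add]
  · rw [hpol, hpol]
    simp only [map_smul, Pi.smul_apply, smul_eq_mul, Finset.mul_sum]
    exact Finset.sum_congr rfl fun i _ => by ring
  · rw [hpol, hpol, hpol]
    simp only [map_add, Pi.add_apply, mul_add, Finset.sum_add_distrib]
  · rw [hpol, hpol]
    simp only [map_smul, Pi.smul_apply, smul_eq_mul, Finset.mul_sum]
    exact Finset.sum_congr rfl fun i _ => by ring
  · have h1 : E v ≠ 0 := by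
      intro h
      exact hv (E.map_eq_zero_iff.1 h)
    obtain ⟨l, hl⟩ : ∃ l, E v l ≠ 0 := by
      by_contra hcon
      push Not at hcon
      exact h1 (funext hcon)
    have hs : ∀ i, E (E.symm (Pi.single l 1)) i = if i = l then 1 else 0 := by
      intro i
      rw [LinearEquiv.apply_symm_apply, Pi.single_apply]
    constructor
    · refine ⟨E.symm (Pi.single l 1), ?_⟩
      rw [hpol, Finset.sum_eq_single l]
      · rw [hs, if_pos rfl, one_mul]
        exact mul_ne_zero h2 hl
      · intro i _ hi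
        rw [hs, if_neg hi, zero_mul]
      · simp
    · refine ⟨E.symm (Pi.single l 1), ?_⟩
      rw [hpol, Finset.sum_eq_single l]
      · rw [hs, if_pos rfl, mul_one]
        exact mul_ne_zero h2 hl
      · intro i _ hi
        rw [hs, if_neg hi, mul_zero]
      · simp

end Forms

/-- Coordinates for a decomposition into lines. -/
theorem frame_lines {t : ℕ} {D : Fin t → Submodule F (ι → F)} (hD : IsMDecomposition 1 D) :
    ∃ E : (ι → F) ≃ₗ[F] (Fin t → F), ∀ g ∈ decompositionStabilizer D, ∃ σ : Equiv.Perm (Fin t), ∃ c : Fin t → F,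
      (∀ i, c i ≠ 0) ∧ ∀ x i, E ((g : Matrix ι ι F) *ᵥ x) (σ i) = c i * E x i := by
  classical
  have hint := DirectSum.isInternal_submodule_of_iSupIndep_of_iSup_eq_top hD.indep hD.iSup_eq_top
  let bb : ∀ i, Module.Basis (Fin 1) F (D i) := fun i => Module.finBasisOfFinrankEq F (D i) (hD.finrank_eq i)
  let b₀ : Module.Basis (Σ _ : Fin t, Fin 1) F (ι → F) := hint.collectedBasis bb
  let eT : (Σ _ : Fin t, Fin 1) ≃ Fin t := (Equiv.sigmaEquivProd _ _).trans (Equiv.prodUnique _ _)
  let b : Module.Basis (Fin t) F (ι → F) := b₀.reindex eT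
  have hb : ∀ i, b i = ((bb i 0 : D i) : ι → F) := by
    intro i
    have h1 : eT.symm i = ⟨i, 0⟩ := by
      apply eT.injective
      simp [eT]
    simp only [b, Module.Basis.reindex_apply, h1, b₀]
    rw [DirectSum.IsInternal.collectedBasis_coe]
  have hbm : ∀ i, b i ∈ D i := fun i => by
    rw [hb]
    exact (bb i 0).2
  have hspan : ∀ i, ∀ x ∈ D i, ∃ a : F, x = a • b i := by
    intro i x hx
    have h1 := (bb i).sum_repr ⟨x, hx⟩
    refine ⟨(bb i).repr ⟨x, hx⟩ 0, ?_⟩
    have h2 := congrArg Subtype.val h1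
    simp only [Fin.sum_univ_one, SetLike.val_smul] at h2
    rw [hb]
    exact h2.symm
  refine ⟨b.equivFun, fun g hg => ?_⟩
  obtain ⟨σ, hσ⟩ := hg
  have hex : ∀ i, ∃ a : F, (g : Matrix ι ι F) *ᵥ b i = a • b (σ i) := by
    intro i
    apply hspan
    rw [← hσ i]
    exact ⟨b i, hbm i, rfl⟩
  choose c hc using hex
  refine ⟨σ, c, fun i h0 => ?_, fun x i => ?_⟩
  · have h1 := hc i
    rw [h0, zero_smul] at h1
    exact b.ne_zero i (Matrix.mulVec_injective_of_isUnit g.isUnit (h1.trans (Matrix.mulVec_zero _).symm))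
  · have hx : x = ∑ j, b.equivFun x j • b j := (b.sum_equivFun x).symm
    conv_lhs => rw [hx]
    rw [Matrix.mulVec_sum]
    simp only [Matrix.mulVec_smul, hc, map_sum, map_smul, Module.Basis.equivFun_self]
    rw [Finset.sum_apply]
    simp only [Pi.smul_apply, smul_eq_mul, Module.Basis.equivFun_apply, smul_smul]
    rw [Finset.sum_eq_single i]
    · simp only [Module.Basis.repr_self, Finsupp.smul_single, Finsupp.single_eq_same, smul_eq_mul, mul_one]
      ring
    · intro j _ hj
      have : σ j ≠ σ i := fun h => hj (σ.injective h)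
      simp [Finsupp.single_apply, this]
    · simp

theorem two_ne_zero_of_odd [Fintype F] (h : Odd (Fintype.card F)) : (2 : F) ≠ 0 := by
  classical
  intro h2
  have h1 : ringChar F ∣ 2 := (CharP.cast_eq_zero_iff F (ringChar F) 2).1 (by exact_mod_cast h2)
  rcases (Nat.dvd_prime Nat.prime_two).1 h1 with h3 | h3
  · exact CharP.ringChar_ne_one h3
  · have := FiniteField.even_card_iff_char_two.1 h3
    rcases h with ⟨k, hk⟩
    omega

theorem frob_props [Fintype F] {p f : ℕ} [hp : Fact p.Prime] [hc : CharP F p] (hE : Fintype.card F = p ^ (2 * f)) (hf : 0 < f) :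
    frob (F := F) p f ≠ RingEquiv.refl F ∧ ∀ a : F, frob p f (frob p f a) = a := by
  have hp2 : 2 ≤ p := hp.out.two_le
  have hpf : 2 ≤ p ^ f := le_trans hp2 (Nat.le_self_pow (by omega) p)
  refine ⟨fun h => ?_, fun a => ?_⟩
  · have h1 : ∀ x : Fˣ, x ^ (p ^ f - 1) = 1 := by
      intro x
      have h2 : frob p f (x : F) = x := by rw [h]; rfl
      rw [frob_apply] at h2
      apply Units.ext
      rw [Units.val_pow_eq_pow_val, Units.val_one]
      have h3 : (x : F) ^ (p ^ f - 1) * x = 1 * x := by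
        rw [← pow_succ, Nat.sub_add_cancel (by omega), h2, one_mul]
      exact mul_right_cancel₀ x.ne_zero h3
    rw [FiniteField.forall_pow_eq_one_iff, hE] at h1
    have := Nat.le_of_dvd (by omega) h1
    have hlt : p ^ f < p ^ (2 * f) := Nat.pow_lt_pow_right (by omega) (by omega)
    omega
  · rw [frob_apply, frob_apply, ← pow_mul, ← pow_add, ← two_mul, ← hE, FiniteField.pow_card]

theorem card_cases [Fintype F] (h : Fintype.card F < 5) :
    (Fintype.card F = 2) ∨ (Fintype.card F = 3) ∨ (Fintype.card F = 4) := by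
  have := Fintype.one_lt_card (α := F)
  omega

/-- Decompositions into lines over fields with fewer than five elements. -/
theorem lines_small [Fintype F] {n : ℕ} (hn : 3 ≤ n) {H : Subgroup (GL (Fin n) F)} (hH : IsMaximalIn (specialLinear (Fin n) F) H)
    {t : ℕ} {D : Fin t → Submodule F (Fin n → F)} (hD : IsMDecomposition 1 D)
    (hHD : H = decompositionStabilizer D ⊓ specialLinear (Fin n) F) (hq : Fintype.card F < 5) :
    (∃ W : Submodule F (Fin n → F), W ≠ ⊥ ∧ W ≠ ⊤ ∧ H = subspaceStabilizer W ⊓ specialLinear (Fin n) F) ∨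
    (Odd (Fintype.card F) ∧ ∃ Q : (Fin n → F) → F, IsNondegenerateQuadraticForm Q ∧ H = quadSimilarityGroup Q ⊓ specialLinear (Fin n) F) ∨
    (∃ (σ : F ≃+* F) (f : (Fin n → F) → (Fin n → F) → F), IsUnitaryForm σ f ∧ H = similarityGroup f ⊓ specialLinear (Fin n) F) := by
  classical
  have hcard : 3 ≤ Fintype.card (Fin n) := by simpa using hn
  have hHS : ∀ g ∈ H, g ∈ decompositionStabilizer D := fun g hg => by
    rw [hHD] at hg
    exact hg.1
  obtain ⟨E, hE⟩ := frame_lines hD
  rcases card_cases hq with h2 | h3 | h4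
  · -- `q = 2`
    left
    have h01 : ∀ c : F, c ≠ 0 → c = 1 := fun c hc => (Cfsg.Agent.Lib.NotMax.Sp2.eq_zero_or_one h2 c).resolve_left hc
    let s : Fin n → F := E.symm (fun _ => 1)
    have hs0 : s ≠ 0 := by
      intro h
      have h1 : (fun _ : Fin t => (1 : F)) = 0 := by
        have := congrArg E h
        simpa [s] using this
      have ht := hD.two_le
      have h5 := congrFun h1 ⟨0, by omega⟩
      simp at h5
    let W : Submodule F (Fin n → F) := Submodule.span F {s}
    have hW0 : W ≠ ⊥ := by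
      intro h
      exact hs0 (by simpa [W] using h)
    have hW1 : W ≠ ⊤ := by
      intro h
      have h1 : Module.finrank F W = 1 := finrank_span_singleton hs0
      rw [h, finrank_top, Module.finrank_fintype_fun_eq_card, Fintype.card_fin] at h1
      omega
    refine ⟨W, hW0, hW1, eq_inf_of_le hH (fun g hg => ?_) (sl_not_le_stab hW0 hW1)⟩
    obtain ⟨σ, c, hc0, hc⟩ := hE g (hHS g hg)
    have hgs : (g : Matrix (Fin n) (Fin n) F) *ᵥ s = s := by
      apply E.injective
      funext j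
      obtain ⟨i, rfl⟩ := σ.surjective j
      rw [hc, h01 _ (hc0 i), one_mul]
      simp [s]
    rw [mem_subspaceStabilizer_iff_forall_mem]
    intro v hv
    obtain ⟨a, rfl⟩ := Submodule.mem_span_singleton.mp hv
    rw [Matrix.mulVec_smul, hgs]
    exact hv
  · -- `q = 3`
    right
    left
    have hodd : Odd (Fintype.card F) := by rw [h3]; decide
    have h2F := two_ne_zero_of_odd hodd
    have hsq : ∀ c : F, c ≠ 0 → c ^ 2 = 1 := by
      intro c hc
      have := FiniteField.pow_card_sub_one_eq_one c hc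
      rwa [h3] at this
    refine ⟨hodd, _, quad_of_equiv E h2F, eq_inf_of_le hH (fun g hg => ?_) (sl_not_le_quadSim hcard (quad_of_equiv E h2F))⟩
    obtain ⟨σ, c, hc0, hc⟩ := hE g (hHS g hg)
    refine ⟨1, fun v => ?_⟩
    simp only [Units.val_one, one_mul]
    rw [← Equiv.sum_comp σ]
    refine Finset.sum_congr rfl fun i _ => ?_
    rw [hc, mul_pow, hsq _ (hc0 i), one_mul]
  · -- `q = 4`
    right
    right
    obtain ⟨p, hpc⟩ := CharP.exists F
    obtain ⟨e, hpp, hpe⟩ := FiniteField.card F p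
    have hp2 : p = 2 := by
      have h1 : p ∣ 4 := by
        rw [← h4, hpe]
        exact dvd_pow_self p e.ne_zero
      have h5 : p ∣ 2 ^ 2 := by simpa using h1
      exact (Nat.prime_dvd_prime_iff_eq hpp Nat.prime_two).1 (hpp.dvd_of_dvd_pow h5)
    subst hp2
    haveI : Fact (Nat.Prime 2) := ⟨Nat.prime_two⟩
    obtain ⟨hne, hσ⟩ := frob_props (F := F) (p := 2) (f := 1) (by rw [h4]; norm_num) (by norm_num)
    have hform := unitary_of_equiv E (frob 2 1) hne hσ
    refine ⟨frob 2 1, _, hform, eq_inf_of_le hH (fun g hg => ?_) (sl_not_le_sim hcard hform.add_left hform.smul_left hform.nondegenerate)⟩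
    obtain ⟨σ, c, hc0, hc⟩ := hE g (hHS g hg)
    refine ⟨1, fun u v => ?_⟩
    simp only [Units.val_one, one_mul]
    rw [← Equiv.sum_comp σ]
    refine Finset.sum_congr rfl fun i _ => ?_
    rw [hc, hc, map_mul]
    have h5 : c i * frob 2 1 (c i) = 1 := by
      rw [frob_apply]
      have := FiniteField.pow_card_sub_one_eq_one (c i) (hc0 i)
      rw [h4] at this
      calc c i * c i ^ 2 ^ 1 = c i ^ (4 - 1) := by ring
        _ = 1 := this
    calc c i * E u i * (frob 2 1 (c i) * frob 2 1 (E v i)) = (c i * frob 2 1 (c i)) * (E u i * frob 2 1 (E v i)) := by ring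
      _ = _ := by rw [h5, one_mul]

/-- Forms which agree on a basis. -/
theorem form_ext {f f' : (ι → F) → (ι → F) → F} (hf : IsBilinearForm f) (hf' : IsBilinearForm f') {κ : Type*}
    (b : Module.Basis κ F (ι → F)) (h : ∀ α β, f (b α) (b β) = f' (b α) (b β)) (x y : ι → F) : f x y = f' x y := by
  let L : (ι → F) → ((ι → F) →ₗ[F] F) := fun y =>
    { toFun := fun x => f x y - f' x y
      map_add' := fun a c => by rw [hf.add_left, hf'.add_left]; ring
      map_smul' := fun r a => by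
        rw [hf.smul_left, hf'.smul_left, RingHom.id_apply, smul_eq_mul]
        ring }
  let R : (ι → F) → ((ι → F) →ₗ[F] F) := fun x =>
    { toFun := fun y => f x y - f' x y
      map_add' := fun a c => by rw [hf.add_right, hf'.add_right]; ring
      map_smul' := fun r a => by
        rw [hf.smul_right, hf'.smul_right, RingHom.id_apply, smul_eq_mul]
        ring }
  have h1 : ∀ β, L (b β) = 0 := by
    intro β
    apply b.ext
    intro α
    change f _ _ - f' _ _ = 0
    rw [h, sub_self]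
  have h2 : R x = 0 := by
    apply b.ext
    intro β
    have := congrArg (fun l => l x) (h1 β)
    exact this
  have h3 := congrArg (fun l => l y) h2
  exact sub_eq_zero.1 h3

omit [Field F] in
theorem f2_key [Field F] (h01 : ∀ a : F, a = 0 ∨ a = 1) (p0 p1 q0 q1 : F) (h : p0 * q1 + p1 * q0 = 0) :
    (p0 = 0 ∧ p1 = 0) ∨ (q0 = 0 ∧ q1 = 0) ∨ (p0 = q0 ∧ p1 = q1) := by
  rcases h01 p0 with rfl | rfl <;> rcases h01 p1 with rfl | rfl <;>
    rcases h01 q0 with rfl | rfl <;> rcases h01 q1 with rfl | rfl <;> simp_all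

/-- Decompositions into planes over the field with two elements preserve a symplectic form. -/
theorem planes_q2 [Fintype F] {n : ℕ} (hn : 3 ≤ n) {H : Subgroup (GL (Fin n) F)} (hH : IsMaximalIn (specialLinear (Fin n) F) H)
    {t : ℕ} {D : Fin t → Submodule F (Fin n → F)} (hD : IsMDecomposition 2 D)
    (hHD : H = decompositionStabilizer D ⊓ specialLinear (Fin n) F) (hq : Fintype.card F = 2) :
    ∃ f : (Fin n → F) → (Fin n → F) → F, IsSymplecticForm f ∧ H = similarityGroup f ⊓ specialLinear (Fin n) F := by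
  classical
  have hcard : 3 ≤ Fintype.card (Fin n) := by simpa using hn
  have hHS : ∀ g ∈ H, g ∈ decompositionStabilizer D := fun g hg => by
    rw [hHD] at hg
    exact hg.1
  have h01 : ∀ x : F, x = 0 ∨ x = 1 := Cfsg.Agent.Lib.NotMax.Sp2.eq_zero_or_one hq
  have h2 : (2 : F) = 0 := Cfsg.Agent.Lib.NotMax.Sp2.two_eq_zero hq
  have hint : DirectSum.IsInternal D :=
    DirectSum.isInternal_submodule_of_iSupIndep_of_iSup_eq_top hD.indep hD.iSup_eq_top
  let bb : ∀ i, Module.Basis (Fin 2) F (D i) := fun i => Module.finBasisOfFinrankEq F (D i) (hD.finrank_eq i)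
  let b : Module.Basis (Σ _ : Fin t, Fin 2) F (Fin n → F) := hint.collectedBasis bb
  have hbmem : ∀ α, b α ∈ D α.1 := fun α => hint.collectedBasis_mem bb α
  let E : (Fin n → F) ≃ₗ[F] ((Σ _ : Fin t, Fin 2) → F) := b.equivFun
  have hEb : ∀ α β, E (b α) β = if α = β then 1 else 0 := by
    intro α β
    simp only [E, Module.Basis.equivFun_apply, Module.Basis.repr_self, Finsupp.single_apply]
  have hEout : ∀ j, ∀ x ∈ D j, ∀ i r, i ≠ j → E x ⟨i, r⟩ = 0 := by
    intro j x hx i r hij
    have h3 := (bb j).sum_repr ⟨x, hx⟩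
    have h4 : x = ∑ s, (bb j).repr ⟨x, hx⟩ s • b ⟨j, s⟩ := by
      have h5 := congrArg (Subtype.val) h3
      simp only [AddSubmonoidClass.coe_finsetSum, SetLike.val_smul] at h5
      refine h5.symm.trans (Finset.sum_congr rfl fun s _ => ?_)
      congr 1
      exact (congrFun (hint.collectedBasis_coe bb) ⟨j, s⟩).symm
    rw [h4, map_sum, Finset.sum_apply]
    refine Finset.sum_eq_zero fun s _ => ?_
    rw [map_smul, Pi.smul_apply, hEb, if_neg, smul_zero]
    intro h
    exact hij (congrArg Sigma.fst h).symm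
  let f : (Fin n → F) → (Fin n → F) → F := fun x y =>
    ∑ i : Fin t, (E x ⟨i, 0⟩ * E y ⟨i, 1⟩ + E x ⟨i, 1⟩ * E y ⟨i, 0⟩)
  have hfb : IsBilinearForm f := by
    refine ⟨fun x y z => ?_, fun c x z => ?_, fun x y z => ?_, fun c x z => ?_⟩
    · simp only [f, map_add, Pi.add_apply, ← Finset.sum_add_distrib]
      exact Finset.sum_congr rfl fun i _ => by ring
    · simp only [f, map_smul, Pi.smul_apply, smul_eq_mul, Finset.mul_sum]
      exact Finset.sum_congr rfl fun i _ => by ring
    · simp only [f, map_add, Pi.add_apply, ← Finset.sum_add_distrib]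
      exact Finset.sum_congr rfl fun i _ => by ring
    · simp only [f, map_smul, Pi.smul_apply, smul_eq_mul, Finset.mul_sum]
      exact Finset.sum_congr rfl fun i _ => by ring
  have hfsymm : ∀ x y, f x y = f y x := by
    intro x y
    simp only [f]
    exact Finset.sum_congr rfl fun i _ => by ring
  have hfalt : ∀ x, f x x = 0 := by
    intro x
    simp only [f]
    refine Finset.sum_eq_zero fun i _ => ?_
    linear_combination (E x ⟨i, 0⟩ * E x ⟨i, 1⟩) * h2
  have hortho : ∀ i j, i ≠ j → ∀ x ∈ D i, ∀ y ∈ D j, f x y = 0 := by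
    intro i j hij x hx y hy
    simp only [f]
    refine Finset.sum_eq_zero fun k _ => ?_
    by_cases hk : k = i
    · subst hk
      rw [hEout j y hy k 0 hij, hEout j y hy k 1 hij]
      ring
    · rw [hEout i x hx k 0 hk, hEout i x hx k 1 hk]
      ring
  have hsame : ∀ i, ∀ x ∈ D i, ∀ y ∈ D i,
      f x y = E x ⟨i, 0⟩ * E y ⟨i, 1⟩ + E x ⟨i, 1⟩ * E y ⟨i, 0⟩ := by
    intro i x hx y hy
    simp only [f]
    rw [Finset.sum_eq_single i]
    · intro k _ hk
      rw [hEout i x hx k 0 hk, hEout i x hx k 1 hk]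
      ring
    · simp
  have hzero : ∀ i, ∀ x ∈ D i, E x ⟨i, 0⟩ = 0 → E x ⟨i, 1⟩ = 0 → x = 0 := by
    intro i x hx h0 h1
    apply E.injective
    rw [map_zero]
    funext ⟨k, r⟩
    by_cases hk : k = i
    · subst hk
      have : r = 0 ∨ r = 1 := by omega
      rcases this with rfl | rfl
      · exact h0
      · exact h1
    · exact hEout i x hx k r hk
  have hiff : ∀ i, ∀ x ∈ D i, ∀ y ∈ D i, f x y = 0 ↔ (x = 0 ∨ y = 0 ∨ x = y) := by
    intro i x hx y hy
    constructor
    · intro h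
      rw [hsame i x hx y hy] at h
      have hsub : x - y ∈ D i := (D i).sub_mem hx hy
      have hcases : (E x ⟨i, 0⟩ = 0 ∧ E x ⟨i, 1⟩ = 0) ∨ (E y ⟨i, 0⟩ = 0 ∧ E y ⟨i, 1⟩ = 0) ∨
          (E x ⟨i, 0⟩ = E y ⟨i, 0⟩ ∧ E x ⟨i, 1⟩ = E y ⟨i, 1⟩) :=
        f2_key h01 _ _ _ _ h
      rcases hcases with ⟨a, b'⟩ | ⟨a, b'⟩ | ⟨a, b'⟩
      · exact Or.inl (hzero i x hx a b')
      · exact Or.inr (Or.inl (hzero i y hy a b'))
      · refine Or.inr (Or.inr ?_)
        have := hzero i (x - y) hsub (by rw [map_sub, Pi.sub_apply, a, sub_self])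
          (by rw [map_sub, Pi.sub_apply, b', sub_self])
        exact sub_eq_zero.mp this
    · rintro (rfl | rfl | rfl)
      · simpa using hfb.smul_left 0 0 y
      · simpa using hfb.smul_right 0 x 0
      · exact hfalt x
  have hneg : ∀ a : F, -a = a := fun a => by linear_combination (-a) * h2
  have hnd : IsNondegenerateForm f := by
    intro v hv
    have h1 : E v ≠ 0 := fun h => hv (E.map_eq_zero_iff.1 h)
    obtain ⟨⟨i, r⟩, hl⟩ : ∃ l, E v l ≠ 0 := by
      by_contra hcon
      push Not at hcon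
      exact h1 (funext hcon)
    have hkey : f v (b ⟨i, 1 - r⟩) = E v ⟨i, r⟩ := by
      simp only [f]
      rw [Finset.sum_eq_single i]
      · have hr : r = 0 ∨ r = 1 := by omega
        rcases hr with rfl | rfl
        · simp [hEb]
        · simp [hEb]
      · intro k _ hk
        simp [hEb, Sigma.mk.injEq, hk.symm]
      · simp
    have h3 : f v (b ⟨i, 1 - r⟩) ≠ 0 := by rw [hkey]; exact hl
    exact ⟨⟨_, by rw [hfsymm]; exact h3⟩, ⟨_, h3⟩⟩
  have hf : IsSymplecticForm f := ⟨hfb, fun v w => by rw [hneg, hfsymm], hfalt, hnd⟩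
  refine ⟨f, hf, eq_inf_of_le hH (fun g hg => ?_) (sl_not_le_sim hcard hfb.add_left hfb.smul_left hnd)⟩
  obtain ⟨σ, hσ⟩ := hHS g hg
  refine ⟨1, fun u v => ?_⟩
  simp only [Units.val_one, one_mul]
  have hgm : ∀ i, ∀ x ∈ D i, (g : Matrix (Fin n) (Fin n) F) *ᵥ x ∈ D (σ i) := by
    intro i x hx
    rw [← hσ i]
    exact ⟨x, hx, rfl⟩
  have hg0 : ∀ x : Fin n → F, (g : Matrix (Fin n) (Fin n) F) *ᵥ x = 0 ↔ x = 0 := by
    intro x
    constructor
    · intro h
      exact Matrix.mulVec_injective_of_isUnit g.isUnit (h.trans (Matrix.mulVec_zero _).symm)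
    · rintro rfl
      exact Matrix.mulVec_zero _
  have hginj : ∀ x y : Fin n → F, (g : Matrix (Fin n) (Fin n) F) *ᵥ x = (g : Matrix (Fin n) (Fin n) F) *ᵥ y ↔ x = y :=
    fun x y => (Matrix.mulVec_injective_of_isUnit g.isUnit).eq_iff
  refine form_ext (f := fun x y => f ((g : Matrix (Fin n) (Fin n) F) *ᵥ x) ((g : Matrix (Fin n) (Fin n) F) *ᵥ y)) (f' := f)
    ⟨fun x y z => ?_, fun c x z => ?_, fun x y z => ?_, fun c x z => ?_⟩ hfb b ?_ u v
  · simp only [Matrix.mulVec_add, hfb.add_left]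
  · simp only [Matrix.mulVec_smul, hfb.smul_left]
  · simp only [Matrix.mulVec_add, hfb.add_right]
  · simp only [Matrix.mulVec_smul, hfb.smul_right]
  · rintro ⟨i, r⟩ ⟨j, s⟩
    by_cases hij : i = j
    · subst hij
      have hx := hbmem ⟨i, r⟩
      have hy := hbmem ⟨i, s⟩
      have h1 := hiff i _ hx _ hy
      have h3 := hiff (σ i) _ (hgm i _ hx) _ (hgm i _ hy)
      rw [hg0, hg0, hginj] at h3
      change f ((g : Matrix (Fin n) (Fin n) F) *ᵥ b ⟨i, r⟩) ((g : Matrix (Fin n) (Fin n) F) *ᵥ b ⟨i, s⟩) = _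
      rcases h01 (f (b ⟨i, r⟩) (b ⟨i, s⟩)) with h4 | h4
      · rw [h4, h3]
        exact h1.1 h4
      · rw [h4]
        rcases h01 (f ((g : Matrix (Fin n) (Fin n) F) *ᵥ b ⟨i, r⟩) ((g : Matrix (Fin n) (Fin n) F) *ᵥ b ⟨i, s⟩)) with h5 | h5
        · exact absurd (h1.2 (h3.1 h5)) (by rw [h4]; exact one_ne_zero)
        · exact h5
    · change f ((g : Matrix (Fin n) (Fin n) F) *ᵥ b ⟨i, r⟩) ((g : Matrix (Fin n) (Fin n) F) *ᵥ b ⟨j, s⟩) = _
      rw [hortho i j hij _ (hbmem ⟨i, r⟩) _ (hbmem ⟨j, s⟩),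
        hortho (σ i) (σ j) (fun h => hij (σ.injective h)) _ (hgm i _ (hbmem ⟨i, r⟩)) _ (hgm j _ (hbmem ⟨j, s⟩))]

section F4

variable [Fintype ι]

/-- The algebra generated by an element of order three. -/
def KJ (J : Matrix ι ι F) (hJ : J * J = -J - 1) : Subalgebra F (Matrix ι ι F) where
  carrier := {x | ∃ a b : F, x = a • (1 : Matrix ι ι F) + b • J}
  mul_mem' := by
    rintro _ _ ⟨a, b, rfl⟩ ⟨c, d, rfl⟩
    refine ⟨a * c - b * d, a * d + b * c - b * d, ?_⟩
    have : (a • (1 : Matrix ι ι F) + b • J) * (c • (1 : Matrix ι ι F) + d • J) =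
        (a * c) • (1 : Matrix ι ι F) + (a * d + b * c) • J + (b * d) • (J * J) := by
      simp only [add_mul, mul_add, smul_mul_assoc, mul_smul_comm, one_mul, mul_one]
      module
    rw [this, hJ]
    module
  add_mem' := by
    rintro _ _ ⟨a, b, rfl⟩ ⟨c, d, rfl⟩
    refine ⟨a + c, b + d, ?_⟩
    simp only [add_smul]
    abel
  algebraMap_mem' := by
    intro r
    refine ⟨r, 0, ?_⟩
    rw [zero_smul, add_zero, Algebra.algebraMap_eq_smul_one]

theorem mem_KJ {J : Matrix ι ι F} {hJ : J * J = -J - 1} {x : Matrix ι ι F} :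
    x ∈ KJ J hJ ↔ ∃ a b : F, x = a • (1 : Matrix ι ι F) + b • J := Iff.rfl

theorem KJ_field [Fintype F] (hq : Fintype.card F = 2) [Nonempty ι] (J : Matrix ι ι F) (hJ : J * J = -J - 1) :
    IsFieldSubalgebra 2 (KJ J hJ) := by
  have h01 : ∀ x : F, x = 0 ∨ x = 1 := Cfsg.Agent.Lib.NotMax.Sp2.eq_zero_or_one hq
  have h2 : (2 : F) = 0 := Cfsg.Agent.Lib.NotMax.Sp2.two_eq_zero hq
  refine ⟨?_, ?_, ?_⟩
  · rintro _ ⟨a, b, rfl⟩ _ ⟨c, d, rfl⟩
    simp only [add_mul, mul_add, smul_mul_assoc, mul_smul_comm, one_mul, mul_one]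
    module
  · rintro _ ⟨a, b, rfl⟩ hx
    rcases h01 a with rfl | rfl <;> rcases h01 b with rfl | rfl
    · simp at hx
    · refine ⟨-J - 1, ⟨-1, -1, ?_⟩, ?_⟩
      · simp only [neg_smul, one_smul]
        abel
      · simp only [zero_smul, one_smul, zero_add]
        rw [mul_sub, mul_neg, hJ, mul_one]
        abel
    · exact ⟨1, one_mem _, by simp⟩
    · refine ⟨-J, ⟨0, -1, ?_⟩, ?_⟩
      · simp only [neg_smul, one_smul, zero_smul, zero_add]
      · simp only [one_smul]
        rw [mul_neg, add_mul, one_mul, hJ]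
        abel
  · have hinj : ∀ a b : F, a • (1 : Matrix ι ι F) + b • J = 0 → a = 0 ∧ b = 0 := by
      intro a b hab
      have h10 : (1 : Matrix ι ι F) ≠ 0 := one_ne_zero
      by_cases hb : b = 0
      · subst hb
        rw [zero_smul, add_zero] at hab
        exact ⟨(smul_eq_zero.1 hab).resolve_right h10, rfl⟩
      · exfalso
        have hb1 : b = 1 := (h01 b).resolve_left hb
        subst hb1
        rw [one_smul] at hab
        have hJa : J = (-a) • (1 : Matrix ι ι F) := by
          rw [neg_smul]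
          exact eq_neg_of_add_eq_zero_right hab
        rw [hJa] at hJ
        simp only [smul_mul_assoc, mul_smul_comm, one_mul, mul_one, smul_smul] at hJ
        have hj : ((-a) * (-a) + (-a) + 1) • (1 : Matrix ι ι F) = 0 := by
          simp only [add_smul, one_smul]
          rw [hJ, neg_smul]
          abel
        have : (-a) * (-a) + (-a) + 1 = 0 := (smul_eq_zero.1 hj).resolve_right h10
        rcases h01 a with rfl | rfl
        · simp at this
        · have h3 : (1 : F) = 0 := by linear_combination this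
          exact one_ne_zero h3
    let φ : (F × F) →ₗ[F] KJ J hJ :=
      { toFun := fun x => ⟨x.1 • (1 : Matrix ι ι F) + x.2 • J, x.1, x.2, rfl⟩
        map_add' := by
          intro x y
          apply Subtype.ext
          simp only [Prod.fst_add, Prod.snd_add, add_smul, Subalgebra.coe_add]
          abel
        map_smul' := by
          intro c x
          apply Subtype.ext
          simp only [Prod.smul_fst, Prod.smul_snd, smul_eq_mul, RingHom.id_apply, Subalgebra.coe_smul, smul_add, smul_smul] }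
    have hbij : Function.Bijective φ := by
      constructor
      · rw [← LinearMap.ker_eq_bot, LinearMap.ker_eq_bot']
        rintro ⟨a, b⟩ hx
        have : a • (1 : Matrix ι ι F) + b • J = 0 := congrArg Subtype.val hx
        obtain ⟨rfl, rfl⟩ := hinj a b this
        rfl
      · rintro ⟨x, a, b, rfl⟩
        exact ⟨(a, b), rfl⟩
    rw [← (LinearEquiv.ofBijective φ hbij).finrank_eq]
    simp

theorem invNorm_le_normalizer [Fintype F] (hq : Fintype.card F = 2) (J : GL ι F)
    (hJ : (J : Matrix ι ι F) * J = -(J : Matrix ι ι F) - 1) :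
    Cfsg.Agent.Lib.NotMax.Tensor.invNorm J ≤ subalgebraNormalizer (KJ (J : Matrix ι ι F) hJ) := by
  have hinv : ((J⁻¹ : GL ι F) : Matrix ι ι F) = -(J : Matrix ι ι F) - 1 := by
    have h1 : (J : Matrix ι ι F) * (-(J : Matrix ι ι F) - 1) = 1 := by
      rw [mul_sub, mul_neg, hJ, mul_one]
      abel
    calc ((J⁻¹ : GL ι F) : Matrix ι ι F) = ((J⁻¹ : GL ι F) : Matrix ι ι F) * ((J : Matrix ι ι F) * (-(J : Matrix ι ι F) - 1)) := by
          rw [h1, mul_one]
      _ = -(J : Matrix ι ι F) - 1 := by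
          rw [← mul_assoc, ← Units.val_mul, inv_mul_cancel, Units.val_one, one_mul]
  have key : ∀ g : GL ι F, g ∈ Cfsg.Agent.Lib.NotMax.Tensor.invNorm J → ∀ k ∈ KJ (J : Matrix ι ι F) hJ,
      (g : Matrix ι ι F) * k * ((g⁻¹ : GL ι F) : Matrix ι ι F) ∈ KJ (J : Matrix ι ι F) hJ := by
    rintro g hg _ ⟨a, b, rfl⟩
    have h1 : (g : Matrix ι ι F) * ((g⁻¹ : GL ι F) : Matrix ι ι F) = 1 := by
      rw [← Units.val_mul, mul_inv_cancel, Units.val_one]
    have h2 : (g : Matrix ι ι F) * (a • (1 : Matrix ι ι F) + b • (J : Matrix ι ι F)) * ((g⁻¹ : GL ι F) : Matrix ι ι F) =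
        a • (1 : Matrix ι ι F) + b • (((g * J * g⁻¹ : GL ι F)) : Matrix ι ι F) := by
      simp only [mul_add, add_mul, mul_smul_comm, smul_mul_assoc, mul_one, h1, Units.val_mul]
    rw [h2]
    rcases (Cfsg.Agent.Lib.NotMax.Tensor.mem_invNorm).1 hg with h | h
    · rw [h]
      exact ⟨a, b, rfl⟩
    · rw [h, hinv]
      refine ⟨a - b, -b, ?_⟩
      simp only [smul_sub, smul_neg, sub_smul, neg_smul]
      abel
  intro g hg k
  constructor
  · exact key g hg k
  · intro hk
    have := key g⁻¹ (inv_mem hg) _ hk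
    have e : ((g⁻¹ : GL ι F) : Matrix ι ι F) * ((g : Matrix ι ι F) * k * ((g⁻¹ : GL ι F) : Matrix ι ι F)) * ((g⁻¹⁻¹ : GL ι F) : Matrix ι ι F) = k := by
      rw [inv_inv]
      have h1 : ((g⁻¹ : GL ι F) : Matrix ι ι F) * (g : Matrix ι ι F) = 1 := by
        rw [← Units.val_mul, inv_mul_cancel, Units.val_one]
      have h3 : ((g⁻¹ : GL ι F) : Matrix ι ι F) * (g : Matrix ι ι F) = 1 := h1
      calc _ = (((g⁻¹ : GL ι F) : Matrix ι ι F) * (g : Matrix ι ι F)) * k * (((g⁻¹ : GL ι F) : Matrix ι ι F) * (g : Matrix ι ι F)) := by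
            simp only [mul_assoc]
        _ = k := by rw [h1, one_mul, mul_one]
    rwa [e] at this

/-- Tensor decompositions with a two-dimensional factor over the field with two elements lie in the
normaliser of a quadratic field. -/
theorem tensor_q2 [Fintype F] {n : ℕ} (hn : 3 ≤ n) {H : Subgroup (GL (Fin n) F)}
    (hH : IsMaximalIn (specialLinear (Fin n) F) H) {l : ℕ} (e : Fin n ≃ Fin 2 × Fin l) (P : GL (Fin n) F)
    (hHT : H = tensorProductSubgroup 2 l e P ⊓ specialLinear (Fin n) F) (hq : Fintype.card F = 2) :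
    ∃ K : Subalgebra F (Matrix (Fin n) (Fin n) F), IsFieldSubalgebra 2 K ∧
      H = subalgebraNormalizer K ⊓ specialLinear (Fin n) F := by
  haveI : Nonempty (Fin n) := ⟨⟨0, by omega⟩⟩
  have h2 : (2 : F) = 0 := Cfsg.Agent.Lib.NotMax.Sp2.two_eq_zero hq
  set J0' := Cfsg.Agent.Lib.NotMax.Tensor.J0 (l := l) h2 with hJ0'
  have hW : (!![0, 1; 1, 1] : Matrix (Fin 2) (Fin 2) F) * !![0, 1; 1, 1] = -!![0, 1; 1, 1] - 1 := by
    ext i j
    fin_cases i <;> fin_cases j <;> simp [Matrix.mul_apply, Fin.sum_univ_two, Matrix.one_apply]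
    all_goals first | linear_combination h2 | linear_combination 2 * h2
  have hT : ((J0' : GL (Fin 2 × Fin l) F) : Matrix (Fin 2 × Fin l) (Fin 2 × Fin l) F) * ((J0' : GL (Fin 2 × Fin l) F) : Matrix (Fin 2 × Fin l) (Fin 2 × Fin l) F) =
      -((J0' : GL (Fin 2 × Fin l) F) : Matrix (Fin 2 × Fin l) (Fin 2 × Fin l) F) - 1 := by
    have hval : ((J0' : GL (Fin 2 × Fin l) F) : Matrix (Fin 2 × Fin l) (Fin 2 × Fin l) F) =
        Matrix.kroneckerMap (· * ·) (!![0, 1; 1, 1] : Matrix (Fin 2) (Fin 2) F) (1 : Matrix (Fin l) (Fin l) F) := rfl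
    rw [hval, ← Matrix.mul_kronecker_mul, hW, mul_one]
    ext ⟨c1, c2⟩ ⟨d1, d2⟩
    by_cases hh : c2 = d2
    · subst hh
      fin_cases c1 <;> fin_cases d1 <;> simp [Matrix.kroneckerMap_apply, Matrix.one_apply]
    · simp [Matrix.kroneckerMap_apply, Matrix.one_apply, hh]
  set J := Cfsg.Agent.Lib.NotMax.Tensor.Psi e P J0' with hJdef
  have hJ : (J : Matrix (Fin n) (Fin n) F) * J = -(J : Matrix (Fin n) (Fin n) F) - 1 := by
    rw [hJdef, Cfsg.Agent.Lib.NotMax.Tensor.Psi_val]
    have hR : (Matrix.reindex e.symm e.symm ((J0' : GL (Fin 2 × Fin l) F) : Matrix (Fin 2 × Fin l) (Fin 2 × Fin l) F)) *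
        (Matrix.reindex e.symm e.symm ((J0' : GL (Fin 2 × Fin l) F) : Matrix (Fin 2 × Fin l) (Fin 2 × Fin l) F)) =
        -(Matrix.reindex e.symm e.symm ((J0' : GL (Fin 2 × Fin l) F) : Matrix (Fin 2 × Fin l) (Fin 2 × Fin l) F)) - 1 := by
      simp only [Matrix.reindex_apply]
      rw [Matrix.submatrix_mul_equiv, hT]
      ext i j
      simp [Matrix.sub_apply, Matrix.neg_apply, Matrix.submatrix_apply, Matrix.one_apply]
    set R := Matrix.reindex e.symm e.symm ((J0' : GL (Fin 2 × Fin l) F) : Matrix (Fin 2 × Fin l) (Fin 2 × Fin l) F) with hRdef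
    have hP : ((P⁻¹ : GL (Fin n) F) : Matrix (Fin n) (Fin n) F) * (P : Matrix (Fin n) (Fin n) F) = 1 := by
      rw [← Units.val_mul, inv_mul_cancel, Units.val_one]
    have hP' : (P : Matrix (Fin n) (Fin n) F) * ((P⁻¹ : GL (Fin n) F) : Matrix (Fin n) (Fin n) F) = 1 := by
      rw [← Units.val_mul, mul_inv_cancel, Units.val_one]
    calc (P : Matrix (Fin n) (Fin n) F) * R * ((P⁻¹ : GL (Fin n) F) : Matrix (Fin n) (Fin n) F) * ((P : Matrix (Fin n) (Fin n) F) * R * ((P⁻¹ : GL (Fin n) F) : Matrix (Fin n) (Fin n) F))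
        = (P : Matrix (Fin n) (Fin n) F) * (R * (((P⁻¹ : GL (Fin n) F) : Matrix (Fin n) (Fin n) F) * (P : Matrix (Fin n) (Fin n) F)) * R) * ((P⁻¹ : GL (Fin n) F) : Matrix (Fin n) (Fin n) F) := by
          simp only [mul_assoc]
      _ = (P : Matrix (Fin n) (Fin n) F) * (-R - 1) * ((P⁻¹ : GL (Fin n) F) : Matrix (Fin n) (Fin n) F) := by
          rw [hP, mul_one, hR]
      _ = _ := by
          rw [mul_sub, sub_mul, mul_neg, neg_mul, mul_one, hP']
  have hle : H ≤ subalgebraNormalizer (KJ (J : Matrix (Fin n) (Fin n) F) hJ) := by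
    rw [hHT]
    exact inf_le_left.trans ((Cfsg.Agent.Lib.NotMax.Tensor.tensor_le_invNorm hq e P).trans (invNorm_le_normalizer hq J hJ))
  have hn' : 3 ≤ Fintype.card (Fin n) := by simpa using hn
  exact ⟨_, KJ_field hq _ hJ, eq_inf_of_le hH hle (sl_not_le_field hn' (le_refl 2) (KJ_field hq _ hJ))⟩

end F4

end Cfsg.Agent.Lib.Asch.Exc
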